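import Mathlib
import Cfsg.Prelude.Def_LieExceptional
import Cfsg.Agent.H1.Kegel1
import Cfsg.Agent.H4.Nilp
import Cfsg.Agent.H6.PPart

/-! CN-groups: groups in which centralizers of non-identity elements are nilpotent. -/

set_option autoImplicit false
set_option linter.style.haveILetI false

namespace Cfsg.Agent.Lib.Helper10

open Cfsg Subgroup

variable {G : Type*} [Group G]

/-- decomposition into a `p`-part and a `p'`-part, both powers of `g` -/
theorem exists_pdecomp [Finite G] {p : ℕ} (hp : p.Prime) (g : G) :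
    ∃ a b : ℤ, g = g ^ a * g ^ b ∧ (∃ k, orderOf (g ^ a) = p ^ k) ∧ ¬ p ∣ orderOf (g ^ b) := by
  obtain ⟨e, he⟩ := Cfsg.Agent.H6.exists_pPart_exp G hp
  obtain ⟨⟨y, hy1, -, hy3, hy4⟩, -⟩ := he g
  have hy : y = g ^ (1 - e) := by
    rw [zpow_sub, zpow_one]
    have : y = (g ^ e)⁻¹ * g := eq_inv_mul_of_mul_eq hy1
    rw [this]
    exact ((Commute.refl g).zpow_left e).inv_left.eq
  exact ⟨e, 1 - e, by rw [← hy, hy1], hy3, by rw [← hy]; exact hy4⟩

theorem commute_of_mem_nilpotent {L : Subgroup G} (hL : Group.IsNilpotent L) {u w : G}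
    (hu : u ∈ L) (hw : w ∈ L) (h : (orderOf u).Coprime (orderOf w)) : u * w = w * u := by
  have := Cfsg.H1.commute_of_coprime_of_nilpotent L ⟨u, hu⟩ ⟨w, hw⟩
    (by simpa [Subgroup.orderOf_mk] using h)
  exact congrArg Subtype.val this

theorem coprime_of_pow_of_not_dvd {p k n : ℕ} (hp : p.Prime) (h : ¬ p ∣ n) :
    (p ^ k).Coprime n :=
  Nat.Coprime.pow_left k ((Nat.Prime.coprime_iff_not_dvd hp).2 h)

theorem centralizer_eq_of_central (hCN : IsCNGroup G) {H : Subgroup G}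
    (hmax : ∀ L : Subgroup G, Group.IsNilpotent L → H ≤ L → L = H) {z : G} (hz1 : z ≠ 1)
    (hzc : ∀ h ∈ H, z * h = h * z) : centralizer ({z} : Set G) = H :=
  hmax _ (hCN z hz1) (fun h hh => mem_centralizer_singleton_iff.2 (hzc h hh).symm)

theorem mem_of_pElement_of_normal_sylow [Finite G] {p : ℕ} [Fact p.Prime] (P : Sylow p G)
    [hP : (P : Subgroup G).Normal] {x : G} {k : ℕ} (hk : orderOf x = p ^ k) : x ∈ P := by
  have h1 : IsPGroup p (zpowers x) := IsPGroup.of_card (n := k) (by rw [Nat.card_zpowers, hk])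
  obtain ⟨P', hP'⟩ := h1.exists_le_sylow
  haveI := Sylow.unique_of_normal P hP
  have : P' = P := Subsingleton.elim _ _
  rw [← this]
  exact hP' (mem_zpowers x)

theorem exists_central_pElement [Finite G] {H : Subgroup G} (hH : Group.IsNilpotent H) {p : ℕ}
    (hp : p.Prime) (hpH : p ∣ Nat.card H) :
    ∃ z ∈ H, z ≠ 1 ∧ (∃ k, orderOf z = p ^ k) ∧ ∀ h ∈ H, z * h = h * z := by
  haveI := Fact.mk hp
  let P : Sylow p H := default
  have hne : (P : Subgroup H) ≠ ⊥ := Sylow.ne_bot_of_dvd_card P hpH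
  have h1 := Cfsg.Agent.H4.normal_inf_center_ne_bot (P : Subgroup H) hne
  obtain ⟨⟨x, hx⟩, hx1'⟩ := Subgroup.ne_bot_iff_exists_ne_one.mp h1
  have hx1 : x ≠ 1 := fun h => hx1' (Subtype.ext h)
  obtain ⟨k, hk⟩ := (IsPGroup.iff_orderOf.1 P.2) ⟨x, hx.1⟩
  refine ⟨x, x.2, fun h => hx1 (Subtype.ext h), ⟨k, ?_⟩, ?_⟩
  · rw [Subgroup.orderOf_mk] at hk
    rw [Subgroup.orderOf_coe, hk]
  · intro h hh
    have := (mem_center_iff.1 hx.2) ⟨h, hh⟩
    exact (congrArg Subtype.val this).symm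

/-- A maximal nilpotent subgroup of a CN-group is a Hall subgroup. -/
theorem hall_of_max_nilpotent [Finite G] (hCN : IsCNGroup G) {H : Subgroup G}
    (hH : Group.IsNilpotent H)
    (hmax : ∀ L : Subgroup G, Group.IsNilpotent L → H ≤ L → L = H) :
    (Nat.card H).Coprime H.index := by
  apply Nat.coprime_of_dvd
  intro p hp hpH hpi
  haveI := Fact.mk hp
  obtain ⟨z, hzH, hz1, ⟨k, hk⟩, hzc⟩ := exists_central_pElement hH hp hpH
  have hCz := centralizer_eq_of_central hCN hmax hz1 hzc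
  let P : Sylow p H := default
  obtain ⟨S, hS⟩ := (P.2.map H.subtype).exists_le_sylow
  have hpel : ∀ x ∈ H, (∃ k, orderOf x = p ^ k) → x ∈ S := by
    rintro x hx ⟨k, hk⟩
    have h2 : (⟨x, hx⟩ : H) ∈ P :=
      mem_of_pElement_of_normal_sylow P (k := k) (by rw [Subgroup.orderOf_mk, hk])
    exact hS ⟨⟨x, hx⟩, h2, rfl⟩
  haveI hSnt : Nontrivial S :=
    ⟨⟨⟨z, hpel z hzH ⟨k, hk⟩⟩, 1, fun h => hz1 (congrArg Subtype.val h)⟩⟩
  haveI := S.2.center_nontrivial
  obtain ⟨⟨y, hy⟩, hy1'⟩ := exists_ne (1 : center S)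
  have hy1 : (y : G) ≠ 1 := fun h => hy1' (Subtype.ext (Subtype.ext h))
  have hyS : ∀ s ∈ S, (y : G) * s = s * y := by
    intro s hs
    have := (mem_center_iff.1 hy) ⟨s, hs⟩
    exact (congrArg Subtype.val this).symm
  have hyH : (y : G) ∈ H := by
    rw [← hCz, mem_centralizer_singleton_iff]
    exact hyS z (hpel z hzH ⟨k, hk⟩)
  obtain ⟨j, hj⟩ := (IsPGroup.iff_orderOf.1 S.2) y
  rw [← Subgroup.orderOf_coe] at hj
  have hyc : ∀ h ∈ H, (y : G) * h = h * y := by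
    intro h hh
    obtain ⟨a, b, hab, hpa, hpb⟩ := exists_pdecomp hp h
    have h1 : (y : G) * h ^ a = h ^ a * y := hyS _ (hpel _ (H.zpow_mem hh a) hpa)
    have h2 : (y : G) * h ^ b = h ^ b * y :=
      commute_of_mem_nilpotent hH hyH (H.zpow_mem hh b)
        (by rw [hj]; exact coprime_of_pow_of_not_dvd hp hpb)
    rw [hab, ← mul_assoc, h1, mul_assoc, h2, mul_assoc]
  have hCy := centralizer_eq_of_central hCN hmax hy1 hyc
  have hSH : (S : Subgroup G) ≤ H := by
    rw [← hCy]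
    intro s hs
    rw [mem_centralizer_singleton_iff]
    exact (hyS s hs).symm
  exact S.not_dvd_index (hpi.trans (Subgroup.index_dvd_of_le hSH))

theorem centralizer_le_of_two_primes [Finite G] (hCN : IsCNGroup G) {H : Subgroup G}
    (hH : Group.IsNilpotent H)
    (hmax : ∀ L : Subgroup G, Group.IsNilpotent L → H ≤ L → L = H) {p r : ℕ} (hp : p.Prime)
    (hr : r.Prime) (hpr : p ≠ r) (hpH : p ∣ Nat.card H) (hrH : r ∣ Nat.card H) {x : G}
    (hx : x ∈ H) (hx1 : x ≠ 1) : centralizer ({x} : Set G) ≤ H := by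
  obtain ⟨z, hzH, hz1, ⟨k, hk⟩, hzc⟩ := exists_central_pElement hH hp hpH
  obtain ⟨w, hwH, hw1, ⟨l, hl⟩, hwc⟩ := exists_central_pElement hH hr hrH
  have hCz := centralizer_eq_of_central hCN hmax hz1 hzc
  have hCw := centralizer_eq_of_central hCN hmax hw1 hwc
  have hL := hCN x hx1
  have hzL : z ∈ centralizer ({x} : Set G) := mem_centralizer_singleton_iff.2 (hzc x hx)
  have hwL : w ∈ centralizer ({x} : Set G) := mem_centralizer_singleton_iff.2 (hwc x hx)
  intro c hc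
  obtain ⟨a, b, hab, ⟨j, hj⟩, hpb⟩ := exists_pdecomp hp c
  have h1 : c ^ a ∈ H := by
    rw [← hCw, mem_centralizer_singleton_iff]
    refine commute_of_mem_nilpotent hL (zpow_mem hc a) hwL ?_
    rw [hl, hj]
    exact Nat.Coprime.pow _ _ ((Nat.coprime_primes hp hr).2 hpr)
  have h2 : c ^ b ∈ H := by
    rw [← hCz, mem_centralizer_singleton_iff]
    refine commute_of_mem_nilpotent hL (zpow_mem hc b) hzL ?_
    rw [hk]
    exact (coprime_of_pow_of_not_dvd hp hpb).symm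
  rw [hab]
  exact H.mul_mem h1 h2

theorem exists_two_primes {n : ℕ} (h1 : n ≠ 1) (h : ¬ IsPrimePow n) :
    ∃ p r : ℕ, p.Prime ∧ r.Prime ∧ p ≠ r ∧ p ∣ n ∧ r ∣ n := by
  rw [isPrimePow_iff_unique_prime_dvd] at h
  obtain ⟨p, hp, hpn⟩ := Nat.exists_prime_and_dvd h1
  by_contra hcon
  push Not at hcon
  apply h
  refine ⟨p, ⟨hp, hpn⟩, ?_⟩
  rintro r ⟨hr, hrn⟩
  by_contra hne
  exact hcon p r hp hr (fun h => hne h.symm) hpn hrn

end Cfsg.Agent.Lib.Helper10
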