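import Mathlib
import Cfsg.Agent.Lib.Helper10.CNGroup
import Cfsg.Agent.Lib.Helper10.SylNorm
import Cfsg.Agent.H1.Coprime
import Cfsg.Agent.H4.Schmidt2

/-! Quotients of CN-groups by solvable normal subgroups are CN-groups. -/

set_option autoImplicit false
set_option linter.style.haveILetI false

namespace Cfsg.Agent.Lib.Helper10

open Cfsg Subgroup

universe u

section

variable {G : Type*} [Group G] {Q : Type*} [Group Q]

/-- a subgroup covered by the image of a nilpotent subgroup is nilpotent -/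
theorem isNilpotent_of_covered (f : G →* Q) {L : Subgroup G} (hL : Group.IsNilpotent L)
    {D : Subgroup Q} (h : ∀ d ∈ D, ∃ l ∈ L, f l = d) : Group.IsNilpotent D := by
  have h1 : Group.IsNilpotent (L.map f) :=
    Group.nilpotent_of_surjective (f.subgroupMap L) (f.subgroupMap_surjective L)
  refine Cfsg.Agent.H4.isNilpotent_of_le ?_ h1
  intro d hd
  obtain ⟨l, hl, rfl⟩ := h d hd
  exact ⟨l, hl, rfl⟩

theorem isCNGroup_of_bijective (f : G →* Q) (hf : Function.Bijective f) (hCN : IsCNGroup G) :
    IsCNGroup Q := by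
  intro q hq
  obtain ⟨g, rfl⟩ := hf.2 q
  have hg : g ≠ 1 := by
    rintro rfl
    exact hq (map_one f)
  refine isNilpotent_of_covered f (hCN g hg) ?_
  intro d hd
  obtain ⟨c, rfl⟩ := hf.2 d
  refine ⟨c, ?_, rfl⟩
  rw [mem_centralizer_singleton_iff] at hd ⊢
  apply hf.1
  rw [map_mul, map_mul, hd]

variable [Finite G]

/-- coprime lifting of commuting elements -/
theorem exists_mul_commute_of_coprime (f : G →* Q) {u x : G}
    (hcop : (orderOf u).Coprime (Nat.card f.ker)) (hx : f x * f u = f u * f x) :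
    ∃ d ∈ f.ker, (x * d) * u = u * (x * d) := by
  obtain ⟨d, hd, hc⟩ := Cfsg.H1.exists_mul_mem_centralizer (A := zpowers u) (D := f.ker)
    (by rw [normalizer_eq_top]; exact le_top) (by rw [Nat.card_zpowers]; exact hcop)
    (Or.inl inferInstance) x (by
      intro a ha
      obtain ⟨i, rfl⟩ := mem_zpowers_iff.1 ha
      rw [MonoidHom.mem_ker]
      have h1 : Commute (f x) (f u) := hx
      have h2 : Commute (f x) (f u ^ i) := h1.zpow_right i
      simp only [map_mul, map_inv, map_zpow]
      rw [mul_assoc (f x)⁻¹, ← h2.eq]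
      group)
  refine ⟨d, hd, ?_⟩
  exact ((mem_centralizer_iff.1 hc) u (mem_zpowers u)).symm

/-- a `p`-element fixes a nonidentity element of a nontrivial normal `p`-subgroup -/
theorem exists_fixed_of_pElement {p : ℕ} [Fact p.Prime] (V : Subgroup G) [V.Normal]
    (hV : IsPGroup p V) (hV1 : V ≠ ⊥) {t : G} {k : ℕ} (ht : orderOf t = p ^ k) :
    ∃ v ∈ V, v ≠ 1 ∧ t * v = v * t := by
  have h1 : IsPGroup p (zpowers t) := IsPGroup.of_card (n := k) (by rw [Nat.card_zpowers, ht])
  obtain ⟨S, hS⟩ := h1.exists_le_sylow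
  have hVS : V ≤ S := hV.le_sylow_of_normal S
  haveI : Group.IsNilpotent S := S.2.isNilpotent
  have hne : V.subgroupOf S ≠ ⊥ := by
    intro h
    rw [subgroupOf_eq_bot, disjoint_iff, inf_eq_left.2 hVS] at h
    exact hV1 h
  have h2 := Cfsg.Agent.H4.normal_inf_center_ne_bot (V.subgroupOf S) hne
  obtain ⟨⟨x, hx⟩, hx1'⟩ := Subgroup.ne_bot_iff_exists_ne_one.mp h2
  have hx1 : x ≠ 1 := fun h => hx1' (Subtype.ext h)
  refine ⟨x, mem_subgroupOf.1 hx.1, fun h => hx1 (Subtype.ext h), ?_⟩
  have := (mem_center_iff.1 hx.2) ⟨t, hS (mem_zpowers t)⟩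
  exact congrArg Subtype.val this

/-- The quotient of a CN-group by a nontrivial abelian normal `p`-subgroup is a CN-group. -/
theorem isCNGroup_of_ker_abelian_pGroup (hCN : IsCNGroup G) (f : G →* Q)
    (hf : Function.Surjective f) {p : ℕ} [Fact p.Prime] (hVp : IsPGroup p f.ker)
    (hV1 : f.ker ≠ ⊥) (hVab : ∀ a ∈ f.ker, ∀ b ∈ f.ker, a * b = b * a) : IsCNGroup Q := by
  classical
  have hp : p.Prime := Fact.out
  haveI : Finite Q := Finite.of_surjective f hf
  obtain ⟨n, hn⟩ := IsPGroup.iff_card.1 hVp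
  have hVord : ∀ v ∈ f.ker, ∃ k, orderOf v = p ^ k := by
    intro v hv
    obtain ⟨k, hk⟩ := (IsPGroup.iff_orderOf.1 hVp) ⟨v, hv⟩
    exact ⟨k, by rw [← hk, Subgroup.orderOf_mk]⟩
  have hcopV : ∀ u : G, ¬ p ∣ orderOf u → (orderOf u).Coprime (Nat.card f.ker) := by
    intro u hu
    rw [hn]
    exact (coprime_of_pow_of_not_dvd hp hu).symm
  have hcent : ∀ u : G, ¬ p ∣ orderOf u → ∀ v ∈ f.ker, v ≠ 1 → u * v = v * u →
      ∀ w ∈ f.ker, u * w = w * u := by
    intro u hu v hv hv1 huv w hw
    obtain ⟨k, hk⟩ := hVord w hw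
    refine commute_of_mem_nilpotent (hCN v hv1) (mem_centralizer_singleton_iff.2 huv)
      (mem_centralizer_singleton_iff.2 (hVab w hw v hv)) ?_
    rw [hk]
    exact (coprime_of_pow_of_not_dvd hp hu).symm
  have hiii : ∀ t b : G, (∃ k, orderOf t = p ^ k) → ¬ p ∣ orderOf b →
      (∀ w ∈ f.ker, b * w = w * b) → t * b = b * t := by
    rintro t b ⟨k, hk⟩ hb hbV
    obtain ⟨v, hv, hv1, htv⟩ := exists_fixed_of_pElement f.ker hVp hV1 hk
    refine commute_of_mem_nilpotent (hCN v hv1) (mem_centralizer_singleton_iff.2 htv)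
      (mem_centralizer_singleton_iff.2 (hbV v hv)) ?_
    rw [hk]
    exact coprime_of_pow_of_not_dvd hp hb
  intro q hq
  obtain ⟨r, hr, hrq⟩ := Nat.exists_prime_and_dvd (orderOf_eq_one_iff.not.2 hq)
  obtain ⟨z, hz⟩ : ∃ z : Q, z = q ^ (orderOf q / r) := ⟨_, rfl⟩
  have hzord : orderOf z = r := by
    rw [hz]
    exact orderOf_pow_orderOf_div (orderOf_pos q).ne' hrq
  haveI := Fact.mk hr
  obtain ⟨y, hy, j, hj⟩ := exists_lift_prime_pow_order r f hf z ⟨1, by rw [hzord, pow_one]⟩
  have hz1 : z ≠ 1 := by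
    intro h
    rw [h, orderOf_one] at hzord
    exact hr.one_lt.ne hzord
  have hy1 : y ≠ 1 := by
    rintro rfl
    exact hz1 (by rw [← hy, map_one])
  have hcomm : ∀ d ∈ centralizer ({q} : Set Q), d * z = z * d := by
    intro d hd
    have h1 : Commute d q := mem_centralizer_singleton_iff.1 hd
    rw [hz]
    exact (h1.pow_right _).eq
  by_cases hrp : r = p
  · subst hrp
    have hi : ∀ u : G, ¬ r ∣ orderOf u → f u * z = z * f u → ∀ w ∈ f.ker, u * w = w * u := by
      intro u hu huy
      obtain ⟨d, hd, hc⟩ := exists_mul_commute_of_coprime f (u := u) (x := y) (hcopV u hu)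
        (by rw [hy]; exact huy.symm)
      have hfy' : f (y * d) = z := by rw [map_mul, MonoidHom.mem_ker.1 hd, mul_one, hy]
      have hy'1 : y * d ≠ 1 := by
        intro h
        rw [h, map_one] at hfy'
        exact hz1 hfy'.symm
      have hy'ord : ∃ k, orderOf (y * d) = r ^ k := by
        have h1 : (y * d) ^ r ∈ f.ker := by
          rw [MonoidHom.mem_ker, map_pow, hfy']
          conv_lhs => rw [← hzord]
          exact pow_orderOf_eq_one z
        have h2 : ((y * d) ^ r) ^ (r ^ n) = 1 := by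
          have := pow_card_eq_one' (G := f.ker) (x := ⟨_, h1⟩)
          rw [hn] at this
          exact congrArg Subtype.val this
        rw [← pow_mul, ← pow_succ'] at h2
        obtain ⟨k, -, hk⟩ := (Nat.dvd_prime_pow hp).1 (orderOf_dvd_of_pow_eq_one h2)
        exact ⟨k, hk⟩
      obtain ⟨k, hk⟩ := hy'ord
      obtain ⟨v, hv, hv1, hyv⟩ := exists_fixed_of_pElement f.ker hVp hV1 hk
      obtain ⟨l, hl⟩ := hVord v hv
      have huv : u * v = v * u := by
        refine commute_of_mem_nilpotent (hCN _ hy'1) (mem_centralizer_singleton_iff.2 hc.symm)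
          (mem_centralizer_singleton_iff.2 hyv.symm) ?_
        rw [hl]
        exact (coprime_of_pow_of_not_dvd hp hu).symm
      exact hcent u hu v hv hv1 huv
    have hCnil : Group.IsNilpotent ((centralizer ({z} : Set Q)).comap f) := by
      obtain ⟨⟨v₀, hv₀⟩, hv₀1'⟩ := Subgroup.ne_bot_iff_exists_ne_one.mp hV1
      have hv₀1 : v₀ ≠ 1 := fun h => hv₀1' (Subtype.ext h)
      have hN₁ : Group.IsNilpotent (centralizer (f.ker : Set G)) := by
        refine Cfsg.Agent.H4.isNilpotent_of_le ?_ (hCN v₀ hv₀1)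
        intro c hc
        rw [mem_centralizer_singleton_iff]
        exact ((mem_centralizer_iff.1 hc) v₀ hv₀).symm
      have hpart : ∀ c ∈ (centralizer ({z} : Set Q)).comap f, ∀ b : ℤ, ¬ r ∣ orderOf (c ^ b) →
          c ^ b ∈ centralizer (f.ker : Set G) := by
        intro c hc b hpb
        rw [mem_centralizer_iff]
        intro w hw
        refine (hi (c ^ b) hpb ?_ w hw).symm
        have h1 : Commute (f c) z := mem_centralizer_singleton_iff.1 (mem_comap.1 hc)
        rw [map_zpow]
        exact (h1.zpow_left b).eq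
      by_cases hβ : ∃ r' : ℕ, r'.Prime ∧ r' ≠ r ∧ r' ∣ Nat.card (centralizer (f.ker : Set G))
      · obtain ⟨r', hr', hr'p, hdvd⟩ := hβ
        obtain ⟨k', hk'N, hk'1, ⟨l, hl⟩, hk'c⟩ := exists_central_pElement hN₁ hr' hdvd
        have hk'p : ¬ r ∣ orderOf k' := by
          rw [hl]
          intro h
          exact hr'p ((Nat.prime_dvd_prime_iff_eq hp hr').1 (hp.dvd_of_dvd_pow h)).symm
        refine Cfsg.Agent.H4.isNilpotent_of_le ?_ (hCN k' hk'1)
        intro c hc
        obtain ⟨a, b, hab, hpa, hpb⟩ := exists_pdecomp hp c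
        have hcb := hpart c hc b hpb
        have h1 : c ^ a * k' = k' * c ^ a := hiii (c ^ a) k' hpa hk'p
          (fun w hw => ((mem_centralizer_iff.1 hk'N) w hw).symm)
        have h2 : c ^ b * k' = k' * c ^ b := (hk'c _ hcb).symm
        rw [mem_centralizer_singleton_iff, hab, mul_assoc, h2, ← mul_assoc, h1, mul_assoc]
      · have hCp : IsPGroup r ((centralizer ({z} : Set Q)).comap f) := by
          rw [IsPGroup.iff_orderOf]
          rintro ⟨c, hc⟩
          obtain ⟨a, b, hab, ⟨j', hj'⟩, hpb⟩ := exists_pdecomp hp c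
          have hcb := hpart c hc b hpb
          have hcb1 : c ^ b = 1 := by
            by_contra hne
            obtain ⟨r', hr', hr'd⟩ := Nat.exists_prime_and_dvd (orderOf_eq_one_iff.not.2 hne)
            apply hβ
            refine ⟨r', hr', ?_, ?_⟩
            · rintro rfl
              exact hpb hr'd
            · refine hr'd.trans ?_
              have := orderOf_dvd_natCard (⟨c ^ b, hcb⟩ : centralizer (f.ker : Set G))
              rwa [Subgroup.orderOf_mk] at this
          rw [hcb1, mul_one] at hab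
          refine ⟨j', ?_⟩
          rw [Subgroup.orderOf_mk, hab, hj']
        exact hCp.isNilpotent
    refine isNilpotent_of_covered f hCnil ?_
    intro d hd
    obtain ⟨x, rfl⟩ := hf d
    exact ⟨x, mem_comap.2 (mem_centralizer_singleton_iff.2 (hcomm _ hd)), rfl⟩
  · refine isNilpotent_of_covered f (hCN y hy1) ?_
    intro d hd
    obtain ⟨x, rfl⟩ := hf d
    have h1 : ¬ p ∣ orderOf y := by
      rw [hj]
      intro h
      exact hrp ((Nat.prime_dvd_prime_iff_eq hp hr).1 (hp.dvd_of_dvd_pow h)).symm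
    obtain ⟨v, hv, hc⟩ := exists_mul_commute_of_coprime f (u := y) (x := x) (hcopV y h1)
      (by rw [hy]; exact hcomm _ hd)
    exact ⟨x * v, mem_centralizer_singleton_iff.2 hc,
      by rw [map_mul, MonoidHom.mem_ker.1 hv, mul_one]⟩

end

/-- Quotients of CN-groups by solvable normal subgroups. -/
theorem isCNGroup_of_surjective_aux (n : ℕ) : ∀ (G Q : Type u) [Group G] [Group Q] [Finite G],
    Nat.card G = n → IsCNGroup G → ∀ f : G →* Q, Function.Surjective f →
    Group.IsSolvable f.ker → IsCNGroup Q := by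
  induction n using Nat.strong_induction_on with
  | _ n ih =>
    intro G Q _ _ _ hGn hCN f hf hsolv
    by_cases hker : f.ker = ⊥
    · exact isCNGroup_of_bijective f ⟨(MonoidHom.ker_eq_bot_iff f).1 hker, hf⟩ hCN
    · obtain ⟨p, A, hp, hAn, hAle, hA1, hAab, hAexp⟩ :=
        Cfsg.H1.exists_normal_elemAb_le f.ker hsolv hker
      haveI := Fact.mk hp
      haveI := hAn
      have hkerA : (QuotientGroup.mk' A).ker = A := QuotientGroup.ker_mk' A
      have hCN1 : IsCNGroup (G ⧸ A) := by
        refine isCNGroup_of_ker_abelian_pGroup (p := p) hCN (QuotientGroup.mk' A)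
          (QuotientGroup.mk'_surjective A) ?_ ?_ ?_
        · rw [hkerA]
          intro a
          exact ⟨1, by
            apply Subtype.ext
            rw [pow_one]
            exact hAexp a a.2⟩
        · rw [hkerA]
          exact hA1
        · rw [hkerA]
          intro a ha b hb
          rw [commutator_eq_bot_iff_le_centralizer] at hAab
          exact ((mem_centralizer_iff.1 (hAab hb)) a ha)
      refine ih _ (by rw [← hGn]; exact Cfsg.H1.card_quotient_lt hA1) (G ⧸ A) Q rfl hCN1
        (QuotientGroup.lift A f hAle) ?_ ?_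
      · intro q
        obtain ⟨g, rfl⟩ := hf q
        exact ⟨(g : G ⧸ A), rfl⟩
      · rw [QuotientGroup.ker_lift]
        exact Cfsg.H1.isSolvable_map _ hsolv

end Cfsg.Agent.Lib.Helper10
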