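import Mathlib
import Cfsg.Agent.Lib.Helper10.CohExt

/-!
Peterfalvi (5.7): ingredients for coherence of sets of characters of uniform degree.
-/

set_option autoImplicit false

universe u v

namespace Cfsg.Agent.Lib.Helper10

open Cfsg Cfsg.Agent.CharLib
open scoped ComplexConjugate

variable {L : Type u} [Group L] [Fintype L] {G : Type v} [Group G] [Fintype G]
variable {S : Set (L → ℂ)} {τ : (L → ℂ) → (G → ℂ)} {R : (L → ℂ) → Finset (G → ℂ)}

theorem cs_finite (hS : IsCoherenceSystem S τ R) : S.Finite := by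
  classical
  apply LinearIndependent.set_finite_of_isNoetherian (R := ℂ)
  rw [linearIndependent_iff']
  intro s g hg i hi
  have h1 : classInner (∑ j ∈ s, g j • (j : L → ℂ)) (i : L → ℂ) = 0 := by rw [hg]; simp
  rw [classInner_sum_left, Finset.sum_eq_single i] at h1
  · rw [classInner_smul_left] at h1
    obtain ⟨n, hn, h⟩ := cs_norm_nat hS i.2
    rw [h] at h1
    rcases mul_eq_zero.1 h1 with h2 | h2
    · exact h2
    · exfalso
      have : n = 0 := by exact_mod_cast h2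
      omega
  · intro j _ hne
    rw [classInner_smul_left, hS.orthogonal j j.2 i i.2 (fun h => hne (Subtype.ext h)), mul_zero]
  · intro h; exact absurd hi h

theorem int_neg_le_sq (z : ℤ) : -z ≤ z ^ 2 := by
  rcases le_or_gt z 0 with h | h
  · nlinarith
  · nlinarith

theorem cs_R_disjoint (hS : IsCoherenceSystem S τ R) {χ ξ : L → ℂ} (hχ : χ ∈ S) (hξ : ξ ∈ S) (h1 : ξ ≠ χ)
    (h2 : ξ ≠ Cfsg.conjFun χ) : ∀ α ∈ R ξ, ∀ β ∈ R χ, classInner α β = 0 :=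
  hS.disjoint χ hχ ξ hξ (hS.orthogonal ξ hξ χ hχ h1) (hS.orthogonal ξ hξ _ (hS.conj_mem χ hχ) h2)

omit [Group G] [Fintype G] in
theorem sum_eq_comb (F : Finset (G → ℂ)) : ∑ α ∈ F, α = ∑ α ∈ F, (((fun _ => 1 : (G → ℂ) → ℤ) α : ℤ) : ℂ) • α := by
  simp

/-- two-sided decomposition of `τ (χ - ξ)` -/
theorem cs_split2 (hS : IsCoherenceSystem S τ R) {χ ξ : L → ℂ} (hχ : χ ∈ S) (hξ : ξ ∈ S) (h1 : ξ ≠ χ)
    (h2 : ξ ≠ Cfsg.conjFun χ) (hdeg : χ 1 = ξ 1) {nχ nξ : ℕ} (hnχ : classInner χ χ = nχ)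
    (hnξ : classInner ξ ξ = nξ) :
    ∃ c e : (G → ℂ) → ℤ, τ (χ - ξ) = ∑ α ∈ R χ, (c α : ℂ) • α - ∑ β ∈ R ξ, (e β : ℂ) • β ∧
      ∑ α ∈ R χ, c α = nχ ∧ ∑ α ∈ R χ, c α ^ 2 = nχ ∧ ∑ β ∈ R ξ, e β = nξ ∧ ∑ β ∈ R ξ, e β ^ 2 = nξ := by
  have hτ := hS.isometry
  have hmem : χ - ξ ∈ zspanOn S {1}ᶜ := cs_sub_mem hS hχ hξ hdeg
  have hχb := hS.conj_mem χ hχ
  have hξb := hS.conj_mem ξ hξ
  have hδχ : χ - Cfsg.conjFun χ ∈ zspanOn S {1}ᶜ := cs_sub_conj_mem hS hχ hχ hχb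
  have hδξ : ξ - Cfsg.conjFun ξ ∈ zspanOn S {1}ᶜ := cs_sub_conj_mem hS hξ hξ hξb
  have hv := lio_virtual hτ hmem
  have o1 : classInner ξ χ = 0 := hS.orthogonal ξ hξ χ hχ h1
  have o2 : classInner χ ξ = 0 := classInner_eq_zero_symm o1
  have o3 : classInner ξ (Cfsg.conjFun χ) = 0 := hS.orthogonal ξ hξ _ hχb h2
  have o4 : classInner χ (Cfsg.conjFun χ) = 0 := cs_orth_conj hS hχ
  have o5 : classInner ξ (Cfsg.conjFun ξ) = 0 := cs_orth_conj hS hξ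
  have o6 : classInner χ (Cfsg.conjFun ξ) = 0 := by
    apply hS.orthogonal χ hχ _ hξb
    intro h
    apply h2
    rw [h]; ext x; simp [Cfsg.conjFun]
  obtain ⟨c, hc1, hc2, hc3, hc4, hc5⟩ := cs_split hS hχ hv
  obtain ⟨e', he1, he2, he3, he4, he5⟩ := cs_split hS hξ hc4
  obtain ⟨k, hk⟩ := norm_virtual_nat he4
  have hdis := cs_R_disjoint hS hχ hξ h1 h2
  rw [lio_inner hτ hmem hδχ, classInner_sub_left, classInner_sub_right, classInner_sub_right, hnχ, o4, o1, o3] at hc2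
  have hc2' : (nχ : ℤ) = ∑ α ∈ R χ, c α := by
    have : ((nχ : ℤ) : ℂ) = ((∑ α ∈ R χ, c α : ℤ) : ℂ) := by rw [← hc2]; push_cast; ring
    exact_mod_cast this
  have hz : classInner (∑ α ∈ R χ, (c α : ℂ) • α) (τ (ξ - Cfsg.conjFun ξ)) = 0 := by
    rw [hS.sum_eq ξ hξ, sum_eq_comb]
    exact inner_comb_zero _ _ _ _ fun α hα β hβ => classInner_eq_zero_symm (hdis β hβ α hα)
  rw [classInner_sub_left, hz, lio_inner hτ hmem hδξ, classInner_sub_left, classInner_sub_right,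
    classInner_sub_right, hnξ, o2, o6, o5] at he2
  have he2' : -(nξ : ℤ) = ∑ β ∈ R ξ, e' β := by
    have : ((-(nξ : ℤ) : ℤ) : ℂ) = ((∑ β ∈ R ξ, e' β : ℤ) : ℂ) := by rw [← he2]; push_cast; ring
    exact_mod_cast this
  rw [he5, hk, lio_inner hτ hmem hmem, classInner_sub_left, classInner_sub_right, classInner_sub_right, hnχ, hnξ,
    o1, o2] at hc5
  have hc5' : (nχ : ℤ) + nξ = k + ∑ β ∈ R ξ, e' β ^ 2 + ∑ α ∈ R χ, c α ^ 2 := by
    have : (((nχ : ℤ) + nξ : ℤ) : ℂ) = ((k + ∑ β ∈ R ξ, e' β ^ 2 + ∑ α ∈ R χ, c α ^ 2 : ℤ) : ℂ) := by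
      push_cast; push_cast at hc5; rw [← hc5]; ring
    exact_mod_cast this
  have l1 : ∑ α ∈ R χ, c α ≤ ∑ α ∈ R χ, c α ^ 2 := Finset.sum_le_sum fun α _ => int_le_sq _
  have l2 : ∑ β ∈ R ξ, -e' β ≤ ∑ β ∈ R ξ, e' β ^ 2 := Finset.sum_le_sum fun α _ => int_neg_le_sq _
  rw [Finset.sum_neg_distrib] at l2
  have hk0 : k = 0 := by omega
  rw [hk0] at hk
  have hΓ := classInner_self_eq_zero (by simpa using hk)
  refine ⟨c, fun β => -e' β, ?_, hc2'.symm, by omega, ?_, ?_⟩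
  · have h3 := sub_eq_zero.1 hΓ
    have h4 := sub_eq_iff_eq_add.1 h3
    rw [h4]
    simp only [Int.cast_neg, neg_smul, Finset.sum_neg_distrib, sub_neg_eq_add]
    rw [add_comm]
  · rw [Finset.sum_neg_distrib]; omega
  · simp only [neg_sq]; omega

/-- The final construction: from a suitable `X` to coherence, in the uniform degree case. -/
theorem cs_uniform_of_X (hS : IsCoherenceSystem S τ R) (hdeg : ∀ φ ∈ S, ∀ ψ ∈ S, φ 1 = ψ 1) {χ : L → ℂ}
    (hχ : χ ∈ S) {X : G → ℂ} (hX : IsGeneralizedCharacter G X) (hXn : classInner X X = classInner χ χ)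
    (hXτ : ∀ ξ ∈ S, ξ ≠ χ → classInner X (τ (χ - ξ)) = classInner χ χ) : IsCoherent S {1}ᶜ τ := by
  classical
  have hτ := hS.isometry
  obtain ⟨n, hnpos, hn⟩ := cs_norm_nat hS hχ
  have hfin := cs_finite hS
  have hT : (↑hfin.toFinset : Set (L → ℂ)) = S := hfin.coe_toFinset
  have hTS : (↑hfin.toFinset : Set (L → ℂ)) ⊆ S := hT.le
  have hmemT : ∀ ξ, ξ ∈ hfin.toFinset ↔ ξ ∈ S := fun ξ => hfin.mem_toFinset
  have hmem : ∀ ξ ∈ S, χ - ξ ∈ zspanOn S {1}ᶜ := fun ξ hξ => cs_sub_mem hS hχ hξ (hdeg χ hχ ξ hξ)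
  have hτ0 : τ (χ - χ) = 0 := by rw [sub_self]; exact lio_zero' hτ
  set f : (L → ℂ) → (G → ℂ) := fun ξ => X - τ (χ - ξ) with hf
  have hfχ : f χ = X := by simp only [hf, hτ0, sub_zero]
  have hgram : ∀ ξ ∈ S, ∀ ξ' ∈ S, classInner (f ξ) (f ξ') = classInner ξ ξ' := by
    intro ξ hξ ξ' hξ'
    by_cases h : ξ = χ
    · subst h
      by_cases h' : ξ' = ξ
      · subst h'
        rw [hfχ, hXn]
      · rw [hfχ]
        simp only [hf]
        rw [classInner_sub_right, hXn, hXτ ξ' hξ' h', sub_self, hS.orthogonal ξ hξ ξ' hξ' (Ne.symm h')]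
    · by_cases h' : ξ' = χ
      · subst h'
        rw [hfχ]
        simp only [hf]
        rw [classInner_sub_left, hXn, ← classInner_conj_symm X, hXτ ξ hξ h, hn, hS.orthogonal ξ hξ ξ' hξ' h]
        simp
      · simp only [hf]
        rw [classInner_sub_left, classInner_sub_right, classInner_sub_right, hXn, hXτ ξ' hξ' h',
          ← classInner_conj_symm X (τ (χ - ξ)), hXτ ξ hξ h, lio_inner hτ (hmem ξ hξ) (hmem ξ' hξ'),
          classInner_sub_left, classInner_sub_right, classInner_sub_right, hn,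
          hS.orthogonal χ hχ ξ' hξ' (Ne.symm h'), hS.orthogonal ξ hξ χ hχ h]
        simp
  have hlio : IsLinearIsometryOn (zspan (↑hfin.toFinset : Set (L → ℂ))) (extMap hfin.toFinset f) := by
    apply extMap_lio (cs_orthoSet hS hTS) f
    · intro ξ hξ ξ' hξ'
      exact hgram ξ ((hmemT ξ).1 hξ) ξ' ((hmemT ξ').1 hξ')
    · intro ξ hξ
      exact isGeneralizedCharacter_sub hX (lio_virtual hτ (hmem ξ ((hmemT ξ).1 hξ)))
  obtain ⟨d₀, hd₀pos, hd₀⟩ := cs_degree_nat hS hχ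
  have hagree : ∀ θ ∈ zspanOn (↑hfin.toFinset : Set (L → ℂ)) {1}ᶜ, extMap hfin.toFinset f θ = τ θ := by
    apply agree_of_base (by rw [hT]; exact hτ) hlio (fun _ => (d₀ : ℤ))
      (fun ξ hξ => by rw [hdeg ξ ((hmemT ξ).1 hξ) χ hχ, hd₀]; simp) ((hmemT χ).2 hχ)
      (by exact_mod_cast hd₀pos.ne')
    intro ξ hξ
    have hξS := (hmemT ξ).1 hξ
    rw [lio_comb hlio (fun α ha n => zspan_zsmul ha n) (mem_zspan_of_mem hξ) (mem_zspan_of_mem ((hmemT χ).2 hχ)),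
      extMap_mem (cs_orthoSet hS hTS) f hξ, extMap_mem (cs_orthoSet hS hTS) f ((hmemT χ).2 hχ), hfχ]
    have e1 : (d₀ : ℤ) • ξ + (-(d₀ : ℤ)) • χ = (-(d₀ : ℤ)) • (χ - ξ) := by
      ext x
      simp only [Pi.add_apply, Pi.smul_apply, Pi.sub_apply]
      simp only [zsmul_eq_mul]
      push_cast; ring
    rw [e1, lio_zsmul hτ (hmem ξ hξS)]
    simp only [hf]
    ext x
    simp only [Pi.add_apply, Pi.smul_apply, Pi.sub_apply]
    simp only [zsmul_eq_mul]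
    push_cast; ring
  rw [hT] at hlio hagree
  refine ⟨⟨χ - Cfsg.conjFun χ, cs_sub_conj_mem hS hχ hχ (hS.conj_mem χ hχ), ?_⟩, _, hlio, hagree⟩
  intro h0
  exact hS.conj_ne χ hχ (sub_eq_zero.1 h0).symm

end Cfsg.Agent.Lib.Helper10
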