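import Mathlib
import Cfsg.Prelude.Def_Characters
import Cfsg.Prelude.Def_OddOrderChar
import Cfsg.Agent.Lib.Helper10.CentSec
import Cfsg.Agent.Lib.Helper10.RelChar
import Cfsg.Agent.Lib.Helper10.LinIrr
import Cfsg.Agent.Lib.Helper10.CohUnif

set_option autoImplicit false

namespace Cfsg.Agent.Lib.Helper10

open Cfsg Cfsg.Agent.CharLib Cfsg.Agent.Lib.Helper23
open scoped ComplexConjugate

universe u v

section fiber

variable {L : Type u} [Group L] [Fintype L] (K : Subgroup L)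

theorem conjFun_indFun (θ : K → ℂ) : Cfsg.conjFun (indFun K θ) = indFun K (Cfsg.conjFun θ) := by
  funext g
  simp only [Cfsg.conjFun, H2.indFun_apply, map_mul, map_inv₀, map_natCast, map_sum]
  congr 1
  refine Finset.sum_congr rfl fun x _ => ?_
  by_cases h : x⁻¹ * g * x ∈ K
  · rw [H2.extendByZero_of_mem _ _ h, H2.extendByZero_of_mem _ _ h]; rfl
  · rw [H2.extendByZero_of_not_mem _ _ h, H2.extendByZero_of_not_mem _ _ h, map_zero]

/-- the number of irreducible characters inducing a given character -/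
theorem card_fiber_mul_le {φ : L → ℂ} (hφ : IsCharacter L φ) {d n : ℕ} (hd : φ 1 = d) (hd0 : 0 < d)
    (hn : classInner φ φ = n) (F : Finset (IrrCharacter K))
    (hF : ∀ θ ∈ F, indFun K (θ : K → ℂ) = φ) : F.card * n ≤ K.index := by
  classical
  obtain ⟨m, hm, hm2⟩ := H2.exists_mult (isCharacter_restrict hφ K)
  have h1 : ∀ θ ∈ F, m θ = n := by
    intro θ hθ
    have h2 := H2.frobenius_reciprocity K (θ : K → ℂ) (isClassFunction_of_char hφ)
    rw [hF θ hθ, hn] at h2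
    have h3 := hm2 θ
    rw [← classInner_conj_symm, ← h2, Complex.conj_natCast] at h3
    exact_mod_cast h3.symm
  have h2 : ∀ θ ∈ F, K.index * charDegree (θ : K → ℂ) = d := by
    intro θ hθ
    have h3 := H2.indFun_apply_one K (θ : K → ℂ)
    rw [hF θ hθ, hd, ← charDegree_cast_irr θ] at h3
    exact_mod_cast h3.symm
  have h3 : d = ∑ θ : IrrCharacter K, m θ * charDegree (θ : K → ℂ) := by
    have h4 := congrFun hm 1
    simp only [Finset.sum_apply, Pi.smul_apply, smul_eq_mul, OneMemClass.coe_one] at h4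
    rw [hd] at h4
    have h5 : (d : ℂ) = ((∑ θ : IrrCharacter K, m θ * charDegree (θ : K → ℂ) : ℕ) : ℂ) := by
      rw [h4]; push_cast
      exact Finset.sum_congr rfl fun θ _ => by rw [charDegree_cast_irr θ]
    exact_mod_cast h5
  have h4 : ∑ θ ∈ F, m θ * charDegree (θ : K → ℂ) ≤ d := by
    rw [h3]
    exact Finset.sum_le_sum_of_subset_of_nonneg (Finset.subset_univ _) (fun _ _ _ => Nat.zero_le _)
  have h5 : K.index * ∑ θ ∈ F, m θ * charDegree (θ : K → ℂ) = F.card * n * d := by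
    rw [Finset.mul_sum]
    rw [Finset.sum_congr rfl (fun θ hθ => show K.index * (m θ * charDegree (θ : K → ℂ)) = n * d by
      rw [h1 θ hθ, ← h2 θ hθ]; ring)]
    rw [Finset.sum_const, smul_eq_mul]; ring
  have h6 : F.card * n * d ≤ K.index * d := by
    rw [← h5]; exact Nat.mul_le_mul_left _ h4
  exact Nat.le_of_mul_le_mul_right h6 hd0

theorem index_mul_sum_sq_le (𝒜 : Finset (IrrCharacter K)) (T : Finset (L → ℂ))
    (hT : ∀ θ ∈ 𝒜, indFun K (θ : K → ℂ) ∈ T) (d n : (L → ℂ) → ℕ)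
    (hch : ∀ φ ∈ T, IsCharacter L φ) (hd : ∀ φ ∈ T, φ 1 = d φ) (hd0 : ∀ φ ∈ T, 0 < d φ)
    (hn : ∀ φ ∈ T, classInner φ φ = n φ) (hn0 : ∀ φ ∈ T, 0 < n φ) :
    (K.index : ℝ) * ∑ θ ∈ 𝒜, (charDegree (θ : K → ℂ) : ℝ) ^ 2 ≤
      ∑ φ ∈ T, ((d φ : ℝ) ^ 2 / (n φ : ℝ)) := by
  classical
  rw [← Finset.sum_fiberwise_of_maps_to hT, Finset.mul_sum]
  apply Finset.sum_le_sum
  intro φ hφ
  have he : (0 : ℝ) < K.index := by exact_mod_cast Nat.pos_of_ne_zero Subgroup.index_ne_zero_of_finite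
  have hn' : (0 : ℝ) < n φ := by exact_mod_cast hn0 φ hφ
  have h1 := card_fiber_mul_le K (hch φ hφ) (hd φ hφ) (hd0 φ hφ) (hn φ hφ)
    (𝒜.filter (fun θ : IrrCharacter K => indFun K (θ : K → ℂ) = φ)) (fun θ hθ => (Finset.mem_filter.1 hθ).2)
  have h2 : ∀ θ ∈ 𝒜.filter (fun θ : IrrCharacter K => indFun K (θ : K → ℂ) = φ),
      (charDegree (θ : K → ℂ) : ℝ) ^ 2 = ((d φ : ℝ) / K.index) ^ 2 := by
    intro θ hθ
    have h3 := H2.indFun_apply_one K (θ : K → ℂ)
    rw [(Finset.mem_filter.1 hθ).2, hd φ hφ, ← charDegree_cast_irr θ] at h3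
    have h4 : (d φ : ℝ) = (K.index : ℝ) * charDegree (θ : K → ℂ) := by exact_mod_cast h3
    rw [h4, mul_div_cancel_left₀ _ he.ne']
  rw [Finset.sum_congr rfl h2, Finset.sum_const, nsmul_eq_mul]
  have h3 : (((𝒜.filter (fun θ : IrrCharacter K => indFun K (θ : K → ℂ) = φ)).card : ℝ)) * n φ ≤ K.index := by
    exact_mod_cast h1
  rw [le_div_iff₀ hn']
  have h4 : (K.index : ℝ) * (((𝒜.filter (fun θ : IrrCharacter K => indFun K (θ : K → ℂ) = φ)).card : ℝ) *
      ((d φ : ℝ) / K.index) ^ 2) * n φ =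
      ((((𝒜.filter (fun θ : IrrCharacter K => indFun K (θ : K → ℂ) = φ)).card : ℝ)) * n φ) * ((d φ : ℝ) ^ 2 / K.index) := by
    field_simp
  rw [h4]
  calc ((((𝒜.filter (fun θ : IrrCharacter K => indFun K (θ : K → ℂ) = φ)).card : ℝ)) * n φ) * ((d φ : ℝ) ^ 2 / K.index)
      ≤ (K.index : ℝ) * ((d φ : ℝ) ^ 2 / K.index) := by
        apply mul_le_mul_of_nonneg_right h3 (by positivity)
    _ = (d φ : ℝ) ^ 2 := by field_simp

end fiber

section above

variable {L : Type u} [Group L] [Fintype L] (K : Subgroup L)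

open Classical in
/-- the nonprincipal irreducible characters of `K` with `A` in the kernel -/
noncomputable def irrAbove (A : Subgroup L) : Finset (IrrCharacter K) :=
  Finset.univ.filter (fun θ => (θ : K → ℂ) ≠ (fun _ => 1) ∧
    ∀ a : K, (a : L) ∈ A → (θ : K → ℂ) a = (θ : K → ℂ) 1)

theorem mem_irrAbove {A : Subgroup L} {θ : IrrCharacter K} : θ ∈ irrAbove K A ↔
    (θ : K → ℂ) ≠ (fun _ => 1) ∧ ∀ a : K, (a : L) ∈ A → (θ : K → ℂ) a = (θ : K → ℂ) 1 := by
  simp [irrAbove]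

theorem mem_inducedIrrAbove_iff {A : Subgroup L} {φ : L → ℂ} :
    φ ∈ inducedIrrAbove K A ↔ ∃ θ ∈ irrAbove K A, φ = indFun K (θ : K → ℂ) := by
  constructor
  · rintro ⟨θ, h1, h2, h3, h4⟩
    exact ⟨⟨θ, h1⟩, (mem_irrAbove K).2 ⟨h2, h3⟩, h4⟩
  · rintro ⟨θ, h1, h2⟩
    rw [mem_irrAbove] at h1
    exact ⟨θ, θ.2, h1.1, h1.2, h2⟩

theorem inducedIrrAbove_subset_bot (A : Subgroup L) : inducedIrrAbove K A ⊆ inducedIrrAbove K ⊥ := by
  rintro φ ⟨θ, h1, h2, h3, h4⟩
  refine ⟨θ, h1, h2, ?_, h4⟩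
  intro a ha
  rw [Subgroup.mem_bot] at ha
  have : a = 1 := Subtype.ext ha
  rw [this]

theorem conjFun_mem_inducedIrrAbove {A : Subgroup L} {φ : L → ℂ} (h : φ ∈ inducedIrrAbove K A) :
    Cfsg.conjFun φ ∈ inducedIrrAbove K A := by
  classical
  obtain ⟨θ, h1, h2, h3, rfl⟩ := h
  refine ⟨Cfsg.conjFun θ, isIrrCharacter_conj h1, ?_, ?_, conjFun_indFun K θ⟩
  · intro h
    apply h2
    funext k
    have := congrArg conj (congrFun h k)
    simpa [Cfsg.conjFun] using this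
  · intro a ha
    show conj (θ a) = conj (θ 1)
    rw [h3 a ha]

theorem sum_irrAbove_sq (A : Subgroup L) [A.Normal] :
    ∑ θ ∈ irrAbove K A, charDegree (θ : K → ℂ) ^ 2 + 1 = A.relIndex K := by
  classical
  have h := sum_not_rel_sq (A.subgroupOf K)
  let triv : IrrCharacter K := ⟨fun _ => 1, isIrrCharacter_one⟩
  have h1 : ∀ μ : IrrCharacter K,
      (if Rel (A.subgroupOf K) (μ : K → ℂ) then (0 : ℂ) else (μ : K → ℂ) 1 * (μ : K → ℂ) 1) =
      (if μ ∈ irrAbove K A then ((charDegree (μ : K → ℂ) ^ 2 : ℕ) : ℂ) else 0) +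
        (if μ = triv then 1 else 0) := by
    intro μ
    by_cases h2 : μ = triv
    · subst h2
      rw [if_neg, if_neg, if_pos rfl]
      · simp [triv]
      · rw [mem_irrAbove]
        intro h3
        exact h3.1 rfl
      · rintro ⟨x, -, hx⟩
        exact hx rfl
    · rw [if_neg h2, add_zero]
      by_cases h3 : Rel (A.subgroupOf K) (μ : K → ℂ)
      · rw [if_pos h3, if_neg]
        rw [mem_irrAbove]
        rintro ⟨-, h4⟩
        obtain ⟨x, hx, hne⟩ := h3
        exact hne (h4 x (Subgroup.mem_subgroupOf.1 hx))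
      · rw [if_neg h3, if_pos]
        · rw [← charDegree_cast_irr μ]; push_cast; ring
        · rw [mem_irrAbove]
          refine ⟨fun h4 => h2 (Subtype.ext h4), fun a ha => ?_⟩
          by_contra hne
          exact h3 ⟨a, Subgroup.mem_subgroupOf.2 ha, hne⟩
  rw [Finset.sum_congr rfl (fun μ _ => h1 μ), Finset.sum_add_distrib, Finset.sum_ite_mem,
    Finset.univ_inter, Finset.sum_ite_eq' Finset.univ triv, if_pos (Finset.mem_univ _)] at h
  have h2 : ((∑ θ ∈ irrAbove K A, charDegree (θ : K → ℂ) ^ 2 + 1 : ℕ) : ℂ) = ((A.relIndex K : ℕ) : ℂ) := by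
    push_cast
    push_cast at h
    exact h
  exact_mod_cast h2

theorem exists_linear_irrAbove (hsolv : Group.IsSolvable K) (A : Subgroup L) [A.Normal] (hAK : A < K) :
    ∃ θ ∈ irrAbove K A, charDegree (θ : K → ℂ) = 1 := by
  have hne : A.subgroupOf K ≠ ⊤ := by
    rw [Ne, Subgroup.subgroupOf_eq_top]
    exact not_le_of_gt hAK
  have : Nontrivial (K ⧸ A.subgroupOf K) := QuotientGroup.nontrivial_iff.2 hne
  obtain ⟨q, -, hq⟩ := SetLike.exists_of_lt
    (Group.IsSolvable.commutator_lt_top_of_nontrivial (K ⧸ A.subgroupOf K))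
  obtain ⟨l, hl⟩ := exists_hom_ne_one_of_notMem_commutator hq
  obtain ⟨k, rfl⟩ := QuotientGroup.mk_surjective q
  refine ⟨⟨_, isIrrCharacter_of_hom (l.comp (QuotientGroup.mk' (A.subgroupOf K)))⟩, ?_, ?_⟩
  · rw [mem_irrAbove]
    constructor
    · intro h
      apply hl
      have := congrFun h k
      exact Units.ext this
    · intro a ha
      show (((l.comp (QuotientGroup.mk' (A.subgroupOf K))) a : ℂˣ) : ℂ) =
        (((l.comp (QuotientGroup.mk' (A.subgroupOf K))) 1 : ℂˣ) : ℂ)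
      have h1 : QuotientGroup.mk' (A.subgroupOf K) a = 1 :=
        (QuotientGroup.eq_one_iff a).2 (Subgroup.mem_subgroupOf.2 ha)
      rw [MonoidHom.comp_apply, h1, map_one, map_one]
  · apply Cfsg.Agent.H25.charDegree_of_apply_one
    show (((l.comp (QuotientGroup.mk' (A.subgroupOf K))) 1 : ℂˣ) : ℂ) = ((1 : ℕ) : ℂ)
    rw [map_one]; simp

theorem charDegree_irrAbove_bound (B C D : Subgroup L) (hDC : D ≤ C) (hCK : C ≤ K)
    (hcent : ∀ x ∈ D, ∀ y ∈ C, x * y * x⁻¹ * y⁻¹ ∈ B) {θ : IrrCharacter K} (hθ : θ ∈ irrAbove K B) :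
    (K.index * charDegree (θ : K → ℂ)) ^ 2 ≤ C.index ^ 2 * D.relIndex C := by
  classical
  rw [mem_irrAbove] at hθ
  have h := charDegree_central_section θ (B.subgroupOf K) (C.subgroupOf K) (D.subgroupOf K)
    (fun x hx => hDC hx)
    (fun d hd c hc => Subgroup.mem_subgroupOf.2 (hcent d (Subgroup.mem_subgroupOf.1 hd) c
      (Subgroup.mem_subgroupOf.1 hc)))
    (fun b hb => hθ.2 b (Subgroup.mem_subgroupOf.1 hb))
  rw [Nat.card_congr (Subgroup.subgroupOfEquivOfLe hCK).toEquiv,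
    Nat.card_congr (Subgroup.subgroupOfEquivOfLe (hDC.trans hCK)).toEquiv] at h
  have h1 := Subgroup.card_mul_index K
  have h2 := Subgroup.card_mul_index C
  have h3 := Subgroup.card_mul_index D
  have h4 := Subgroup.relIndex_mul_index hDC
  have hpos : 0 < Nat.card C * Nat.card D := Nat.mul_pos Nat.card_pos Nat.card_pos
  apply Nat.le_of_mul_le_mul_right _ hpos
  calc (K.index * charDegree (θ : K → ℂ)) ^ 2 * (Nat.card C * Nat.card D)
      = K.index ^ 2 * (charDegree (θ : K → ℂ) ^ 2 * Nat.card C * Nat.card D) := by ring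
    _ ≤ K.index ^ 2 * Nat.card K ^ 2 := Nat.mul_le_mul_left _ h
    _ = (Nat.card K * K.index) * (Nat.card K * K.index) := by ring
    _ = (Nat.card C * C.index) * (Nat.card D * D.index) := by rw [h1, h2, h3]
    _ = C.index ^ 2 * D.relIndex C * (Nat.card C * Nat.card D) := by rw [← h4]; ring

end above

end Cfsg.Agent.Lib.Helper10
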