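import Mathlib
import Cfsg.Agent.Lib.Helper10.CohDesc
import Cfsg.Agent.S1517

set_option autoImplicit false

namespace Cfsg.Agent.Lib.Helper10

open Cfsg Cfsg.Agent.CharLib Cfsg.Agent.Lib.Helper23
open scoped ComplexConjugate commutatorElement

universe u v

variable {L : Type u} [Group L] [Fintype L] {G : Type v} [Group G] [Fintype G]
variable {S : Set (L → ℂ)} {τ : (L → ℂ) → (G → ℂ)} {R : (L → ℂ) → Finset (G → ℂ)}

theorem cs_sub (hS : IsCoherenceSystem S τ R) {T : Set (L → ℂ)} (hT : T ⊆ S) (hne : T.Nonempty)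
    (hc : ∀ χ ∈ T, Cfsg.conjFun χ ∈ T) : IsCoherenceSystem T τ R where
  nonempty := hne
  isCharacter := fun χ h => hS.isCharacter χ (hT h)
  conj_mem := hc
  conj_ne := fun χ h => hS.conj_ne χ (hT h)
  isometry := lio_mono hS.isometry (zspanOn_mono hT)
  map_one := fun α h => hS.map_one α (zspanOn_mono hT h)
  orthogonal := fun χ h φ h' => hS.orthogonal χ (hT h) φ (hT h')
  orthonormal := fun χ h => hS.orthonormal χ (hT h)
  virtual := fun χ h => hS.virtual χ (hT h)
  sum_eq := fun χ h => hS.sum_eq χ (hT h)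
  disjoint := fun χ h φ h' => hS.disjoint χ (hT h) φ (hT h')

theorem charDegree_eq_one_of_irrAbove (K H₁ : Subgroup L) (hab : ⁅K, K⁆ ≤ H₁) {θ : IrrCharacter K}
    (hθ : θ ∈ irrAbove K H₁) : charDegree (θ : K → ℂ) = 1 := by
  classical
  rw [mem_irrAbove] at hθ
  have h1 := charDegree_sq_mul_card_le θ ⊤ (by
    intro d _ a
    apply hθ.2
    apply hab
    have := Subgroup.commutator_mem_commutator a.2 d.2
    rwa [commutatorElement_def] at this)
  rw [Subgroup.card_top] at h1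
  have h2 : charDegree (θ : K → ℂ) ^ 2 ≤ 1 :=
    Nat.le_of_mul_le_mul_right (by rwa [one_mul]) Nat.card_pos
  have h3 : charDegree (θ : K → ℂ) ≠ 0 := by
    intro h
    have := charDegree_cast_irr θ
    rw [h] at this
    exact irr_apply_one_ne_zero θ (by simpa using this.symm)
  nlinarith [Nat.pos_of_ne_zero h3]

theorem coherent_of_commutator_le (K : Subgroup L) (hsolv : Group.IsSolvable K)
    (hS : IsCoherenceSystem (inducedIrrAbove K ⊥) τ R) (H₁ : Subgroup L) [H₁.Normal] (hH₁K : H₁ < K)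
    (hab : ⁅K, K⁆ ≤ H₁) : IsCoherent (inducedIrrAbove K H₁) {1}ᶜ τ := by
  obtain ⟨lam, hlam, -⟩ := exists_linear_irrAbove K hsolv H₁ hH₁K
  refine Cfsg.Agent.S1517.result _ τ R (cs_sub hS (inducedIrrAbove_subset_bot K H₁)
    ⟨_, (mem_inducedIrrAbove_iff K).2 ⟨lam, hlam, rfl⟩⟩
    (fun χ h => conjFun_mem_inducedIrrAbove K h)) ?_
  have key : ∀ φ ∈ inducedIrrAbove K H₁, φ 1 = (K.index : ℂ) := by
    intro φ hφ
    obtain ⟨θ, hθ, rfl⟩ := (mem_inducedIrrAbove_iff K).1 hφ
    rw [H2.indFun_apply_one, ← charDegree_cast_irr θ, charDegree_eq_one_of_irrAbove K H₁ hab hθ]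
    simp
  intro φ hφ ψ hψ
  rw [key φ hφ, key ψ hψ]

end Cfsg.Agent.Lib.Helper10
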