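import Mathlib
import Cfsg.Agent.CharLib.Eigen

set_option autoImplicit false

namespace Cfsg.Agent.Lib.Helper10

open Module Cfsg.Agent.CharLib

variable {V : Type*} [AddCommGroup V] [Module ℂ V] [FiniteDimensional ℂ V]

theorem pow_apply_eigen (f : End ℂ V) (v : V) (c : ℂ) (h : f v = c • v) (k : ℕ) : (f ^ k) v = (c ^ k) • v := by
  induction k with
  | zero => simp
  | succ k ih => rw [pow_succ', Module.End.mul_apply, ih, map_smul, h, smul_smul, pow_succ]

theorem eigen_pow_eq_one (f : End ℂ V) (v : V) (hv : v ≠ 0) (c : ℂ) (h : f v = c • v) (m : ℕ) (hf : f ^ m = 1) :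
    c ^ m = 1 := by
  have h1 := pow_apply_eigen f v c h m
  rw [hf, Module.End.one_apply] at h1
  have h2 : (c ^ m - 1) • v = 0 := by rw [sub_smul, one_smul, ← h1, sub_self]
  rcases smul_eq_zero.mp h2 with h | h
  · exact sub_eq_zero.mp h
  · exact absurd h hv

/-- Two commuting endomorphisms of finite order have a common eigenbasis. -/
theorem exists_common_eigenbasis (f g : End ℂ V) (hfg : Commute f g) (m n : ℕ) (hm : 0 < m) (hn : 0 < n)
    (hf : f ^ m = 1) (hg : g ^ n = 1) :
    ∃ (ι : Type) (_ : Fintype ι) (b : Basis ι ℂ V) (lam mu : ι → ℂ), (∀ i, lam i ^ m = 1) ∧ (∀ i, mu i ^ n = 1) ∧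
      (∀ i, f (b i) = lam i • b i) ∧ (∀ i, g (b i) = mu i • b i) := by
  classical
  have hs := isSemisimple_of_pow_eq_one f m hm hf
  have htop := hs.iSup_eigenspace_eq_top
  have hind := Module.End.eigenspaces_iSupIndep f
  have hint := DirectSum.isInternal_submodule_of_iSupIndep_of_iSup_eq_top hind htop
  have hmaps : ∀ c : ℂ, ∀ v ∈ f.eigenspace c, g v ∈ f.eigenspace c := by
    intro c v hv
    rw [Module.End.mem_eigenspace_iff] at hv ⊢
    have : f (g v) = g (f v) := by
      have := congrArg (fun T : End ℂ V => T v) hfg.eq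
      simpa using this
    rw [this, hv, map_smul]
  let gr : ∀ c : ℂ, End ℂ (f.eigenspace c) := fun c => g.restrict (hmaps c)
  have hgr : ∀ c : ℂ, (gr c) ^ n = 1 := by
    intro c
    ext v
    have : ∀ k : ℕ, (((gr c) ^ k) v : V) = (g ^ k) (v : V) := by
      intro k
      induction k with
      | zero => simp
      | succ k ih =>
        rw [pow_succ', pow_succ', Module.End.mul_apply, Module.End.mul_apply, ← ih]
        rfl
    rw [this n, hg]
    simp
  choose bs ν hν hbs using fun c : ℂ => exists_eigenbasis (gr c) n hn (hgr c)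
  let B := hint.collectedBasis bs
  haveI : Fintype (Σ c : ℂ, Fin (finrank ℂ (f.eigenspace c))) := FiniteDimensional.fintypeBasisIndex B
  have hBf : ∀ j, f (B j) = j.1 • B j := by
    intro j
    have hmem : B j ∈ f.eigenspace j.1 := hint.collectedBasis_mem bs j
    exact Module.End.mem_eigenspace_iff.mp hmem
  have hBg : ∀ j, g (B j) = ν j.1 j.2 • B j := by
    intro j
    have h1 : B j = ((bs j.1 j.2 : f.eigenspace j.1) : V) := by
      simp [B, DirectSum.IsInternal.collectedBasis_coe]
    rw [h1]
    have h2 := congrArg (fun w : f.eigenspace j.1 => (w : V)) (hbs j.1 j.2)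
    simpa [gr] using h2
  refine ⟨_, inferInstance, B, fun j => j.1, fun j => ν j.1 j.2, ?_, ?_, hBf, hBg⟩
  · intro j
    exact eigen_pow_eq_one f (B j) (B.ne_zero j) _ (hBf j) m hf
  · intro j
    exact hν j.1 j.2

end Cfsg.Agent.Lib.Helper10
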