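import Mathlib
import Cfsg.Prelude.Def_OddOrderLocal
import Cfsg.Prelude.Def_LieExceptional
import Cfsg.Agent.Lib.Helper22.FittingSub
import Cfsg.Agent.Lib.Helper10.CNQuot

/-! The largest normal nilpotent Hall subgroup, and its action in CN-groups. -/

set_option autoImplicit false
set_option linter.style.haveILetI false

namespace Cfsg.Agent.Lib.Helper10

open Cfsg Subgroup

universe u

section

variable {G : Type u} [Group G] [Finite G]

theorem card_sup_dvd_mul (A B : Subgroup G) [A.Normal] :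
    Nat.card (A ⊔ B : Subgroup G) ∣ Nat.card A * Nat.card B := by
  have h1 := relIndex_mul_relIndex (⊥ : Subgroup G) A (A ⊔ B) bot_le le_sup_left
  rw [relIndex_bot_left, relIndex_bot_left, relIndex_sup_left] at h1
  rw [← h1]
  exact Nat.mul_dvd_mul_left _ (relIndex_dvd_card A B)

theorem fittingHall_spec : Group.IsNilpotent (fittingHall G) ∧
    (Nat.card (fittingHall G)).Coprime (fittingHall G).index := by
  have hs : SupClosed {N : Subgroup G | N.Normal ∧ Group.IsNilpotent N ∧
      (Nat.card N).Coprime N.index} := by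
    rintro A ⟨hA1, hA2, hA3⟩ B ⟨hB1, hB2, hB3⟩
    refine ⟨inferInstance, Cfsg.Agent.Lib.Helper22.isNilpotent_sup A B hA2 hB2, ?_⟩
    apply Nat.Coprime.coprime_dvd_left (card_sup_dvd_mul A B)
    apply Nat.Coprime.mul_left
    · exact Nat.Coprime.coprime_dvd_right (index_dvd_of_le le_sup_left) hA3
    · exact Nat.Coprime.coprime_dvd_right (index_dvd_of_le le_sup_right) hB3
  have h := hs.sSup_mem (Set.toFinite _) ⟨inferInstance, inferInstance, by simp⟩ (subset_refl _)
  exact h.2

theorem le_fittingHall {N : Subgroup G} (h1 : N.Normal) (h2 : Group.IsNilpotent N)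
    (h3 : (Nat.card N).Coprime N.index) : N ≤ fittingHall G := le_sSup ⟨h1, h2, h3⟩

/-- In a CN-group, a complement of the largest normal nilpotent Hall subgroup acts freely. -/
theorem cn_fpf (hCN : IsCNGroup G) (H E : Subgroup G) [hHn : H.Normal] (hHnil : Group.IsNilpotent H)
    (hH1 : H ≠ ⊥) (hcop : (Nat.card H).Coprime (Nat.card E))
    (hmax : ∀ N : Subgroup G, N.Normal → Group.IsNilpotent N → (Nat.card N).Coprime N.index → N ≤ H)
    {e : G} (he : e ∈ E) (he1 : e ≠ 1) : H ⊓ centralizer ({e} : Set G) = ⊥ := by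
  by_contra hne
  obtain ⟨⟨h, hh⟩, hh1'⟩ := Subgroup.ne_bot_iff_exists_ne_one.mp hne
  have hh1 : h ≠ 1 := fun h0 => hh1' (Subtype.ext h0)
  have hhH : h ∈ H := hh.1
  have hhe : h * e = e * h := mem_centralizer_singleton_iff.1 hh.2
  have hcardH : Nat.card H ≠ 1 := by
    intro h0
    exact hH1 ((Subgroup.card_eq_one).1 h0)
  obtain ⟨z, hzH, hz1, -, hzc⟩ := exists_central_pElement hHnil (Nat.minFac_prime hcardH)
    (Nat.minFac_dvd _)
  have hordE : orderOf e ∣ Nat.card E := by
    have := orderOf_dvd_natCard (⟨e, he⟩ : E)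
    rwa [Subgroup.orderOf_mk] at this
  have hordH : ∀ x ∈ H, orderOf x ∣ Nat.card H := by
    intro x hx
    have := orderOf_dvd_natCard (⟨x, hx⟩ : H)
    rwa [Subgroup.orderOf_mk] at this
  have hord : ∀ x ∈ H, (orderOf x).Coprime (orderOf e) := fun x hx =>
    Nat.Coprime.coprime_dvd_left (hordH x hx) (Nat.Coprime.coprime_dvd_right hordE hcop)
  have hze : z * e = e * z :=
    commute_of_mem_nilpotent (hCN h hh1) (mem_centralizer_singleton_iff.2 (hzc h hhH))
      (mem_centralizer_singleton_iff.2 hhe.symm) (hord z hzH)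
  have hxe : ∀ x ∈ H, x * e = e * x := fun x hx =>
    commute_of_mem_nilpotent (hCN z hz1) (mem_centralizer_singleton_iff.2 (hzc x hx).symm)
      (mem_centralizer_singleton_iff.2 hze.symm) (hord x hx)
  set C : Subgroup G := centralizer (H : Set G) with hC
  have heC : e ∈ C := mem_centralizer_iff.2 (fun x hx => hxe x hx)
  haveI hCn : C.Normal := inferInstance
  have hCnil : Group.IsNilpotent C := Cfsg.Agent.H4.isNilpotent_of_le
    (fun c hc => mem_centralizer_singleton_iff.2 ((mem_centralizer_iff.1 hc) z hzH).symm) (hCN z hz1)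
  -- a prime dividing the order of `e`
  have hoe1 : orderOf e ≠ 1 := fun h0 => he1 (orderOf_eq_one_iff.1 h0)
  set q := (orderOf e).minFac with hq
  have hqp : q.Prime := Nat.minFac_prime hoe1
  haveI : Fact q.Prime := ⟨hqp⟩
  have hqe : q ∣ orderOf e := Nat.minFac_dvd _
  have hqH : ¬ q ∣ Nat.card H := by
    intro h0
    have := Nat.dvd_gcd h0 (hqe.trans hordE)
    rw [hcop] at this
    exact hqp.one_lt.ne' (Nat.dvd_one.1 this)
  set e' := e ^ (orderOf e / q) with he'
  have hoe' : orderOf e' = q := orderOf_pow_orderOf_div (orderOf_pos e).ne' hqe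
  have he'C : e' ∈ C := C.pow_mem heC _
  have he'1 : e' ≠ 1 := by
    intro h0
    rw [h0, orderOf_one] at hoe'
    exact hqp.one_lt.ne hoe'
  let S : Sylow q C := default
  haveI : (S : Subgroup C).Normal := inferInstance
  set V : Subgroup G := (S : Subgroup C).map C.subtype with hV
  have hVp : IsPGroup q V := S.2.map _
  have hVmem : ∀ t ∈ C, ∀ k : ℕ, orderOf t = q ^ k → t ∈ V := by
    intro t ht k hk
    have h1 : (⟨t, ht⟩ : C) ∈ S := mem_of_pElement_of_normal_sylow S (k := k)
      (by rw [Subgroup.orderOf_mk]; exact hk)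
    exact ⟨⟨t, ht⟩, h1, rfl⟩
  have hVC : V ≤ C := by
    rintro _ ⟨c, -, rfl⟩
    exact c.2
  have hVord : ∀ v ∈ V, ∃ k : ℕ, orderOf v = q ^ k := by
    intro v hv
    obtain ⟨k, hk⟩ := IsPGroup.iff_orderOf.1 hVp ⟨v, hv⟩
    exact ⟨k, by rwa [Subgroup.orderOf_mk] at hk⟩
  haveI hVn : V.Normal := by
    refine ⟨fun v hv g => ?_⟩
    obtain ⟨k, hk⟩ := hVord v hv
    refine hVmem _ (hCn.conj_mem v (hVC hv) g) k ?_
    rw [← hk]
    exact (MulAut.conj g).orderOf_eq v
  have hV1 : V ≠ ⊥ := by
    intro h0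
    have h1 : e' ∈ V := hVmem e' he'C 1 (by rw [hoe', pow_one])
    rw [h0, mem_bot] at h1
    exact he'1 h1
  have hall : ∀ (t : G) (k : ℕ), orderOf t = q ^ k → t ∈ V := by
    intro t k hk
    obtain ⟨v, hv, hv1, htv⟩ := exists_fixed_of_pElement V hVp hV1 hk
    refine hVmem t (mem_centralizer_iff.2 fun x hx => ?_) k hk
    have h1 : x ∈ centralizer ({v} : Set G) :=
      mem_centralizer_singleton_iff.2 ((mem_centralizer_iff.1 (hVC hv)) x hx)
    have h2 : t ∈ centralizer ({v} : Set G) := mem_centralizer_singleton_iff.2 htv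
    apply commute_of_mem_nilpotent (hCN v hv1) h1 h2
    rw [hk]
    apply Nat.Coprime.pow_right
    rw [Nat.coprime_comm, Nat.Prime.coprime_iff_not_dvd hqp]
    exact fun h0 => hqH (h0.trans (hordH x hx))
  let Q : Sylow q G := default
  have hQV : (Q : Subgroup G) ≤ V := by
    intro x hx
    obtain ⟨k, hk⟩ := IsPGroup.iff_orderOf.1 Q.2 ⟨x, hx⟩
    exact hall x k (by rwa [Subgroup.orderOf_mk] at hk)
  have hVQ : V = Q := Q.3 hVp hQV
  have hVH : V ≤ H := hmax V hVn hVp.isNilpotent (by rw [hVQ]; exact Q.card_coprime_index)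
  have h1 : e' ∈ H := hVH (hVmem e' he'C 1 (by rw [hoe', pow_one]))
  apply hqH
  rw [← hoe']
  exact hordH e' h1

end

end Cfsg.Agent.Lib.Helper10
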