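import Mathlib
import Cfsg.Agent.Lib.Helper10.FitHall
import Cfsg.Agent.S0040
import Cfsg.Agent.S0041

/-! A complement acting freely on a nilpotent normal subgroup of a CN-group is nilpotent. -/

set_option autoImplicit false
set_option linter.style.haveILetI false
set_option linter.unusedSectionVars false

namespace Cfsg.Agent.Lib.Helper10

open Cfsg Subgroup
open scoped commutatorElement

universe u

theorem mem_zpowers_of_pow_eq_one {C : Type*} [Group C] [Finite C] [IsCyclic C] {a x : C} {r : ℕ}
    (hr : 0 < r) (ha : orderOf a = r) (hx : x ^ r = 1) : x ∈ zpowers a := by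
  classical
  cases nonempty_fintype C
  have h1 := IsCyclic.card_pow_eq_one_le (α := C) hr
  have h2 : ((zpowers a : Set C).toFinset) ⊆ Finset.univ.filter (fun y : C => y ^ r = 1) := by
    intro y hy
    rw [Set.mem_toFinset] at hy
    obtain ⟨k, rfl⟩ := mem_zpowers_iff.1 hy
    simp only [Finset.mem_filter, Finset.mem_univ, true_and]
    rw [← zpow_natCast, ← zpow_mul, mul_comm, zpow_mul, zpow_natCast, ← ha, pow_orderOf_eq_one,
      one_zpow]
  have h3 : ((zpowers a : Set C).toFinset).card = r := by
    rw [Set.toFinset_card, ← Nat.card_eq_fintype_card]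
    exact (Nat.card_zpowers a).trans ha
  have h4 := Finset.eq_of_subset_of_card_le h2 (by rw [h3]; exact h1)
  have h5 : x ∈ Finset.univ.filter (fun y : C => y ^ r = 1) := by simp [hx]
  rw [← h4, Set.mem_toFinset] at h5
  exact h5

theorem exists_normal_prime_zgroup {X : Type*} [Group X] [Finite X] [Nontrivial X] [IsZGroup X] :
    ∃ a : X, (orderOf a).Prime ∧ ∀ g : X, g * a * g⁻¹ ∈ zpowers a := by
  by_cases hc : commutator X = ⊥
  · have h1 : Nat.card X ≠ 1 := by
      intro h
      exact not_subsingleton X ((Nat.card_eq_one_iff_unique.1 h).1)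
    haveI := Fact.mk (Nat.minFac_prime h1)
    obtain ⟨a, ha⟩ := exists_prime_orderOf_dvd_card' (G := X) _ (Nat.minFac_dvd (Nat.card X))
    refine ⟨a, by rw [ha]; exact Nat.minFac_prime h1, fun g => ?_⟩
    have h2 : ⁅g, a⁆ ∈ commutator X := by
      rw [_root_.commutator_def]
      exact commutator_mem_commutator (mem_top g) (mem_top a)
    rw [hc, mem_bot, commutatorElement_def] at h2
    have h3 : g * a * g⁻¹ = a := by
      rw [mul_inv_eq_one] at h2
      exact h2
    rw [h3]
    exact mem_zpowers a
  · haveI := IsZGroup.isCyclic_commutator (G := X)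
    have h1 : Nat.card (commutator X) ≠ 1 := fun h => hc ((Subgroup.card_eq_one).1 h)
    haveI := Fact.mk (Nat.minFac_prime h1)
    obtain ⟨a, ha⟩ := exists_prime_orderOf_dvd_card' (G := commutator X) _
      (Nat.minFac_dvd (Nat.card (commutator X)))
    refine ⟨a, by rw [Subgroup.orderOf_coe, ha]; exact Nat.minFac_prime h1, fun g => ?_⟩
    have hn : (commutator X).Normal := inferInstance
    let b : commutator X := ⟨g * a * g⁻¹, hn.conj_mem a a.2 g⟩
    have hb : b ^ (Nat.card (commutator X)).minFac = 1 := by
      apply Subtype.ext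
      show (g * a * g⁻¹) ^ _ = 1
      rw [conj_pow, ← Subgroup.coe_pow, ← ha, pow_orderOf_eq_one]
      simp
    obtain ⟨k, hk⟩ := mem_zpowers_iff.1
      (mem_zpowers_of_pow_eq_one (Nat.minFac_pos _) ha hb)
    exact mem_zpowers_iff.2 ⟨k, by simpa [b] using congrArg Subtype.val hk⟩

section

variable {G : Type u} [Group G] [Finite G]

theorem cn_compl_nilpotent (hCN : IsCNGroup G) (H E : Subgroup G) [hHn : H.Normal]
    (hHnil : Group.IsNilpotent H) (hH1 : H ≠ ⊥) (hc : IsComplement' H E)
    (hfpf : ∀ e ∈ E, e ≠ 1 → H ⊓ centralizer ({e} : Set G) = ⊥) : Group.IsNilpotent E := by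
  by_cases hE1 : E = ⊥
  · subst hE1; infer_instance
  suffices h : ∃ a : G, a ≠ 1 ∧ E ≤ centralizer ({a} : Set G) by
    obtain ⟨a, ha1, haE⟩ := h
    exact Cfsg.Agent.H4.isNilpotent_of_le haE (hCN a ha1)
  have hcardH : Nat.card H ≠ 1 := fun h0 => hH1 ((Subgroup.card_eq_one).1 h0)
  obtain ⟨z, hzH, hz1, -, hzc⟩ := exists_central_pElement hHnil (Nat.minFac_prime hcardH)
    (Nat.minFac_dvd _)
  rcases Nat.even_or_odd (Nat.card E) with heven | hodd
  · -- the unique involution
    have hinv : ∀ t ∈ E, orderOf t = 2 → ∀ h ∈ H, t * h * t⁻¹ = h⁻¹ := by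
      intro t ht ht2 h hh
      have ht1 : t ≠ 1 := by
        intro h0
        rw [h0, orderOf_one] at ht2
        omega
      have htt : t * t = 1 := by
        rw [← pow_two, ← ht2, pow_orderOf_eq_one]
      let φ : H →* H := (MulAut.conjNormal t : MulAut H).toMonoidHom
      have hφa : ∀ x : H, ((φ x : H) : G) = t * x * t⁻¹ := fun x => rfl
      have hφ : MonoidHom.FixedPointFree φ := by
        intro x hx
        have h1 : t * x * t⁻¹ = x := by rw [← hφa, hx]
        have h2 : (x : G) ∈ H ⊓ centralizer ({t} : Set G) :=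
          ⟨x.2, mem_centralizer_singleton_iff.2 (by rw [mul_inv_eq_iff_eq_mul] at h1; exact h1.symm)⟩
        rw [hfpf t ht ht1, mem_bot] at h2
        exact Subtype.ext h2
      have hinvol : Function.Involutive φ := by
        intro x
        apply Subtype.ext
        rw [hφa, hφa]
        have : t⁻¹ = t := inv_eq_of_mul_eq_one_left htt
        rw [this]
        calc t * (t * x * t) * t = (t * t) * x * (t * t) := by group
          _ = x := by rw [htt]; simp
      have := congrFun (hφ.coe_eq_inv_of_involutive hinvol) ⟨h, hh⟩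
      exact congrArg Subtype.val this
    haveI : Fact (Nat.Prime 2) := ⟨Nat.prime_two⟩
    obtain ⟨⟨t, ht⟩, ht2⟩ := exists_prime_orderOf_dvd_card' (G := E) 2 (even_iff_two_dvd.1 heven)
    rw [Subgroup.orderOf_mk] at ht2
    have ht1 : t ≠ 1 := by
      intro h0
      rw [h0, orderOf_one] at ht2
      omega
    have htt : t * t = 1 := by
      rw [← pow_two, ← ht2, pow_orderOf_eq_one]
    refine ⟨t, ht1, fun x hx => ?_⟩
    have ht' : x * t * x⁻¹ ∈ E := E.mul_mem (E.mul_mem hx ht) (E.inv_mem hx)
    have ht'2 : orderOf (x * t * x⁻¹) = 2 := by rw [← ht2]; exact (MulAut.conj x).orderOf_eq t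
    have h1 : t * (x * t * x⁻¹) = 1 := by
      by_contra hne
      have h2 : z ∈ H ⊓ centralizer ({t * (x * t * x⁻¹)} : Set G) := by
        refine ⟨hzH, mem_centralizer_singleton_iff.2 ?_⟩
        have e1 := hinv _ ht' ht'2 z hzH
        have e2 := hinv t ht ht2 z⁻¹ (H.inv_mem hzH)
        rw [inv_inv] at e2
        rw [← e1] at e2
        -- t * (t' z t'⁻¹) * t⁻¹ = z
        have e3 : (t * (x * t * x⁻¹)) * z * (t * (x * t * x⁻¹))⁻¹ = z := by
          rw [mul_inv_rev]
          calc t * (x * t * x⁻¹) * z * ((x * t * x⁻¹)⁻¹ * t⁻¹)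
              = t * ((x * t * x⁻¹) * z * (x * t * x⁻¹)⁻¹) * t⁻¹ := by group
            _ = z := e2
        rw [mul_inv_eq_iff_eq_mul] at e3
        exact e3.symm
      rw [hfpf _ (E.mul_mem ht ht') hne, mem_bot] at h2
      exact hz1 h2
    rw [mem_centralizer_singleton_iff]
    have h2 : x * t * x⁻¹ = t := by
      have : x * t * x⁻¹ = t⁻¹ := (inv_eq_of_mul_eq_one_right h1).symm
      rw [this]
      exact inv_eq_of_mul_eq_one_left htt
    rw [mul_inv_eq_iff_eq_mul] at h2
    exact h2
  · -- all Sylow subgroups are cyclic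
    haveI : IsZGroup E := by
      refine ⟨fun s hs S => ?_⟩
      haveI := Fact.mk hs
      rcases Cfsg.Agent.S0040.result H E hc hH1 hfpf s S with h | ⟨n, ⟨e⟩⟩
      · exact h
      · exfalso
        haveI : NeZero (2 ^ n) := ⟨by positivity⟩
        have h1 : Nat.card S = 4 * 2 ^ n := by
          rw [Nat.card_congr e.toEquiv, Nat.card_eq_fintype_card, QuaternionGroup.card]
        have h2 : Nat.card S ∣ Nat.card E := Subgroup.card_subgroup_dvd_card _
        rw [h1] at h2
        have h3 : 2 ∣ Nat.card E := Dvd.dvd.trans ⟨2 * 2 ^ n, by ring⟩ h2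
        exact (Nat.not_even_iff_odd.2 hodd) (even_iff_two_dvd.2 h3)
    haveI : Nontrivial E := (Subgroup.nontrivial_iff_ne_bot E).2 hE1
    obtain ⟨a, har, hanorm⟩ := exists_normal_prime_zgroup (X := E)
    set r := orderOf a with hr
    haveI : Fact r.Prime := ⟨har⟩
    have ha1 : a ≠ 1 := by
      intro h0
      rw [h0, orderOf_one] at hr
      exact har.one_lt.ne hr.symm
    -- the centre of `H`
    set Vz : Subgroup G := H ⊓ centralizer (H : Set G) with hVz
    haveI : IsMulCommutative Vz := ⟨⟨fun u v => Subtype.ext
      ((mem_centralizer_iff.1 v.2.2) u u.2.1)⟩⟩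
    have hVz1 : Vz ≠ ⊥ := by
      intro h0
      have h1 : z ∈ Vz := ⟨hzH, mem_centralizer_iff.2 fun x hx => (hzc x hx).symm⟩
      rw [h0, mem_bot] at h1
      exact hz1 h1
    haveI hVzn : Vz.Normal := inferInstance
    have hVzfpf : ∀ b ∈ E, b ≠ 1 → Vz ⊓ centralizer ({b} : Set G) = ⊥ := by
      intro b hb hb1
      rw [eq_bot_iff, ← hfpf b hb hb1]
      exact inf_le_inf_right _ inf_le_left
    haveI hAn : (zpowers a).Normal := by
      refine ⟨fun v hv g => ?_⟩
      obtain ⟨j, rfl⟩ := mem_zpowers_iff.1 hv
      rw [← conj_zpow]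
      exact (zpowers a).zpow_mem (hanorm g) j
    have hAcard : Nat.card (zpowers a) = r := Nat.card_zpowers a
    refine ⟨(a : G), fun h0 => ha1 (Subtype.ext h0), ?_⟩
    have hD : (centralizer ({a} : Set E)).index = 1 := by
      by_contra hne
      obtain ⟨s, hs, hsd⟩ := Nat.exists_prime_and_dvd hne
      haveI := Fact.mk hs
      let S : Sylow s E := default
      have hSD : (S : Subgroup E) ≤ centralizer ({a} : Set E) := by
        intro x hx
        rw [mem_centralizer_singleton_iff]
        obtain ⟨k, hk⟩ := IsPGroup.iff_orderOf.1 S.2 ⟨x, hx⟩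
        rw [Subgroup.orderOf_mk] at hk
        by_cases hsr : s = r
        · rw [hsr] at hk
          obtain ⟨v, hv, hv1, hxv⟩ := exists_fixed_of_pElement (zpowers a)
            (IsPGroup.of_card (n := 1) (by rw [hAcard, pow_one]))
            (by rw [Ne, zpowers_eq_bot]; exact ha1) hk
          have h1 : (⟨a, mem_zpowers a⟩ : zpowers a) ∈ zpowers (⟨v, hv⟩ : zpowers a) :=
            mem_zpowers_of_prime_card hAcard (fun h0 => hv1 (congrArg Subtype.val h0))
          obtain ⟨i, hi⟩ := mem_zpowers_iff.1 h1
          have h2 : v ^ i = a := by simpa using congrArg Subtype.val hi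
          rw [← h2]
          exact (Commute.zpow_right (show Commute x v from hxv) i)
        · by_cases hx1 : x = 1
          · rw [hx1]; simp
          have hsx : s ∣ orderOf x := by
            rw [hk]
            rcases Nat.eq_zero_or_pos k with rfl | hkpos
            · rw [pow_zero, orderOf_eq_one_iff] at hk
              exact absurd hk hx1
            · exact dvd_pow_self s hkpos.ne'
          set y := x ^ (orderOf x / s) with hy
          have hoy : orderOf y = s := orderOf_pow_orderOf_div (orderOf_pos x).ne' hsx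
          have hy1 : y ≠ 1 := by
            intro h0
            rw [h0, orderOf_one] at hoy
            exact hs.one_lt.ne hoy
          have hcop : r.Coprime s := (Nat.coprime_primes har hs).2 (Ne.symm hsr)
          set B' : Subgroup E := zpowers a ⊔ zpowers y with hB'
          have hB'card : Nat.card B' = r * s := by
            apply Nat.dvd_antisymm
            · have := card_sup_dvd_mul (zpowers a) (zpowers y)
              rwa [hAcard, Nat.card_zpowers, hoy] at this
            · apply Nat.Coprime.mul_dvd_of_dvd_of_dvd hcop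
              · rw [← hAcard]; exact Subgroup.card_dvd_of_le le_sup_left
              · rw [← hoy, ← Nat.card_zpowers]; exact Subgroup.card_dvd_of_le le_sup_right
          set B : Subgroup G := B'.map E.subtype with hB
          have hBcard : Nat.card B = r * s := by
            rw [← hB'card]
            exact (Nat.card_congr (B'.equivMapOfInjective E.subtype E.subtype_injective).toEquiv).symm
          have hBE : B ≤ E := by
            rintro _ ⟨c, -, rfl⟩
            exact c.2
          have hcyc : IsCyclic B := Cfsg.Agent.S0041.result B Vz hVz1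
            (by rw [normalizer_eq_top]; exact le_top)
            (fun b hb hb1 => hVzfpf b (hBE hb) hb1) (Or.inr ⟨r, s, har, hs, hBcard⟩)
          have haB : (a : G) ∈ B := ⟨a, le_sup_left (a := zpowers a) (mem_zpowers a), rfl⟩
          have hyB : (y : G) ∈ B := ⟨y, le_sup_right (b := zpowers y) (mem_zpowers y), rfl⟩
          have hay : (a : G) * y = y * a := by
            letI := IsCyclic.commGroup (α := B)
            exact congrArg Subtype.val (mul_comm (⟨a, haB⟩ : B) ⟨y, hyB⟩)
          have hyG1 : (y : G) ≠ 1 := fun h0 => hy1 (Subtype.ext h0)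
          have hxy : (x : G) * y = y * x := by
            have : x * y = y * x := by
              rw [hy]
              exact (Commute.pow_right (Commute.refl x) _)
            exact congrArg Subtype.val this
          have h3 := commute_of_mem_nilpotent (hCN (y : G) hyG1)
            (mem_centralizer_singleton_iff.2 hxy) (mem_centralizer_singleton_iff.2 hay)
            (by
              rw [Subgroup.orderOf_coe, Subgroup.orderOf_coe, hk, ← hr]
              exact Nat.Coprime.pow_left k hcop.symm)
          exact Subtype.ext h3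
      exact S.not_dvd_index (hsd.trans (index_dvd_of_le hSD))
    rw [index_eq_one] at hD
    intro x hx
    have h1 : (⟨x, hx⟩ : E) ∈ centralizer ({a} : Set E) := by rw [hD]; exact mem_top _
    rw [mem_centralizer_singleton_iff] at h1 ⊢
    exact congrArg Subtype.val h1

end

end Cfsg.Agent.Lib.Helper10
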