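import Mathlib
import Cfsg.Prelude.Def_OddOrderLocal
import Cfsg.Agent.Lib.Helper10.LinChar2

/-!
Structure of `L = K ⋊ W₁` with `C_K(x) = W₂` for all `x ∈ W₁ \ {1}` (Peterfalvi, Hypothesis 4.2).
-/

set_option autoImplicit false

universe u

namespace Cfsg.Agent.Lib.Helper10

open Cfsg

theorem exists_mul_of_mem_sup_of_commute {G : Type u} [Group G] {W₁ W₂ : Subgroup G}
    (hcomm : ∀ a ∈ W₁, ∀ b ∈ W₂, a * b = b * a) {x : G} (hx : x ∈ W₁ ⊔ W₂) :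
    ∃ a ∈ W₁, ∃ b ∈ W₂, x = a * b := by
  have h := MonoidHom.noncommCoprod_range W₁.subtype W₂.subtype (fun a b => hcomm a a.2 b b.2)
  rw [Subgroup.range_subtype, Subgroup.range_subtype] at h
  rw [← h] at hx
  obtain ⟨⟨a, b⟩, rfl⟩ := hx
  exact ⟨a, a.2, b, b.2, rfl⟩

theorem isCyclic_sup_of_coprime {G : Type u} [Group G] [Finite G] {W₁ W₂ : Subgroup G}
    (hcomm : ∀ a ∈ W₁, ∀ b ∈ W₂, a * b = b * a) (h₁ : IsCyclic W₁) (h₂ : IsCyclic W₂)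
    (hcop : Nat.Coprime (Nat.card W₁) (Nat.card W₂)) : IsCyclic ↥(W₁ ⊔ W₂) := by
  have hdisj : W₁ ⊓ W₂ = ⊥ := (Subgroup.disjoint_of_coprime_natCard hcop).eq_bot
  obtain ⟨a, ha⟩ := h₁.exists_generator
  obtain ⟨b, hb⟩ := h₂.exists_generator
  have hoa : orderOf (a : G) = Nat.card W₁ := by
    rw [Subgroup.orderOf_coe]; exact orderOf_eq_card_of_forall_mem_zpowers ha
  have hob : orderOf (b : G) = Nat.card W₂ := by
    rw [Subgroup.orderOf_coe]; exact orderOf_eq_card_of_forall_mem_zpowers hb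
  have hab : Commute (a : G) (b : G) := hcomm a a.2 b b.2
  have ho := hab.orderOf_mul_eq_mul_orderOf_of_coprime (by rw [hoa, hob]; exact hcop)
  apply isCyclic_of_orderOf_eq_card (⟨(a : G) * b, Subgroup.mul_mem _ (Subgroup.mem_sup_left a.2)
    (Subgroup.mem_sup_right b.2)⟩ : ↥(W₁ ⊔ W₂))
  rw [← Subgroup.orderOf_coe, ho, hoa, hob, card_sup_of_commute W₁ W₂ hdisj hcomm]

section tp

variable {L : Type u} [Group L] {K W₁ W₂ : Subgroup L}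

theorem tp_disj (hKW₁ : K ⊓ W₁ = ⊥) (hW₂K : W₂ ≤ K) : W₁ ⊓ W₂ = ⊥ := by
  rw [eq_bot_iff, ← hKW₁]
  exact le_inf (inf_le_right.trans hW₂K) inf_le_left

theorem tp_comm (hC : ∀ x ∈ W₁, x ≠ 1 → K ⊓ Subgroup.centralizer ({x} : Set L) = W₂) :
    ∀ a ∈ W₁, ∀ b ∈ W₂, a * b = b * a := by
  intro a ha b hb
  by_cases ha1 : a = 1
  · rw [ha1, one_mul, mul_one]
  · rw [← hC a ha ha1] at hb
    exact (Subgroup.mem_centralizer_singleton_iff.1 hb.2).symm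

theorem tp_decomp [hK : K.Normal] (hKW₁' : K ⊔ W₁ = ⊤) (g : L) : ∃ k ∈ K, ∃ w ∈ W₁, g = k * w := by
  have hg : g ∈ K ⊔ W₁ := by rw [hKW₁']; trivial
  rw [← SetLike.mem_coe, Subgroup.normal_mul] at hg
  obtain ⟨k, hk, w, hw, rfl⟩ := Set.mem_mul.1 hg
  exact ⟨k, hk, w, hw, rfl⟩

theorem tp_index [hK : K.Normal] (hKW₁ : K ⊓ W₁ = ⊥) (hKW₁' : K ⊔ W₁ = ⊤) :
    W₁.index = Nat.card K ∧ K.index = Nat.card W₁ := by
  have hcompl : K.IsComplement' W₁ := Subgroup.isComplement'_of_disjoint_and_mul_eq_univ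
    (disjoint_iff.2 hKW₁) (by
      rw [← Subgroup.normal_mul, hKW₁']; rfl)
  exact ⟨hcompl.index_eq_card, hcompl.symm.index_eq_card⟩

theorem tp_coprime [Finite L] [hK : K.Normal] (hKW₁ : K ⊓ W₁ = ⊥) (hKW₁' : K ⊔ W₁ = ⊤)
    (hHall : Nat.Coprime (Nat.card W₁) W₁.index) (hW₂K : W₂ ≤ K) :
    Nat.Coprime (Nat.card W₁) (Nat.card W₂) := by
  rw [(tp_index hKW₁ hKW₁').1] at hHall
  exact Nat.Coprime.coprime_dvd_right (Subgroup.card_dvd_of_le hW₂K) hHall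

theorem tp_cyclic [Finite L] [hK : K.Normal] (hKW₁ : K ⊓ W₁ = ⊥) (hKW₁' : K ⊔ W₁ = ⊤) (hW₁c : IsCyclic W₁)
    (hHall : Nat.Coprime (Nat.card W₁) W₁.index) (hW₂c : IsCyclic W₂) (hW₂K : W₂ ≤ K)
    (hC : ∀ x ∈ W₁, x ≠ 1 → K ⊓ Subgroup.centralizer ({x} : Set L) = W₂) : IsCyclic ↥(W₁ ⊔ W₂) :=
  isCyclic_sup_of_coprime (tp_comm hC) hW₁c hW₂c (tp_coprime hKW₁ hKW₁' hHall hW₂K)

/-- `W \ W₂` is a TI-subset of `L` with normaliser `W` -/
theorem tp_TI [Finite L] [hK : K.Normal] (hKW₁ : K ⊓ W₁ = ⊥) (hKW₁' : K ⊔ W₁ = ⊤) (hW₁c : IsCyclic W₁)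
    (hHall : Nat.Coprime (Nat.card W₁) W₁.index) (hW₂K : W₂ ≤ K)
    (hC : ∀ x ∈ W₁, x ≠ 1 → K ⊓ Subgroup.centralizer ({x} : Set L) = W₂)
    (g t : L) (ht : t ∈ W₁ ⊔ W₂) (ht2 : t ∉ W₂) (hg : g * t * g⁻¹ ∈ W₁ ⊔ W₂) : g ∈ W₁ ⊔ W₂ := by
  have hcomm := tp_comm hC
  have hcop := tp_coprime hKW₁ hKW₁' hHall hW₂K
  obtain ⟨a, ha, b, hb, rfl⟩ := exists_mul_of_mem_sup_of_commute hcomm ht
  obtain ⟨a', ha', b', hb', hab'⟩ := exists_mul_of_mem_sup_of_commute hcomm hg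
  obtain ⟨k, hk, w, hw, rfl⟩ := tp_decomp (K := K) (W₁ := W₁) hKW₁' g
  have ha1 : a ≠ 1 := by
    rintro rfl
    apply ht2
    rw [one_mul]; exact hb
  have habW₁ : ∀ a ∈ W₁, ∀ b ∈ W₁, a * b = b * a := by
    intro a ha b hb
    have := (IsCyclic.commGroup (α := W₁)).mul_comm ⟨a, ha⟩ ⟨b, hb⟩
    exact congrArg Subtype.val this
  -- modulo `K`
  have haa' : a' = a := by
    have h1 : a'⁻¹ * a ∈ K := by
      rw [← QuotientGroup.eq_one_iff]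
      have e1 : ((k : L) : L ⧸ K) = 1 := (QuotientGroup.eq_one_iff k).2 hk
      have e2 : ((b : L) : L ⧸ K) = 1 := (QuotientGroup.eq_one_iff b).2 (hW₂K hb)
      have e3 : ((b' : L) : L ⧸ K) = 1 := (QuotientGroup.eq_one_iff b').2 (hW₂K hb')
      have e4 := congrArg (fun z : L => (z : L ⧸ K)) hab'
      simp only [QuotientGroup.mk_mul, QuotientGroup.mk_inv, e1, e2, e3, one_mul, mul_one, inv_one] at e4
      have e5 : ((w : L) : L ⧸ K) * ((a : L) : L ⧸ K) = ((a : L) : L ⧸ K) * ((w : L) : L ⧸ K) := by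
        rw [← QuotientGroup.mk_mul, ← QuotientGroup.mk_mul, habW₁ w hw a ha]
      rw [e5, mul_inv_cancel_right] at e4
      rw [QuotientGroup.mk_mul, QuotientGroup.mk_inv, e4, inv_mul_cancel]
    have h2 : a'⁻¹ * a ∈ K ⊓ W₁ := ⟨h1, W₁.mul_mem (W₁.inv_mem ha') ha⟩
    rw [hKW₁, Subgroup.mem_bot] at h2
    exact (inv_mul_eq_one.1 h2)
  subst haa'
  -- take the power killing `W₂`
  set n := Nat.card W₂ with hn
  have hbn : b ^ n = 1 := by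
    have := pow_card_eq_one' (x := (⟨b, hb⟩ : W₂))
    exact congrArg Subtype.val this
  have hbn' : b' ^ n = 1 := by
    have := pow_card_eq_one' (x := (⟨b', hb'⟩ : W₂))
    exact congrArg Subtype.val this
  have h3 : k * w * (a' ^ n) * (k * w)⁻¹ = a' ^ n := by
    have e1 : (k * w * (a' * b) * (k * w)⁻¹) ^ n = (a' * b') ^ n := by rw [hab']
    rw [conj_pow, (show Commute a' b from hcomm a' ha' b hb).mul_pow,
      (show Commute a' b' from hcomm a' ha' b' hb').mul_pow, hbn, hbn', mul_one] at e1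
    exact e1
  have han : a' ^ n ≠ 1 := by
    intro h
    have h4 : orderOf a' ∣ n := orderOf_dvd_of_pow_eq_one h
    have h5 : orderOf a' ∣ Nat.card W₁ := Subgroup.orderOf_dvd_natCard W₁ ha'
    have h6 : orderOf a' = 1 := Nat.eq_one_of_dvd_coprimes hcop h5 h4
    exact ha1 (orderOf_eq_one_iff.1 h6)
  have hanW : a' ^ n ∈ W₁ := W₁.pow_mem ha' n
  have h7 : k ∈ W₂ := by
    rw [← hC _ hanW han]
    refine Subgroup.mem_inf.2 ⟨hk, ?_⟩
    rw [Subgroup.mem_centralizer_singleton_iff]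
    have e2 : w * a' ^ n * w⁻¹ = a' ^ n := by
      rw [habW₁ w hw _ hanW, mul_inv_cancel_right]
    have e3 : k * (w * a' ^ n * w⁻¹) * k⁻¹ = a' ^ n := by
      calc k * (w * a' ^ n * w⁻¹) * k⁻¹ = k * w * a' ^ n * (k * w)⁻¹ := by group
        _ = a' ^ n := h3
    rw [e2] at e3
    calc k * a' ^ n = k * a' ^ n * k⁻¹ * k := by group
      _ = a' ^ n * k := by rw [e3]
  exact Subgroup.mul_mem _ (Subgroup.mem_sup_right h7) (Subgroup.mem_sup_left hw)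

end tp

end Cfsg.Agent.Lib.Helper10
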