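import Mathlib
import Cfsg.Agent.Lib.Helper10.FrobCN
import Cfsg.Agent.Lib.Helper10.Pow
import Cfsg.Agent.Lib.Helper10.TypeP

/-! Cyclic pairs. -/

set_option autoImplicit false
set_option linter.style.haveILetI false
set_option linter.unusedSectionVars false

namespace Cfsg.Agent.Lib.Helper10

open Cfsg Subgroup

universe u

variable {G : Type u} [Group G] [Finite G]

theorem coprime_of_isCyclic_sup {W₁ W₂ : Subgroup G} (hc : IsCyclic ↥(W₁ ⊔ W₂))
    (hd : W₁ ⊓ W₂ = ⊥) : (Nat.card W₁).Coprime (Nat.card W₂) := by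
  apply Nat.coprime_of_dvd
  intro s hs h1 h2
  haveI := Fact.mk hs
  obtain ⟨⟨a, ha⟩, hoa⟩ := exists_prime_orderOf_dvd_card' (G := W₁) s h1
  obtain ⟨⟨x, hx⟩, hox⟩ := exists_prime_orderOf_dvd_card' (G := W₂) s h2
  rw [Subgroup.orderOf_mk] at hoa hox
  have h3 : (⟨x, le_sup_right (a := W₁) hx⟩ : ↥(W₁ ⊔ W₂)) ∈
      zpowers (⟨a, le_sup_left (b := W₂) ha⟩ : ↥(W₁ ⊔ W₂)) := by
    apply mem_zpowers_of_pow_eq_one hs.pos
    · rw [Subgroup.orderOf_mk]; exact hoa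
    · apply Subtype.ext
      show x ^ s = 1
      rw [← hox, pow_orderOf_eq_one]
  obtain ⟨k, hk⟩ := mem_zpowers_iff.1 h3
  have h4 : a ^ k = x := by simpa using congrArg Subtype.val hk
  have h5 : x ∈ W₁ ⊓ W₂ := ⟨h4 ▸ W₁.zpow_mem ha k, hx⟩
  rw [hd, mem_bot] at h5
  rw [h5, orderOf_one] at hox
  exact hs.one_lt.ne hox

/-- if `a * b` (commuting, `a ∈ A`, `b ∈ B`, `A ∩ B = 1`) is killed by `m` prime to `|B|`, `b = 1` -/
theorem right_eq_one_of_pow {A B : Subgroup G} (hd : A ⊓ B = ⊥) {a b : G} (ha : a ∈ A) (hb : b ∈ B)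
    (hab : a * b = b * a) {m : ℕ} (hm : (a * b) ^ m = 1) (hcop : m.Coprime (Nat.card B)) : b = 1 := by
  have h1 : a ^ m * b ^ m = 1 := by rw [← (show Commute a b from hab).mul_pow]; exact hm
  have h2 : b ^ m ∈ A ⊓ B := by
    refine ⟨?_, B.pow_mem hb m⟩
    have : b ^ m = (a ^ m)⁻¹ := (inv_eq_of_mul_eq_one_right h1).symm
    rw [this]
    exact A.inv_mem (A.pow_mem ha m)
  rw [hd, mem_bot] at h2
  have h3 : b ^ Nat.card B = 1 := by
    have := pow_card_eq_one' (x := (⟨b, hb⟩ : B))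
    exact congrArg Subtype.val this
  exact eq_one_of_pow_coprime hcop h2 h3

end Cfsg.Agent.Lib.Helper10
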