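import Mathlib
import Cfsg.Prelude.Def_Characters
import Cfsg.Prelude.Def_OddOrderLocal
import Cfsg.Agent.CharLib.Ind

set_option autoImplicit false

namespace Cfsg.Agent.Lib.Helper10

open Cfsg Cfsg.Agent.CharLib Cfsg.Agent.CharLib.H2
open scoped ComplexConjugate

universe u

section TI

variable {G : Type u} [Group G] [Fintype G]

theorem indFun_eq_on_TI' (L : Subgroup G) (T : Set G)
    (hTI : ∀ g : G, g ∉ L → ∀ t ∈ T, g * t * g⁻¹ ∉ T)
    (ψ : L → ℂ) (hψ : IsClassFunction L ψ)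
    (hψT : ∀ x : L, (x : G) ∉ T → ψ x = 0) (t : L)
    (htT : (t : G) ∈ T) : indFun L ψ t = ψ t := by
  classical
  have : Fintype L := Fintype.ofFinite _
  rw [indFun_apply]
  have h1 : ∀ x : G, extendByZero L ψ (x⁻¹ * t * x) = extendByZero L (fun _ => ψ t) x := by
    intro x
    by_cases hx : x ∈ L
    · rw [extendByZero_of_mem _ _ hx]
      have hm : x⁻¹ * t * x ∈ L := L.mul_mem (L.mul_mem (L.inv_mem hx) t.2) hx
      rw [extendByZero_of_mem _ _ hm]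
      have := hψ t (⟨x, hx⟩⁻¹ : L)
      rw [← this]
      congr 1
      apply Subtype.ext
      simp
    · rw [extendByZero_of_not_mem _ _ hx]
      by_cases hm : x⁻¹ * t * x ∈ L
      · rw [extendByZero_of_mem _ _ hm]
        apply hψT
        intro hT
        have hx' : x⁻¹ ∉ L := fun h => hx (by
          have h2 := L.inv_mem h
          rwa [inv_inv] at h2)
        exact hTI x⁻¹ hx' t htT (by simpa using hT)
      · rw [extendByZero_of_not_mem _ _ hm]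
  simp only [h1]
  rw [sum_extendByZero, Finset.sum_const, Finset.card_univ, nsmul_eq_mul,
    ← Nat.card_eq_fintype_card]
  have h0 := card_subgroup_ne_zero L
  field_simp

theorem indFun_isometry_on_TI' (L : Subgroup G) (T : Set G)
    (hTI : ∀ g : G, g ∉ L → ∀ t ∈ T, g * t * g⁻¹ ∉ T)
    [Fintype L] (ψ θ : L → ℂ) (hθ : IsClassFunction L θ)
    (hψT : ∀ x : L, (x : G) ∉ T → ψ x = 0)
    (hθT : ∀ x : L, (x : G) ∉ T → θ x = 0) :
    classInner (indFun L ψ) (indFun L θ) = classInner ψ θ := by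
  rw [frobenius_reciprocity _ _ (isClassFunction_indFun _ θ), classInner, classInner]
  congr 1
  refine Finset.sum_congr rfl fun n _ => ?_
  by_cases hn : (n : G) ∈ T
  · rw [indFun_eq_on_TI' L T hTI θ hθ hθT n hn]
  · rw [hψT n hn, zero_mul, zero_mul]

end TI

section cyc

variable {G : Type u} [Group G]

theorem conj_mem_of_cyclic (W : Subgroup G) [IsCyclic W] (g : G) (hg : ∀ x ∈ W, g * x * g⁻¹ ∈ W)
    (U : Subgroup G) (hU : U ≤ W) : ∀ x ∈ U, g * x * g⁻¹ ∈ U := by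
  obtain ⟨w₀, hw₀⟩ := IsCyclic.exists_generator (α := W)
  obtain ⟨k, hk⟩ := Subgroup.mem_zpowers_iff.1 (hw₀ ⟨g * w₀ * g⁻¹, hg w₀ w₀.2⟩)
  have hk' : (w₀ : G) ^ k = g * w₀ * g⁻¹ := by
    have := congrArg Subtype.val hk
    simpa using this
  intro x hx
  obtain ⟨j, hj⟩ := Subgroup.mem_zpowers_iff.1 (hw₀ ⟨x, hU hx⟩)
  have hj' : (w₀ : G) ^ j = x := by
    have := congrArg Subtype.val hj
    simpa using this
  have : g * x * g⁻¹ = x ^ k := by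
    rw [← hj', ← conj_zpow, ← hk', ← zpow_mul, ← zpow_mul, mul_comm]
  rw [this]
  exact U.zpow_mem hx k

theorem selfNormalizing_TI {W₁ W₂ : Subgroup G} (hW : IsSelfNormalizingCyclic W₁ W₂) :
    ∀ g : G, g ∉ W₁ ⊔ W₂ → ∀ t ∈ (↑(W₁ ⊔ W₂) : Set G) \ (↑W₁ ∪ ↑W₂),
      g * t * g⁻¹ ∉ (↑(W₁ ⊔ W₂) : Set G) \ (↑W₁ ∪ ↑W₂) := by
  obtain ⟨-, -, -, -, hcyc, hnorm⟩ := hW
  intro g hg t ht hs
  apply hg
  have hcomm : ∀ a ∈ W₁ ⊔ W₂, ∀ b ∈ W₁ ⊔ W₂, a * b = b * a := by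
    letI := IsCyclic.commGroup (α := ↥(W₁ ⊔ W₂))
    intro a ha b hb
    exact congrArg Subtype.val (mul_comm (⟨a, ha⟩ : ↥(W₁ ⊔ W₂)) ⟨b, hb⟩)
  have hcent : ∀ v ∈ (↑(W₁ ⊔ W₂) : Set G) \ (↑W₁ ∪ ↑W₂), ∀ x : G, x * v = v * x → x ∈ W₁ ⊔ W₂ := by
    intro v hv x hx
    rw [← hnorm {v} (by simpa using hv) (Set.singleton_nonempty _)]
    apply Subgroup.centralizer_le_normalizer
    rw [Subgroup.mem_centralizer_iff]
    intro y hy
    rw [Set.mem_singleton_iff] at hy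
    rw [hy, hx]
  have h1 : ∀ x ∈ W₁ ⊔ W₂, g * x * g⁻¹ ∈ W₁ ⊔ W₂ := by
    intro x hx
    apply hcent _ hs
    have := hcomm x hx t ht.1
    calc g * x * g⁻¹ * (g * t * g⁻¹) = g * (x * t) * g⁻¹ := by group
      _ = g * (t * x) * g⁻¹ := by rw [this]
      _ = g * t * g⁻¹ * (g * x * g⁻¹) := by group
  have h2 : ∀ x ∈ W₁ ⊔ W₂, g⁻¹ * x * g⁻¹⁻¹ ∈ W₁ ⊔ W₂ := by
    intro x hx
    apply hcent _ ht
    have := hcomm x hx _ hs.1
    calc g⁻¹ * x * g⁻¹⁻¹ * t = g⁻¹ * (x * (g * t * g⁻¹)) * g := by group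
      _ = g⁻¹ * ((g * t * g⁻¹) * x) * g := by rw [this]
      _ = t * (g⁻¹ * x * g⁻¹⁻¹) := by group
  have a1 := conj_mem_of_cyclic (W₁ ⊔ W₂) g h1 W₁ le_sup_left
  have a2 := conj_mem_of_cyclic (W₁ ⊔ W₂) g h1 W₂ le_sup_right
  have b1 := conj_mem_of_cyclic (W₁ ⊔ W₂) g⁻¹ h2 W₁ le_sup_left
  have b2 := conj_mem_of_cyclic (W₁ ⊔ W₂) g⁻¹ h2 W₂ le_sup_right
  rw [← hnorm _ (le_refl _) ⟨t, ht⟩, Subgroup.mem_set_normalizer_iff]
  intro h
  have e : g⁻¹ * (g * h * g⁻¹) * g⁻¹⁻¹ = h := by group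
  constructor
  · rintro ⟨hh, hh'⟩
    refine ⟨h1 h hh, ?_⟩
    rintro (h3 | h3)
    · exact hh' (Or.inl (by have := b1 _ h3; rwa [e] at this))
    · exact hh' (Or.inr (by have := b2 _ h3; rwa [e] at this))
  · rintro ⟨hh, hh'⟩
    refine ⟨by have := h2 _ hh; rwa [e] at this, ?_⟩
    rintro (h3 | h3)
    · exact hh' (Or.inl (a1 _ h3))
    · exact hh' (Or.inr (a2 _ h3))

end cyc

end Cfsg.Agent.Lib.Helper10
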