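import Mathlib
import Cfsg.Prelude.Def_Characters
import Cfsg.Prelude.Def_OddOrderChar
import Cfsg.Agent.S1498
import Cfsg.Agent.S1499

set_option autoImplicit false

namespace Cfsg.Agent.Lib.Helper10.Dade

open Cfsg
open scoped ComplexConjugate

universe u

section group

variable {G : Type u} [Group G] [Finite G] {A : Set G} {L : Subgroup G} {H : G → Subgroup G}

omit [Finite G] in
theorem comm_of_mem (hD : DadeHypothesis A L H) {a u : G} (ha : a ∈ A) (hu : u ∈ H a) : a * u = u * a := by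
  have := hD.le_centralizer a ha hu
  rw [Subgroup.mem_centralizer_iff] at this
  exact this a rfl

/-- decomposition of an element conjugating `a` into `A` -/
theorem exists_decomp (hD : DadeHypothesis A L H) {a z : G} (ha : a ∈ A) (hz : z * a * z⁻¹ ∈ A) :
    ∃ l ∈ L, ∃ c ∈ Subgroup.centralizer ({a} : Set G), z = l * c ∧ l * a * l⁻¹ = z * a * z⁻¹ := by
  obtain ⟨l, hl, h⟩ := hD.fusion a ha z hz
  refine ⟨l, hl, l⁻¹ * z, ?_, by group, h⟩
  rw [Subgroup.mem_centralizer_iff]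
  intro y hy
  rw [Set.mem_singleton_iff.1 hy]
  calc a * (l⁻¹ * z) = l⁻¹ * (l * a * l⁻¹) * z := by group
    _ = l⁻¹ * (z * a * z⁻¹) * z := by rw [h]
    _ = l⁻¹ * z * a := by group

theorem conj_mem_H' (hD : DadeHypothesis A L H) {a z u : G} (ha : a ∈ A) (hz : z * a * z⁻¹ ∈ A)
    (hu : u ∈ H a) : z * u * z⁻¹ ∈ H (z * a * z⁻¹) := by
  obtain ⟨l, hl, c, hc, rfl, h⟩ := exists_decomp hD ha hz
  rw [← h, Cfsg.Agent.S1498.result A L H hD a ha l hl]
  refine ⟨c * u * c⁻¹, hD.conj_mem_H a ha c hc u hu, ?_⟩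
  change l * (c * u * c⁻¹) * l⁻¹ = _
  group

theorem card_H_conj (hD : DadeHypothesis A L H) {a z : G} (ha : a ∈ A) (hz : z * a * z⁻¹ ∈ A) :
    Nat.card (H (z * a * z⁻¹)) = Nat.card (H a) := by
  obtain ⟨l, hl, c, hc, rfl, h⟩ := exists_decomp hD ha hz
  rw [← h, Cfsg.Agent.S1498.result A L H hD a ha l hl]
  exact Subgroup.card_map_of_injective (MulAut.conj l).injective

theorem coset_iff (hD : DadeHypothesis A L H) {a₁ u₁ a z : G} (ha₁ : a₁ ∈ A) (hu₁ : u₁ ∈ H a₁) (ha : a ∈ A) :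
    (∃ u ∈ H a, z * (a₁ * u₁) * z⁻¹ = a * u) ↔ z * a₁ * z⁻¹ = a := by
  constructor
  · rintro ⟨u, hu, h⟩
    exact Cfsg.Agent.S1499.key A L H hD a₁ a ha₁ ha u₁ u z hu₁ hu h
  · rintro rfl
    exact ⟨z * u₁ * z⁻¹, conj_mem_H' hD ha₁ ha hu₁, by group⟩

theorem card_Z (hD : DadeHypothesis A L H) {a : G} (ha : a ∈ A) :
    Nat.card {z : G // z * a * z⁻¹ ∈ A} = Nat.card L * Nat.card (H a) := by
  rw [← Nat.card_prod]
  symm
  have hmem : ∀ p : L × H a, ((p.1 : G) * (p.2 : G)) * a * ((p.1 : G) * (p.2 : G))⁻¹ ∈ A := by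
    rintro ⟨l, h⟩
    have h1 := comm_of_mem hD ha h.2
    have : ((l : G) * (h : G)) * a * ((l : G) * (h : G))⁻¹ = l * a * (l : G)⁻¹ := by
      calc ((l : G) * (h : G)) * a * ((l : G) * (h : G))⁻¹ = l * ((h : G) * a) * (h : G)⁻¹ * (l : G)⁻¹ := by group
        _ = l * (a * (h : G)) * (h : G)⁻¹ * (l : G)⁻¹ := by rw [h1]
        _ = l * a * (l : G)⁻¹ := by group
    simp only
    rw [this]
    exact hD.conj_mem l l.2 a ha
  apply Nat.card_congr
  refine Equiv.ofBijective (fun p : L × H a => ⟨(p.1 : G) * (p.2 : G), hmem p⟩) ⟨?_, ?_⟩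
  · rintro ⟨l, h⟩ ⟨l', h'⟩ he
    have he' : (l : G) * h = l' * h' := congrArg Subtype.val he
    have h1 : (l' : G)⁻¹ * l = h' * (h : G)⁻¹ := by
      calc (l' : G)⁻¹ * l = (l' : G)⁻¹ * (l * h) * (h : G)⁻¹ := by group
        _ = (l' : G)⁻¹ * (l' * h') * (h : G)⁻¹ := by rw [he']
        _ = h' * (h : G)⁻¹ := by group
    have h2 : (h' : G) * (h : G)⁻¹ ∈ H a := (H a).mul_mem h'.2 ((H a).inv_mem h.2)
    have h3 : (h' : G) * (h : G)⁻¹ ∈ H a ⊓ (L ⊓ Subgroup.centralizer ({a} : Set G)) := by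
      refine Subgroup.mem_inf.2 ⟨h2, Subgroup.mem_inf.2 ⟨?_, hD.le_centralizer a ha h2⟩⟩
      rw [← h1]
      exact L.mul_mem (L.inv_mem l'.2) l.2
    rw [hD.inf_eq_bot a ha, Subgroup.mem_bot] at h3
    have h4 : (h' : G) = h := mul_inv_eq_one.1 h3
    have h5 : (l : G) = l' := by
      rw [h3] at h1
      exact (inv_mul_eq_one.1 h1).symm
    exact Prod.ext (Subtype.ext h5) (Subtype.ext h4.symm)
  · rintro ⟨z, hz⟩
    obtain ⟨l, hl, c, hc, rfl, -⟩ := exists_decomp hD ha hz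
    have hC : (L ⊓ Subgroup.centralizer ({a} : Set G)) ≤ Subgroup.normalizer (H a : Set G) := by
      rw [Subgroup.le_normalizer_iff]
      intro c hc n hn
      exact hD.conj_mem_H a ha c (Subgroup.mem_inf.1 hc).2 n hn
    have hc' : c ∈ ((H a ⊔ (L ⊓ Subgroup.centralizer ({a} : Set G)) : Subgroup G) : Set G) := by
      rw [hD.sup_eq a ha]; exact hc
    rw [sup_comm, Subgroup.coe_mul_of_left_le_normalizer_right _ _ hC] at hc'
    obtain ⟨c₁, hc₁, h, hh, rfl⟩ := hc'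
    refine ⟨⟨⟨l * c₁, L.mul_mem hl (Subgroup.mem_inf.1 hc₁).1⟩, ⟨h, hh⟩⟩, ?_⟩
    apply Subtype.ext
    simp [mul_assoc]

theorem dade_apply (hD : DadeHypothesis A L H) {w : L → ℂ} (hw : IsClassFunction L w) {g x u : G} (a : L)
    (ha : (a : G) ∈ A) (hu : u ∈ H a) (h : x * g * x⁻¹ = a * u) : dadeIsometry A L H w g = w a := by
  have hex : ∃ a : ↥L, (a : G) ∈ A ∧ ∃ x : G, ∃ u ∈ H (a : G), x * g * x⁻¹ = (a : G) * u :=
    ⟨a, ha, x, u, hu, h⟩
  unfold dadeIsometry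
  rw [dif_pos hex]
  obtain ⟨ha', x', u', hu', h'⟩ := Classical.choose_spec hex
  set a' := Classical.choose hex
  have h1 : (x * x'⁻¹) * ((a' : G) * u') * (x * x'⁻¹)⁻¹ = a * u := by
    rw [← h', ← h]; group
  have h2 := Cfsg.Agent.S1499.key A L H hD a' a ha' ha u' u _ hu' hu h1
  obtain ⟨l, hl, h3⟩ := hD.fusion a' ha' (x * x'⁻¹) (by rw [h2]; exact ha)
  have h4 : a = ⟨l, hl⟩ * a' * ⟨l, hl⟩⁻¹ := by
    apply Subtype.ext
    simp only [Subgroup.coe_mul, InvMemClass.coe_inv]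
    rw [h3, h2]
  rw [h4, hw]

omit [Finite G] in
theorem dade_apply_of_not {w : L → ℂ} {g : G}
    (h : ¬ ∃ a : ↥L, (a : G) ∈ A ∧ ∃ x : G, ∃ u ∈ H (a : G), x * g * x⁻¹ = (a : G) * u) :
    dadeIsometry A L H w g = 0 := by
  unfold dadeIsometry
  rw [dif_neg h]

end group

section sums

variable {G : Type u} [Group G] [Fintype G] {A : Set G} {L : Subgroup G} [Fintype L] {H : G → Subgroup G}

open Classical in
theorem formula (hD : DadeHypothesis A L H) {w : L → ℂ} (hw : IsClassFunction L w)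
    (hwA : ∀ x : L, (x : G) ∉ A → w x = 0) (g : G) :
    (Nat.card L : ℂ) * dadeIsometry A L H w g =
      ∑ x : G, ∑ a : L, w a * (Nat.card (H a) : ℂ)⁻¹ * (if ∃ u ∈ H a, x * g * x⁻¹ = a * u then 1 else 0) := by
  by_cases hg : ∃ a : ↥L, (a : G) ∈ A ∧ ∃ x : G, ∃ u ∈ H (a : G), x * g * x⁻¹ = (a : G) * u
  · obtain ⟨a₁, ha₁, x₁, u₁, hu₁, h₁⟩ := hg
    rw [dade_apply hD hw a₁ ha₁ hu₁ h₁]
    have hinner : ∀ x : G, ∑ a : L, w a * (Nat.card (H a) : ℂ)⁻¹ *
        (if ∃ u ∈ H a, x * g * x⁻¹ = a * u then 1 else 0) =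
        if (x * x₁⁻¹) * a₁ * (x * x₁⁻¹)⁻¹ ∈ A then w a₁ * (Nat.card (H a₁) : ℂ)⁻¹ else 0 := by
      intro x
      have hx : x * g * x⁻¹ = (x * x₁⁻¹) * ((a₁ : G) * u₁) * (x * x₁⁻¹)⁻¹ := by
        rw [← h₁]; group
      split_ifs with hz
      · rw [Finset.sum_eq_single (⟨(x * x₁⁻¹) * a₁ * (x * x₁⁻¹)⁻¹, hD.subset hz⟩ : L)]
        · rw [if_pos (by rw [hx]; exact (coset_iff hD ha₁ hu₁ hz).2 rfl), mul_one]
          simp only
          rw [card_H_conj hD ha₁ hz]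
          congr 1
          obtain ⟨l, hl, h3⟩ := hD.fusion a₁ ha₁ _ hz
          have h4 : (⟨(x * x₁⁻¹) * a₁ * (x * x₁⁻¹)⁻¹, hD.subset hz⟩ : L) = ⟨l, hl⟩ * a₁ * ⟨l, hl⟩⁻¹ := by
            apply Subtype.ext
            simp only [Subgroup.coe_mul, InvMemClass.coe_inv]
            rw [h3]
          rw [h4, hw]
        · intro a _ hne
          by_cases ha : (a : G) ∈ A
          · rw [if_neg, mul_zero]
            intro hex
            rw [hx] at hex
            exact hne (Subtype.ext ((coset_iff hD ha₁ hu₁ ha).1 hex).symm)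
          · rw [hwA a ha]; simp
        · intro h; exact absurd (Finset.mem_univ _) h
      · apply Finset.sum_eq_zero
        intro a _
        by_cases ha : (a : G) ∈ A
        · rw [if_neg, mul_zero]
          intro hex
          rw [hx] at hex
          apply hz
          rw [(coset_iff hD ha₁ hu₁ ha).1 hex]
          exact ha
        · rw [hwA a ha]; simp
    simp only [hinner]
    have hre : ∑ x : G, (if (x * x₁⁻¹) * a₁ * (x * x₁⁻¹)⁻¹ ∈ A then w a₁ * (Nat.card (H a₁) : ℂ)⁻¹ else 0) =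
        ∑ z : G, (if z * a₁ * z⁻¹ ∈ A then w a₁ * (Nat.card (H a₁) : ℂ)⁻¹ else 0) :=
      Fintype.sum_equiv (Equiv.mulRight x₁⁻¹) _ _ (fun x => rfl)
    rw [hre, ← Finset.sum_filter, Finset.sum_const, ← Fintype.card_subtype, ← Nat.card_eq_fintype_card,
      card_Z hD ha₁, nsmul_eq_mul]
    have h0 : (Nat.card (H a₁) : ℂ) ≠ 0 := by exact_mod_cast Nat.card_pos.ne'
    push_cast
    field_simp
  · rw [dade_apply_of_not hg, mul_zero]
    symm
    apply Finset.sum_eq_zero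
    intro x _
    apply Finset.sum_eq_zero
    intro a _
    by_cases ha : (a : G) ∈ A
    · rw [if_neg, mul_zero]
      rintro ⟨u, hu, h⟩
      exact hg ⟨a, ha, x, u, hu, h⟩
    · rw [hwA a ha]; simp

open Classical in
/-- The master formula for sums against a Dade image. -/
theorem master (hD : DadeHypothesis A L H) {w : L → ℂ} (hw : IsClassFunction L w)
    (hwA : ∀ x : L, (x : G) ∉ A → w x = 0) {F : G → ℂ} (hF : IsClassFunction G F) :
    (Nat.card L : ℂ) * ∑ g : G, dadeIsometry A L H w g * F g =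
      (Nat.card G : ℂ) * ∑ a : L, w a * ((Nat.card (H a) : ℂ)⁻¹ * ∑ u ∈ Finset.univ.filter (· ∈ H a), F (a * u)) := by
  rw [Finset.mul_sum]
  have h1 : ∀ g : G, (Nat.card L : ℂ) * (dadeIsometry A L H w g * F g) =
      ∑ x : G, ∑ a : L, w a * (Nat.card (H a) : ℂ)⁻¹ * ((if ∃ u ∈ H a, x * g * x⁻¹ = a * u then 1 else 0) * F g) := by
    intro g
    rw [← mul_assoc, formula hD hw hwA, Finset.sum_mul]
    refine Finset.sum_congr rfl fun x _ => ?_
    rw [Finset.sum_mul]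
    refine Finset.sum_congr rfl fun a _ => ?_
    ring
  simp only [h1]
  rw [Finset.sum_comm]
  have h2 : ∀ x : G, ∑ g : G, ∑ a : L, w a * (Nat.card (H a) : ℂ)⁻¹ *
      ((if ∃ u ∈ H a, x * g * x⁻¹ = a * u then 1 else 0) * F g) =
      ∑ a : L, w a * ((Nat.card (H a) : ℂ)⁻¹ * ∑ u ∈ Finset.univ.filter (· ∈ H a), F (a * u)) := by
    intro x
    rw [Finset.sum_comm]
    refine Finset.sum_congr rfl fun a _ => ?_
    rw [← Finset.mul_sum, mul_assoc]
    congr 2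
    -- reindex
    have e1 : ∑ g : G, (if ∃ u ∈ H a, x * g * x⁻¹ = a * u then (1 : ℂ) else 0) * F g =
        ∑ v : G, (if v ∈ H a then (1 : ℂ) else 0) * F (a * v) := by
      refine Fintype.sum_equiv ((MulAut.conj x).toEquiv.trans (Equiv.mulLeft (a : G)⁻¹)) _ _ ?_
      intro g
      show (if ∃ u ∈ H a, x * g * x⁻¹ = a * u then (1 : ℂ) else 0) * F g =
        (if (a : G)⁻¹ * (x * g * x⁻¹) ∈ H a then (1 : ℂ) else 0) * F (a * ((a : G)⁻¹ * (x * g * x⁻¹)))
      rw [mul_inv_cancel_left, hF g x]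
      congr 1
      have : (∃ u ∈ H a, x * g * x⁻¹ = a * u) ↔ (a : G)⁻¹ * (x * g * x⁻¹) ∈ H a := by
        constructor
        · rintro ⟨u, hu, h⟩
          rw [h, inv_mul_cancel_left]; exact hu
        · intro h
          exact ⟨_, h, by rw [mul_inv_cancel_left]⟩
      by_cases hm : (a : G)⁻¹ * (x * g * x⁻¹) ∈ H a
      · rw [if_pos (this.2 hm), if_pos hm]
      · rw [if_neg (fun h => hm (this.1 h)), if_neg hm]
    rw [e1, Finset.sum_filter]
    refine Finset.sum_congr rfl fun v _ => ?_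
    split_ifs <;> simp
  simp only [h2]
  rw [Finset.sum_const, Finset.card_univ, nsmul_eq_mul, ← Nat.card_eq_fintype_card]

end sums

end Cfsg.Agent.Lib.Helper10.Dade
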