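import Mathlib
import Cfsg.Prelude.Def_Characters
import Cfsg.Agent.CharLib.IndMore

/-! Passing from a subgroup `H` (as a group in its own right) back to the ambient group:
induction in stages, solvability of sections, chief factors. -/

set_option autoImplicit false

namespace Cfsg.Agent.Lib.Helper10

open Cfsg Cfsg.Agent.CharLib Cfsg.Agent.CharLib.H2

universe u

variable {G : Type u} [Group G]

theorem descend [Fintype G] (N H : Subgroup G) (hNH : N ≤ H) [Fintype H] (ψ : H → ℂ)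
    (h : ∃ (H₁ : Subgroup H) (h₁ : N.subgroupOf H ≤ H₁) (ψ₁ : H₁ → ℂ), IsIrrCharacter H₁ ψ₁ ∧
      indFun H₁ ψ₁ = ψ ∧ IsIrrCharacter (N.subgroupOf H) (fun n => ψ₁ ⟨n, h₁ n.2⟩)) :
    ∃ (H₂ : Subgroup G) (h₂ : N ≤ H₂) (ψ₂ : H₂ → ℂ), IsIrrCharacter H₂ ψ₂ ∧
      indFun H₂ ψ₂ = indFun H ψ ∧ IsIrrCharacter N (fun n => ψ₂ ⟨n, h₂ n.2⟩) := by
  obtain ⟨H₁, h₁, ψ₁, hirr, hind, hres⟩ := h
  have hle : H₁.map H.subtype ≤ H := Subgroup.map_subtype_le H₁
  have hmem : ∀ x (hx : x ∈ H₁.map H.subtype), (⟨x, hle hx⟩ : H) ∈ H₁ := by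
    rintro _ ⟨y, hy, rfl⟩
    exact hy
  let f : H₁.map H.subtype →* H₁ :=
    { toFun := fun x => ⟨⟨x, hle x.2⟩, hmem x x.2⟩
      map_one' := rfl
      map_mul' := fun _ _ => rfl }
  have hf : Function.Surjective f := fun y => ⟨⟨y.1.1, Subgroup.mem_map_of_mem _ y.2⟩, rfl⟩
  have h₂ : N ≤ H₁.map H.subtype := by
    intro n hn
    exact ⟨⟨n, hNH hn⟩, h₁ (Subgroup.mem_subgroupOf.2 hn), rfl⟩
  refine ⟨H₁.map H.subtype, h₂, fun x => ψ₁ (f x),
    isIrrCharacter_comp_of_surjective hirr f hf, ?_, ?_⟩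
  · rw [← indFun_trans _ H hle, ← hind]
    congr 1
    apply indFun_congr
    · exact Subgroup.comap_map_eq_self_of_injective H.subtype_injective H₁
    · intro x h1 h2
      rfl
  · let g : N →* N.subgroupOf H :=
      { toFun := fun n => ⟨⟨n, hNH n.2⟩, Subgroup.mem_subgroupOf.2 n.2⟩
        map_one' := rfl
        map_mul' := fun _ _ => rfl }
    have hg : Function.Surjective g := fun y => ⟨⟨y.1.1, Subgroup.mem_subgroupOf.1 y.2⟩, rfl⟩
    exact isIrrCharacter_comp_of_surjective hres g hg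

theorem isSolvable_quotient_subgroupOf (N H : Subgroup G) [N.Normal]
    (h : Group.IsSolvable (G ⧸ N)) : Group.IsSolvable (H ⧸ N.subgroupOf H) := by
  have := h
  let f : H ⧸ N.subgroupOf H →* G ⧸ N :=
    QuotientGroup.map (N.subgroupOf H) N H.subtype (le_refl _)
  apply Group.isSolvable_of_isSolvable_injective (f := f)
  rw [injective_iff_map_eq_one]
  intro q hq
  obtain ⟨x, rfl⟩ := QuotientGroup.mk_surjective q
  have hq' : ((x : G) : G ⧸ N) = 1 := hq
  rw [QuotientGroup.eq_one_iff] at hq'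
  exact (QuotientGroup.eq_one_iff x).2 (Subgroup.mem_subgroupOf.2 hq')

theorem isSolvable_quotient_of_le (N K : Subgroup G) [N.Normal] [K.Normal] (hNK : N ≤ K)
    (h : Group.IsSolvable (G ⧸ N)) : Group.IsSolvable (G ⧸ K) := by
  have := h
  let f : G ⧸ N →* G ⧸ K := QuotientGroup.map N K (MonoidHom.id G) hNK
  apply Group.isSolvable_of_surjective (f := f)
  intro q
  obtain ⟨x, rfl⟩ := QuotientGroup.mk_surjective q
  exact ⟨(x : G ⧸ N), rfl⟩

/-- a chief factor `K/N` of `G` with `G/N` solvable is abelian -/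
theorem commutator_le_of_chief (N K : Subgroup G) [hN : N.Normal] [hK : K.Normal] (hNK : N < K)
    (h : Group.IsSolvable (G ⧸ N))
    (hchief : ∀ M : Subgroup G, M.Normal → N ≤ M → M ≤ K → M = N ∨ M = K) : ⁅K, K⁆ ≤ N := by
  have := h
  have h1 : (⁅K, K⁆ ⊔ N).Normal := inferInstance
  rcases hchief (⁅K, K⁆ ⊔ N) h1 le_sup_right
    (sup_le (Subgroup.commutator_le_left K K) hNK.le) with h2 | h2
  · rw [← h2]
    exact le_sup_left
  · exfalso
    have h3 : K.map (QuotientGroup.mk' N) ≠ ⊥ := by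
      intro h4
      rw [Subgroup.map_eq_bot_iff, QuotientGroup.ker_mk'] at h4
      exact absurd hNK (not_lt_of_ge h4)
    have h4 := Group.IsSolvable.commutator_lt_of_ne_bot h3
    have h5 : K.map (QuotientGroup.mk' N) =
        ⁅K.map (QuotientGroup.mk' N), K.map (QuotientGroup.mk' N)⁆ := by
      conv_lhs => rw [← h2]
      rw [Subgroup.map_sup, Subgroup.map_commutator, QuotientGroup.map_mk'_self, sup_bot_eq]
    rw [← h5] at h4
    exact lt_irrefl _ h4

/-- existence of a chief factor above a proper normal subgroup -/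
theorem exists_chief [Finite G] (N : Subgroup G) (hN : N ≠ ⊤) :
    ∃ K : Subgroup G, K.Normal ∧ N < K ∧
      ∀ M : Subgroup G, M.Normal → N ≤ M → M ≤ K → M = N ∨ M = K := by
  obtain ⟨K, ⟨hKn, hNK⟩, hmin⟩ := wellFounded_lt.has_min {K : Subgroup G | K.Normal ∧ N < K}
    ⟨⊤, inferInstance, lt_top_iff_ne_top.2 hN⟩
  refine ⟨K, hKn, hNK, ?_⟩
  intro M hM hNM hMK
  by_cases h : M = N
  · exact Or.inl h
  · right
    have h1 : N < M := lt_of_le_of_ne hNM (Ne.symm h)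
    exact eq_of_le_of_not_lt hMK (hmin M ⟨hM, h1⟩)

/-- transfer of a hypothesis on all chief factors of all subgroups above `N` to a subgroup -/
theorem chief_transfer (P : ℕ → Prop) (N X : Subgroup G) (hNX : N ≤ X)
    (hchief : ∀ (H K L : Subgroup G), N ≤ L → L < K → K ≤ H → (∀ h ∈ H, ∀ k ∈ K, h * k * h⁻¹ ∈ K) →
      (∀ h ∈ H, ∀ l ∈ L, h * l * h⁻¹ ∈ L) →
      (∀ M : Subgroup G, L ≤ M → M ≤ K → (∀ h ∈ H, ∀ m ∈ M, h * m * h⁻¹ ∈ M) → M = L ∨ M = K) →
      P (L.relIndex K)) :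
    ∀ (H K L : Subgroup X), N.subgroupOf X ≤ L → L < K → K ≤ H →
      (∀ h ∈ H, ∀ k ∈ K, h * k * h⁻¹ ∈ K) →
      (∀ h ∈ H, ∀ l ∈ L, h * l * h⁻¹ ∈ L) →
      (∀ M : Subgroup X, L ≤ M → M ≤ K → (∀ h ∈ H, ∀ m ∈ M, h * m * h⁻¹ ∈ M) → M = L ∨ M = K) →
      P (L.relIndex K) := by
  intro H' K' L' hNL hLK hKH hK hL hmin
  have := hchief (H'.map X.subtype) (K'.map X.subtype) (L'.map X.subtype) ?_ ?_ ?_ ?_ ?_ ?_
  · rw [Subgroup.relIndex_map_map_of_injective _ _ X.subtype_injective] at this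
    exact this
  · intro n hn
    exact ⟨⟨n, hNX hn⟩, hNL (Subgroup.mem_subgroupOf.2 hn), rfl⟩
  · exact (Subgroup.map_lt_map_iff_of_injective X.subtype_injective).2 hLK
  · exact Subgroup.map_mono hKH
  · rintro _ ⟨h, hh, rfl⟩ _ ⟨k, hk, rfl⟩
    exact ⟨h * k * h⁻¹, hK h hh k hk, rfl⟩
  · rintro _ ⟨h, hh, rfl⟩ _ ⟨k, hk, rfl⟩
    exact ⟨h * k * h⁻¹, hL h hh k hk, rfl⟩
  · intro M hLM hMK hMinv
    have hMX : M ≤ X := hMK.trans (Subgroup.map_subtype_le _)
    have h1 : L' ≤ M.subgroupOf X := by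
      intro l hl
      exact Subgroup.mem_subgroupOf.2 (hLM (Subgroup.mem_map_of_mem _ hl))
    have h2 : M.subgroupOf X ≤ K' := by
      intro m hm
      obtain ⟨k, hk, hkm⟩ := hMK (Subgroup.mem_subgroupOf.1 hm)
      have h1 : k = m := Subtype.ext hkm
      rw [← h1]
      exact hk
    have h3 : ∀ h ∈ H', ∀ m ∈ M.subgroupOf X, h * m * h⁻¹ ∈ M.subgroupOf X := by
      intro h hh m hm
      exact Subgroup.mem_subgroupOf.2
        (hMinv h (Subgroup.mem_map_of_mem _ hh) m (Subgroup.mem_subgroupOf.1 hm))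
    rcases hmin (M.subgroupOf X) h1 h2 h3 with h | h
    · left
      rw [← h, Subgroup.map_subgroupOf_eq_of_le hMX]
    · right
      rw [← h, Subgroup.map_subgroupOf_eq_of_le hMX]

end Cfsg.Agent.Lib.Helper10
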