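import Mathlib
import Cfsg.Agent.Lib.Helper10.FitHall
import Cfsg.Agent.Lib.Helper10.Pow

/-! `M_F` as a subgroup of the ambient group. -/

set_option autoImplicit false
set_option linter.style.haveILetI false
set_option linter.unusedSectionVars false

namespace Cfsg.Agent.Lib.Helper10

open Cfsg Subgroup

universe u

variable {G : Type u} [Group G] [Finite G]

theorem fittingHallOf_le (M : Subgroup G) : fittingHallOf M ≤ M := by
  rintro _ ⟨x, -, rfl⟩
  exact x.2

theorem card_fittingHallOf (M : Subgroup G) :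
    Nat.card (fittingHallOf M) = Nat.card (fittingHall M) :=
  (Nat.card_congr ((fittingHall M).equivMapOfInjective M.subtype M.subtype_injective).toEquiv).symm

theorem fittingHallOf_coprime (M U : Subgroup G) (hUM : U ≤ M) (hd : fittingHallOf M ⊓ U = ⊥) :
    (Nat.card (fittingHallOf M)).Coprime (Nat.card U) := by
  have h1 := (fittingHall_spec (G := M)).2
  rw [card_fittingHallOf]
  apply Nat.Coprime.coprime_dvd_right _ h1
  have h2 : fittingHall M ⊓ U.subgroupOf M = ⊥ := by
    rw [eq_bot_iff]
    intro x hx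
    have h3 : (x : G) ∈ fittingHallOf M ⊓ U := ⟨⟨x, hx.1, rfl⟩, mem_subgroupOf.1 hx.2⟩
    rw [hd, mem_bot] at h3
    exact (mem_bot).2 (Subtype.ext h3)
  have h3 : (fittingHall M).relIndex (U.subgroupOf M) = Nat.card U := by
    rw [← inf_relIndex_right, h2, relIndex_bot_left]
    exact Nat.card_congr (subgroupOfEquivOfLe hUM).toEquiv
  rw [← h3]
  exact relIndex_dvd_index_of_normal _ _

theorem isNilpotent_fittingHallOf (M : Subgroup G) : Group.IsNilpotent (fittingHallOf M) := by
  haveI := (fittingHall_spec (G := M)).1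
  exact Group.nilpotent_of_mulEquiv
    ((fittingHall M).equivMapOfInjective M.subtype M.subtype_injective)

/-- `F(M) = H C_U(H)` for type-P data -/
theorem typeP_fitting_eq (M W₁ U W₂ : Subgroup G) (hP : IsTypePWith M W₁ U W₂) :
    fittingOf M = fittingHallOf M ⊔ (U ⊓ centralizer (fittingHallOf M : Set G)) := by
  obtain ⟨-, hUM', hd, hdec⟩ := hP.U_compl
  have hM'M : ⁅M, M⁆ ≤ M := hP.W₁_compl.1
  have hUM : U ≤ M := hUM'.trans hM'M
  have hcop := fittingHallOf_coprime M U hUM hd
  rw [← hP.fitting_eq]
  apply le_antisymm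
  · apply sup_le le_sup_left
    intro c hc
    have hcF : c ∈ fittingOf M := by rw [← hP.fitting_eq]; exact le_sup_right (a := fittingHallOf M) hc
    obtain ⟨h, hh, u, hu, hchu⟩ := hdec c (hP.fitting_le hcF)
    have hch : h * c = c * h := (mem_centralizer_iff.1 hc.2) h hh
    have huh : u * h = h * u := by
      have hu' : u = h⁻¹ * c := by rw [hchu]; group
      rw [hu']
      calc h⁻¹ * c * h = h⁻¹ * (c * h) := by group
        _ = h⁻¹ * (h * c) := by rw [hch]
        _ = h * (h⁻¹ * c) := by group
    obtain ⟨k, hk⟩ := pow_crt (Nat.card U) (Nat.card (fittingHallOf M)) hcop.symm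
    have hpu : u ^ Nat.card U = 1 := congrArg Subtype.val (pow_card_eq_one' (x := (⟨u, hu⟩ : U)))
    have hph : h ^ Nat.card (fittingHallOf M) = 1 :=
      congrArg Subtype.val (pow_card_eq_one' (x := (⟨h, hh⟩ : fittingHallOf M)))
    have h1 := hk u h huh hpu hph
    have huc : u ∈ centralizer (fittingHallOf M : Set G) := by
      rw [← h1, huh, ← hchu]
      exact (centralizer _).pow_mem hc.2 k
    rw [hchu]
    exact (fittingHallOf M ⊔ (U ⊓ centralizer (fittingHallOf M : Set G))).mul_mem
      (le_sup_left (b := U ⊓ centralizer (fittingHallOf M : Set G)) hh)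
      (le_sup_right (a := fittingHallOf M) ⟨hu, huc⟩)
  · exact sup_le_sup_left (inf_le_inf_right _ hUM) _

end Cfsg.Agent.Lib.Helper10
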