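import Mathlib
import Cfsg.Agent.Lib.Helper10.FitHall2
import Cfsg.Agent.Lib.Helper10.TypeP

/-! More on type-P data. -/

set_option autoImplicit false
set_option linter.style.haveILetI false
set_option linter.unusedSectionVars false

namespace Cfsg.Agent.Lib.Helper10

open Cfsg Subgroup
open scoped commutatorElement

universe u

variable {G : Type u} [Group G] [Finite G]

theorem card_of_isComplIn {A B M : Subgroup G} (h : IsComplIn A B M) :
    Nat.card M = Nat.card A * Nat.card B := by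
  obtain ⟨hA, hB, hd, hdec⟩ := h
  rw [← Nat.card_prod]
  symm
  apply Nat.card_congr
  refine Equiv.ofBijective (fun q : A × B => (⟨(q.1 : G) * q.2, M.mul_mem (hA q.1.2) (hB q.2.2)⟩ : M))
    ⟨?_, ?_⟩
  · rintro ⟨a, b⟩ ⟨a', b'⟩ h
    have h' : (a : G) * b = a' * b' := congrArg Subtype.val h
    have h1 : (a' : G)⁻¹ * a = b' * (b : G)⁻¹ := by
      rw [inv_mul_eq_iff_eq_mul, ← mul_assoc, ← h']; group
    have h2 : (a' : G)⁻¹ * a ∈ A ⊓ B :=
      ⟨A.mul_mem (A.inv_mem a'.2) a.2, h1 ▸ B.mul_mem b'.2 (B.inv_mem b.2)⟩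
    rw [hd, mem_bot] at h2
    have h3 : (a : G) = a' := (inv_mul_eq_one.1 h2).symm
    have h4 : (b : G) = b' := by
      rw [h3] at h'
      exact mul_left_cancel h'
    exact Prod.ext (Subtype.ext h3) (Subtype.ext h4)
  · rintro ⟨m, hm⟩
    obtain ⟨a, ha, b, hb, rfl⟩ := hdec m hm
    exact ⟨(⟨a, ha⟩, ⟨b, hb⟩), rfl⟩

theorem typeP_U (M W₁ U W₂ : Subgroup G) (hP : IsTypePWith M W₁ U W₂) :
    ⁅U, U⁆ ≤ centralizer (fittingHallOf M : Set G) ∧
      (U ≠ ⊥ → ¬ U ≤ centralizer (fittingHallOf M : Set G)) := by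
  obtain ⟨hHM', hUM', hd, hdec⟩ := hP.U_compl
  obtain ⟨hM'M, hW₁M, hd₁, hdec₁⟩ := hP.W₁_compl
  have hUM : U ≤ M := hUM'.trans hM'M
  have hcop := fittingHallOf_coprime M U hUM hd
  constructor
  · intro x hx
    have hxU : x ∈ U := (commutator_le.2 (fun a ha b hb => by
      rw [commutatorElement_def]
      exact U.mul_mem (U.mul_mem (U.mul_mem ha hb) (U.inv_mem ha)) (U.inv_mem hb))) hx
    have hxF : x ∈ fittingHallOf M ⊔ (U ⊓ centralizer (fittingHallOf M : Set G)) := by
      rw [← typeP_fitting_eq M W₁ U W₂ hP, ← hP.fitting_eq]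
      exact hP.derived_two_le (commutator_mono hUM' hUM' hx)
    obtain ⟨h, hh, u, hu, hxhu⟩ := exists_mul_of_mem_sup_of_commute
      (W₁ := fittingHallOf M) (W₂ := U ⊓ centralizer (fittingHallOf M : Set G))
      (fun a ha b hb => (mem_centralizer_iff.1 hb.2) a ha) hxF
    have h1 : h ∈ fittingHallOf M ⊓ U := by
      refine ⟨hh, ?_⟩
      have : h = x * u⁻¹ := by rw [hxhu]; group
      rw [this]
      exact U.mul_mem hxU (U.inv_mem hu.1)
    rw [hd, mem_bot] at h1
    rw [hxhu, h1, one_mul]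
    exact hu.2
  · intro hU1 hUC
    apply hU1
    -- `U` is a normal nilpotent Hall subgroup of `M`
    have hnorm : (U.subgroupOf M).Normal := by
      refine ⟨fun x hx m => ?_⟩
      rw [mem_subgroupOf] at hx ⊢
      obtain ⟨m', hm', w, hw, hmw⟩ := hdec₁ m m.2
      obtain ⟨h, hh, u, hu, hm'hu⟩ := hdec m' hm'
      have h1 : w * x * w⁻¹ ∈ U := by
        have := (mem_normalizer_iff.1 (hP.U_normal hw)) x
        exact this.1 hx
      have h2 : u * (w * x * w⁻¹) * u⁻¹ ∈ U := U.mul_mem (U.mul_mem hu h1) (U.inv_mem hu)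
      have h3 : h * (u * (w * x * w⁻¹) * u⁻¹) = (u * (w * x * w⁻¹) * u⁻¹) * h :=
        (mem_centralizer_iff.1 (hUC h2)) h hh
      have h4 : ((m * x * m⁻¹ : M) : G) = u * (w * x * w⁻¹) * u⁻¹ := by
        show (m : G) * x * (m : G)⁻¹ = _
        rw [hmw, hm'hu]
        calc h * u * w * ↑x * (h * u * w)⁻¹ = (h * (u * (w * x * w⁻¹) * u⁻¹)) * h⁻¹ := by group
          _ = u * (w * x * w⁻¹) * u⁻¹ := by rw [h3]; group
      rw [h4]
      exact h2
    have hnil : Group.IsNilpotent (U.subgroupOf M) := by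
      haveI := hP.U_nilpotent
      exact Group.nilpotent_of_mulEquiv (subgroupOfEquivOfLe hUM).symm
    have hcU : Nat.card (U.subgroupOf M) = Nat.card U :=
      Nat.card_congr (subgroupOfEquivOfLe hUM).toEquiv
    have hcW : Nat.card (W₁.subgroupOf M) = Nat.card W₁ :=
      Nat.card_congr (subgroupOfEquivOfLe hW₁M).toEquiv
    have c1 := card_of_isComplIn hP.U_compl
    have c2 := card_of_isComplIn hP.W₁_compl
    have c3 := Subgroup.card_mul_index (U.subgroupOf M)
    have c4 := Subgroup.card_mul_index (W₁.subgroupOf M)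
    rw [hcU, c2, c1] at c3
    rw [hcW, c2, c1] at c4
    have hUpos : 0 < Nat.card U := Nat.card_pos
    have hWpos : 0 < Nat.card W₁ := Nat.card_pos
    have c5 : (U.subgroupOf M).index = Nat.card (fittingHallOf M) * Nat.card W₁ := by
      apply Nat.eq_of_mul_eq_mul_left hUpos
      rw [c3]; ring
    have c6 : W₁.relIndex M = Nat.card (fittingHallOf M) * Nat.card U := by
      apply Nat.eq_of_mul_eq_mul_left hWpos
      show Nat.card W₁ * (W₁.subgroupOf M).index = _
      rw [c4]; ring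
    have hW := hP.W₁_hall
    rw [c6] at hW
    have hhall : (Nat.card (U.subgroupOf M)).Coprime (U.subgroupOf M).index := by
      rw [hcU, c5]
      exact Nat.Coprime.mul_right hcop.symm (Nat.Coprime.coprime_mul_left_right hW).symm
    have hle := le_fittingHall hnorm hnil hhall
    rw [eq_bot_iff, ← hd]
    intro x hx
    exact ⟨⟨⟨x, hUM hx⟩, hle (mem_subgroupOf.2 hx), rfl⟩, hx⟩

end Cfsg.Agent.Lib.Helper10
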