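import Mathlib
import Cfsg.Prelude.Def_Characters
import Cfsg.Agent.CharLib.Clifford
import Cfsg.Agent.CharLib.PermLemma

set_option autoImplicit false

namespace Cfsg.Agent.Lib.Helper10

open Cfsg Cfsg.Agent.CharLib Cfsg.Agent.CharLib.H2
open scoped ComplexConjugate

universe u

/-- Brauer's permutation lemma for one element acting on a normal subgroup: a non-principal irreducible character is fixed
iff a nontrivial class is fixed. -/
theorem fixed_irr_iff_fixed_class {G : Type u} [Group G] {K : Subgroup G} [Finite K] (hK : K.Normal) (h : G) :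
    (∃ τ : K → ℂ, IsIrrCharacter K τ ∧ τ ≠ (fun _ => 1) ∧ H2.conjFun hK τ h = τ) ↔
      ∃ k : K, k ≠ 1 ∧ IsConj (⟨h * k * h⁻¹, hK.conj_mem k k.2 h⟩ : K) k := by
  classical
  have key := card_fixed_irr_eq_card_fixed_classes (G := K)
    (fun χ => ⟨H2.conjFun hK χ h, isIrrCharacter_conjFun hK χ.2 h⟩)
    (fun k => ⟨h * k * h⁻¹, hK.conj_mem k k.2 h⟩) (fun χ g => rfl)
  set X := {χ : IrrCharacter K // (⟨H2.conjFun hK χ h, isIrrCharacter_conjFun hK χ.2 h⟩ : IrrCharacter K) = χ}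
  set Y := {C : ConjClasses K // ∀ g : K, ConjClasses.mk g = C →
      IsConj (⟨h * g * h⁻¹, hK.conj_mem g g.2 h⟩ : K) g}
  have hXY : Nontrivial X ↔ Nontrivial Y := by
    rw [← Finite.one_lt_card_iff_nontrivial, ← Finite.one_lt_card_iff_nontrivial, key]
  let x₀ : X := ⟨⟨fun _ => 1, isIrrCharacter_one⟩, Subtype.ext rfl⟩
  let y₀ : Y := ⟨ConjClasses.mk 1, by
    intro g hg
    have : g = 1 := isConj_one_left.mp (ConjClasses.mk_eq_mk_iff_isConj.mp hg)
    subst this
    have : (⟨h * ((1 : K) : G) * h⁻¹, hK.conj_mem _ (1 : K).2 h⟩ : K) = 1 := by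
      apply Subtype.ext; simp
    rw [this]⟩
  have hX : Nontrivial X ↔ ∃ τ : K → ℂ, IsIrrCharacter K τ ∧ τ ≠ (fun _ => 1) ∧ H2.conjFun hK τ h = τ := by
    rw [nontrivial_iff_exists_ne x₀]
    constructor
    · rintro ⟨⟨⟨τ, hτ⟩, hfix⟩, hne⟩
      refine ⟨τ, hτ, ?_, congrArg Subtype.val hfix⟩
      intro h1
      apply hne
      apply Subtype.ext
      apply Subtype.ext
      exact h1
    · rintro ⟨τ, hτ, hne, hfix⟩
      refine ⟨⟨⟨τ, hτ⟩, Subtype.ext hfix⟩, ?_⟩
      intro h1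
      exact hne (congrArg (fun x : X => (x.1 : K → ℂ)) h1)
  have hY : Nontrivial Y ↔ ∃ k : K, k ≠ 1 ∧ IsConj (⟨h * k * h⁻¹, hK.conj_mem k k.2 h⟩ : K) k := by
    rw [nontrivial_iff_exists_ne y₀]
    constructor
    · rintro ⟨⟨C, hC⟩, hne⟩
      obtain ⟨k, rfl⟩ := ConjClasses.mk_surjective C
      refine ⟨k, ?_, hC k rfl⟩
      rintro rfl
      exact hne rfl
    · rintro ⟨k, hk1, hk⟩
      refine ⟨⟨ConjClasses.mk k, ?_⟩, ?_⟩
      · intro g hg
        obtain ⟨c, hc⟩ := isConj_iff.mp (ConjClasses.mk_eq_mk_iff_isConj.mp hg)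
        -- c * g * c⁻¹ = k
        have h1 : IsConj (⟨h * g * h⁻¹, hK.conj_mem g g.2 h⟩ : K) ⟨h * k * h⁻¹, hK.conj_mem k k.2 h⟩ := by
          rw [isConj_iff]
          refine ⟨⟨h * c * h⁻¹, hK.conj_mem c c.2 h⟩, ?_⟩
          apply Subtype.ext
          have : (c : G) * g * (c : G)⁻¹ = k := congrArg Subtype.val hc
          simp only [Subgroup.coe_mul, InvMemClass.coe_inv]
          rw [← this]
          group
        exact h1.trans (hk.trans (isConj_iff.mpr ⟨c, hc⟩).symm)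
      · intro h1
        have h2 : ConjClasses.mk k = ConjClasses.mk 1 := congrArg Subtype.val h1
        exact hk1 (isConj_one_left.mp (ConjClasses.mk_eq_mk_iff_isConj.mp h2))
  rw [← hX, ← hY, hXY]

end Cfsg.Agent.Lib.Helper10
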