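import Mathlib

/-!
# The ascending fixed-point flag of a `p`-subgroup of `SL_n(F)`
-/

set_option autoImplicit false

namespace Cfsg.Agent.Lib.Helper10.FlagU

variable {F : Type*} [Field F] {n : ℕ}

local notation "SLn" => Matrix.SpecialLinearGroup (Fin n) F

/-- the action on the quotient by an invariant subspace -/
def quotAction (U : Subgroup SLn) (W : Submodule F (Fin n → F))
    (h : ∀ u : ↥U, W ≤ W.comap (Matrix.mulVecLin ((u : SLn) : Matrix (Fin n) (Fin n) F))) :
    MulAction ↥U ((Fin n → F) ⧸ W) where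
  smul u x := W.mapQ W (Matrix.mulVecLin ((u : SLn) : Matrix (Fin n) (Fin n) F)) (h u) x
  one_smul x := by
    obtain ⟨v, rfl⟩ := Submodule.mkQ_surjective W x
    show W.mapQ W _ _ (W.mkQ v) = _
    simp
  mul_smul a b x := by
    obtain ⟨v, rfl⟩ := Submodule.mkQ_surjective W x
    show W.mapQ W _ _ (W.mkQ v) = W.mapQ W _ _ (W.mapQ W _ _ (W.mkQ v))
    simp [Submodule.mapQ_apply, Matrix.mulVec_mulVec]

/-- `next W = {v | u v - v ∈ W for all u ∈ U}` -/
def next (U : Subgroup SLn) (W : Submodule F (Fin n → F)) : Submodule F (Fin n → F) :=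
  ⨅ u : ↥U, W.comap (Matrix.mulVecLin ((u : SLn) : Matrix (Fin n) (Fin n) F) - LinearMap.id)

theorem mem_next {U : Subgroup SLn} {W : Submodule F (Fin n → F)} {v : Fin n → F} :
    v ∈ next U W ↔ ∀ u ∈ U, (u : Matrix (Fin n) (Fin n) F).mulVec v - v ∈ W := by
  unfold next
  simp only [Submodule.mem_iInf, Submodule.mem_comap, LinearMap.sub_apply, Matrix.mulVecLin_apply,
    LinearMap.id_apply, Subtype.forall]

/-- invariance under the normaliser, elementwise -/
def Inv (U : Subgroup SLn) (W : Submodule F (Fin n → F)) : Prop :=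
  ∀ g ∈ Subgroup.normalizer (U : Set SLn), ∀ v ∈ W, (g : Matrix (Fin n) (Fin n) F).mulVec v ∈ W

theorem inv_next {U : Subgroup SLn} {W : Submodule F (Fin n → F)} (h : Inv U W) :
    Inv U (next U W) := by
  intro g hg v hv
  rw [mem_next] at hv ⊢
  intro u hu
  have h1 : g⁻¹ * u * g ∈ U := by
    have := (Subgroup.mem_normalizer_iff.1 (inv_mem hg) u).1 hu
    simpa using this
  have h2 := h g hg _ (hv _ h1)
  have h3 : (g : Matrix (Fin n) (Fin n) F).mulVec
      (((g⁻¹ * u * g : SLn) : Matrix (Fin n) (Fin n) F).mulVec v - v) =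
      (u : Matrix (Fin n) (Fin n) F).mulVec ((g : Matrix (Fin n) (Fin n) F).mulVec v) -
        (g : Matrix (Fin n) (Fin n) F).mulVec v := by
    rw [Matrix.mulVec_sub, Matrix.mulVec_mulVec, Matrix.mulVec_mulVec,
      ← Matrix.SpecialLinearGroup.coe_mul, ← Matrix.SpecialLinearGroup.coe_mul,
      show g * (g⁻¹ * u * g) = u * g by group]
  rw [← h3]
  exact h2

theorem le_next {U : Subgroup SLn} {W : Submodule F (Fin n → F)} (h : Inv U W) :
    W ≤ next U W := by
  intro v hv
  rw [mem_next]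
  intro u hu
  exact W.sub_mem (h u (Subgroup.le_normalizer hu) v hv) hv

theorem map_eq_of_inv {U : Subgroup SLn} {W : Submodule F (Fin n → F)} (h : Inv U W)
    {g : SLn} (hg : g ∈ Subgroup.normalizer (U : Set SLn)) :
    W.map (Matrix.mulVecLin (g : Matrix (Fin n) (Fin n) F)) = W := by
  apply le_antisymm
  · rintro _ ⟨v, hv, rfl⟩
    exact h g hg v hv
  · intro v hv
    refine ⟨(g⁻¹ : SLn).1.mulVec v, h _ (inv_mem hg) v hv, ?_⟩
    rw [Matrix.mulVecLin_apply, Matrix.mulVec_mulVec]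
    have : (g : Matrix (Fin n) (Fin n) F) * (g⁻¹ : SLn).1 = 1 := by
      rw [← Matrix.SpecialLinearGroup.coe_mul, mul_inv_cancel, Matrix.SpecialLinearGroup.coe_one]
    rw [this, Matrix.one_mulVec]

theorem lt_next [Finite F] (p : ℕ) [Fact p.Prime] [CharP F p] {U : Subgroup SLn}
    (hU : IsPGroup p ↥U) {W : Submodule F (Fin n → F)} (h : Inv U W) (hW : W ≠ ⊤) :
    W < next U W := by
  have hp : p.Prime := Fact.out
  refine lt_of_le_of_ne (le_next h) ?_
  intro heq
  have hinv : ∀ u : ↥U, W ≤ W.comap (Matrix.mulVecLin ((u : SLn) : Matrix (Fin n) (Fin n) F)) := by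
    intro u v hv
    exact h u (Subgroup.le_normalizer u.2) v hv
  letI := quotAction U W hinv
  have hnt : Nontrivial ((Fin n → F) ⧸ W) := Submodule.Quotient.nontrivial_iff.2 hW
  have hfin : Finite ((Fin n → F) ⧸ W) := Finite.of_surjective _ (Submodule.mkQ_surjective W)
  have hdvd : p ∣ Nat.card ((Fin n → F) ⧸ W) := by
    obtain ⟨x, hx⟩ := exists_ne (0 : (Fin n → F) ⧸ W)
    have h1 : p • x = 0 := by
      rw [← Nat.cast_smul_eq_nsmul F p x, CharP.cast_eq_zero F p, zero_smul]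
    have h2 : addOrderOf x = p := addOrderOf_eq_prime h1 hx
    rw [← h2]
    exact addOrderOf_dvd_natCard x
  have h0 : (0 : (Fin n → F) ⧸ W) ∈ MulAction.fixedPoints ↥U ((Fin n → F) ⧸ W) := by
    intro u
    show W.mapQ W _ _ 0 = 0
    simp
  obtain ⟨b, hb, hb0⟩ := hU.exists_fixed_point_of_prime_dvd_card_of_fixed_point _ hdvd h0
  obtain ⟨v, rfl⟩ := Submodule.mkQ_surjective W b
  apply hb0
  symm
  rw [Submodule.mkQ_apply, Submodule.Quotient.mk_eq_zero, heq, mem_next]
  intro u hu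
  have h1 := hb ⟨u, hu⟩
  have h2 : W.mapQ W (Matrix.mulVecLin (u : Matrix (Fin n) (Fin n) F)) (hinv ⟨u, hu⟩) (W.mkQ v) =
      W.mkQ v := h1
  rw [Submodule.mkQ_apply, Submodule.mapQ_apply, Submodule.Quotient.eq] at h2
  exact h2

end Cfsg.Agent.Lib.Helper10.FlagU
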