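import Mathlib

set_option autoImplicit false

namespace Cfsg.Agent.Lib.Helper10

/-- The basic "partition" argument for a Frobenius group `M ⋊ ⟨y⟩` acting on an abelian group `V`:
if some element of `M` and `y` act without fixed points on `V` and the nontrivial powers of `y` act without fixed points
on `M`, then `V` is killed by `|M|`. -/
theorem pow_card_eq_one_of_fpf {X V : Type*} [Group X] [CommGroup V] (φ : X →* MulAut V) (M : Subgroup X) [Finite M]
    (y : X) (s : ℕ) (hs : 0 < s) (hys : y ^ s = 1) (hyM : ∀ x ∈ M, y * x * y⁻¹ ∈ M)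
    (m₀ : X) (hm₀ : m₀ ∈ M) (h1 : ∀ v : V, φ m₀ v = v → v = 1) (h2 : ∀ v : V, φ y v = v → v = 1)
    (h3 : ∀ i : ℕ, 0 < i → i < s → ∀ x ∈ M, y ^ i * x * (y ^ i)⁻¹ = x → x = 1) (v : V) :
    v ^ Nat.card M = 1 := by
  classical
  haveI : Fintype M := Fintype.ofFinite M
  have hyiM : ∀ (i : ℕ), ∀ x ∈ M, y ^ i * x * (y ^ i)⁻¹ ∈ M := by
    intro i
    induction i with
    | zero => intro x hx; simpa using hx
    | succ i ih =>
      intro x hx
      have := hyM _ (ih x hx)
      have e : y ^ (i + 1) * x * (y ^ (i + 1))⁻¹ = y * (y ^ i * x * (y ^ i)⁻¹) * y⁻¹ := by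
        rw [pow_succ']; group
      rw [e]; exact this
  -- products over a left coset of `M` are fixed by `m₀`
  have hfix : ∀ (g : X) (w : V), ∏ m : M, φ ((m : X) * g) w = 1 := by
    intro g w
    apply h1
    rw [map_prod]
    have : ∀ m : M, φ m₀ (φ ((m : X) * g) w) = φ (((⟨m₀, hm₀⟩ * m : M) : X) * g) w := by
      intro m
      rw [← MulAut.mul_apply, ← map_mul]
      congr 2
      simp [mul_assoc]
    simp_rw [this]
    exact Fintype.prod_equiv (Equiv.mulLeft (⟨m₀, hm₀⟩ : M)) _ _ (fun m => rfl)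
  -- the sum over `⟨y⟩`
  have hT : ∀ w : V, ∏ i ∈ Finset.range s, φ (y ^ i) w = 1 := by
    intro w
    apply h2
    rw [map_prod]
    have e1 : ∀ i, φ y (φ (y ^ i) w) = φ (y ^ (i + 1)) w := by
      intro i
      rw [← MulAut.mul_apply, ← map_mul, pow_succ']
    simp_rw [e1]
    have e2 := Finset.prod_range_succ (fun i => φ (y ^ i) w) s
    have e3 := Finset.prod_range_succ' (fun i => φ (y ^ i) w) s
    rw [e2] at e3
    simp only [hys, pow_zero] at e3
    exact (mul_right_cancel e3).symm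
  -- conjugates
  have hconj : ∀ i : ℕ, 0 < i → i < s → ∏ x : M, φ ((x : X) * y ^ i * (x : X)⁻¹) v = 1 := by
    intro i hi his
    let f : M → M := fun x => ⟨(x : X) * (y ^ i * (x : X)⁻¹ * (y ^ i)⁻¹), M.mul_mem x.2 (hyiM i _ (M.inv_mem x.2))⟩
    have hf : Function.Injective f := by
      intro x z hxz
      have h : (x : X) * (y ^ i * (x : X)⁻¹ * (y ^ i)⁻¹) = (z : X) * (y ^ i * (z : X)⁻¹ * (y ^ i)⁻¹) :=
        congrArg Subtype.val hxz
      have h' : y ^ i * ((x : X)⁻¹ * z) * (y ^ i)⁻¹ = (x : X)⁻¹ * z := by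
        have e : y ^ i * ((x : X)⁻¹ * z) * (y ^ i)⁻¹
            = (y ^ i * (x : X)⁻¹ * (y ^ i)⁻¹) * (y ^ i * (z : X)⁻¹ * (y ^ i)⁻¹)⁻¹ := by group
        rw [e]
        have e2 : y ^ i * (x : X)⁻¹ * (y ^ i)⁻¹ = (x : X)⁻¹ * ((z : X) * (y ^ i * (z : X)⁻¹ * (y ^ i)⁻¹)) := by
          rw [← h]; group
        rw [e2]; group
      have := h3 i hi his _ (M.mul_mem (M.inv_mem x.2) z.2) h'
      apply Subtype.ext
      exact (inv_mul_eq_one.1 this)
    have hbij : Function.Bijective f := Finite.injective_iff_bijective.1 hf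
    rw [← hfix (y ^ i) v]
    apply Fintype.prod_bijective f hbij
    intro x
    congr 2
    simp only [f]
    group
  have hxT : ∀ x : M, ∏ i ∈ Finset.range s, φ ((x : X) * y ^ i * (x : X)⁻¹) v = 1 := by
    intro x
    have : ∀ i, φ ((x : X) * y ^ i * (x : X)⁻¹) v = φ (x : X) (φ (y ^ i) (φ (x : X)⁻¹ v)) := by
      intro i
      rw [map_mul, map_mul, MulAut.mul_apply, MulAut.mul_apply]
    simp_rw [this]
    rw [← map_prod, hT, map_one]
  -- double counting
  have hdouble : ∏ x : M, ∏ i ∈ Finset.range s, φ ((x : X) * y ^ i * (x : X)⁻¹) v = 1 :=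
    Finset.prod_eq_one (fun x _ => hxT x)
  rw [Finset.prod_comm] at hdouble
  obtain ⟨s', rfl⟩ : ∃ s', s = s' + 1 := ⟨s - 1, by omega⟩
  rw [Finset.prod_range_succ'] at hdouble
  have hrest : ∏ i ∈ Finset.range s', ∏ x : M, φ ((x : X) * y ^ (i + 1) * (x : X)⁻¹) v = 1 := by
    apply Finset.prod_eq_one
    intro i hi
    exact hconj (i + 1) (Nat.succ_pos i) (by have := Finset.mem_range.1 hi; omega)
  rw [hrest, one_mul] at hdouble
  simp only [pow_zero, mul_one, mul_inv_cancel, map_one, MulAut.one_apply, Finset.prod_const, Finset.card_univ] at hdouble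
  rw [Nat.card_eq_fintype_card]
  exact hdouble

end Cfsg.Agent.Lib.Helper10
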