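import Mathlib
import Cfsg.Agent.Lib.Helper10.FrobCN
import Cfsg.Agent.H4.Nilp

/-! Subgroups acting freely on a nilpotent normal subgroup of a CN-group (not necessarily
complements). -/

set_option autoImplicit false
set_option linter.style.haveILetI false
set_option linter.unusedSectionVars false

namespace Cfsg.Agent.Lib.Helper10

open Cfsg Subgroup

universe u

section

variable {G : Type u} [Group G]

theorem isCNGroup_subgroup (hCN : IsCNGroup G) (M : Subgroup G) : IsCNGroup M := by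
  intro g hg
  have hg1 : (g : G) ≠ 1 := fun h0 => hg (Subtype.ext h0)
  have hle : (centralizer ({g} : Set M)).map M.subtype ≤ centralizer ({(g : G)} : Set G) := by
    rintro _ ⟨x, hx, rfl⟩
    rw [mem_centralizer_singleton_iff]
    have := mem_centralizer_singleton_iff.1 hx
    exact congrArg Subtype.val this
  haveI := Cfsg.Agent.H4.isNilpotent_of_le hle (hCN _ hg1)
  exact Group.nilpotent_of_mulEquiv
    ((centralizer ({g} : Set M)).equivMapOfInjective M.subtype M.subtype_injective).symm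

theorem transfer_compl (H E : Subgroup G) [H.Normal]
    (hfpf : ∀ e ∈ E, e ≠ 1 → H ⊓ centralizer ({e} : Set G) = ⊥) :
    IsComplement' (H.subgroupOf (H ⊔ E)) (E.subgroupOf (H ⊔ E)) ∧
    ∀ e ∈ E.subgroupOf (H ⊔ E), e ≠ 1 →
      H.subgroupOf (H ⊔ E) ⊓ centralizer ({e} : Set ↥(H ⊔ E)) = ⊥ := by
  constructor
  · apply isComplement'_of_disjoint_and_mul_eq_univ
    · rw [disjoint_iff, eq_bot_iff]
      rintro x ⟨hx1, hx2⟩
      rw [mem_bot]
      by_contra hne
      have hx1' : (x : G) ∈ H := hx1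
      have hx2' : (x : G) ∈ E := hx2
      have hne' : (x : G) ≠ 1 := fun h0 => hne (Subtype.ext h0)
      have h3 : (x : G) ∈ H ⊓ centralizer ({(x : G)} : Set G) :=
        ⟨hx1', mem_centralizer_singleton_iff.2 rfl⟩
      rw [hfpf _ hx2' hne', mem_bot] at h3
      exact hne' h3
    · rw [Set.eq_univ_iff_forall]
      intro x
      have hx : (x : G) ∈ ((H ⊔ E : Subgroup G) : Set G) := x.2
      rw [Subgroup.normal_mul] at hx
      obtain ⟨h, hh, e, he, hhe⟩ := Set.mem_mul.1 hx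
      refine Set.mem_mul.2 ⟨⟨h, (le_sup_left : H ≤ H ⊔ E) hh⟩, hh,
        ⟨e, (le_sup_right : E ≤ H ⊔ E) he⟩, he, Subtype.ext hhe⟩
  · intro e he he1
    rw [eq_bot_iff]
    rintro x ⟨hx1, hx2⟩
    rw [mem_bot]
    have he' : (e : G) ∈ E := he
    have he1' : (e : G) ≠ 1 := fun h0 => he1 (Subtype.ext h0)
    have h3 : (x : G) ∈ H ⊓ centralizer ({(e : G)} : Set G) :=
      ⟨hx1, mem_centralizer_singleton_iff.2
        (congrArg Subtype.val (mem_centralizer_singleton_iff.1 hx2))⟩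
    rw [hfpf _ he' he1', mem_bot] at h3
    exact Subtype.ext h3

variable [Finite G]

theorem subgroupOf_ne_bot {H M : Subgroup G} (hHM : H ≤ M) (hH1 : H ≠ ⊥) :
    H.subgroupOf M ≠ ⊥ := by
  intro h0
  apply hH1
  rw [eq_bot_iff]
  intro x hx
  have h1 : (⟨x, hHM hx⟩ : M) ∈ H.subgroupOf M := hx
  rw [h0, mem_bot] at h1
  exact congrArg Subtype.val h1

theorem fpf_nilpotent (hCN : IsCNGroup G) (H E : Subgroup G) [hHn : H.Normal]
    (hHnil : Group.IsNilpotent H) (hH1 : H ≠ ⊥)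
    (hfpf : ∀ e ∈ E, e ≠ 1 → H ⊓ centralizer ({e} : Set G) = ⊥) : Group.IsNilpotent E := by
  obtain ⟨hc, hf⟩ := transfer_compl H E hfpf
  haveI : Group.IsNilpotent (H.subgroupOf (H ⊔ E)) :=
    Group.nilpotent_of_mulEquiv (subgroupOfEquivOfLe (le_sup_left : H ≤ H ⊔ E)).symm
  haveI := cn_compl_nilpotent (isCNGroup_subgroup hCN (H ⊔ E)) (H.subgroupOf (H ⊔ E))
    (E.subgroupOf (H ⊔ E)) inferInstance (subgroupOf_ne_bot le_sup_left hH1) hc hf
  exact Group.nilpotent_of_mulEquiv (subgroupOfEquivOfLe (le_sup_right : E ≤ H ⊔ E))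

theorem not_quaternion_of_odd {S : Type*} [Group S] (hodd : Odd (Nat.card S)) (n : ℕ)
    (e : S ≃* QuaternionGroup (2 ^ n)) : False := by
  haveI : NeZero (2 ^ n) := ⟨by positivity⟩
  have h1 : Nat.card S = 4 * 2 ^ n := by
    rw [Nat.card_congr e.toEquiv, Nat.card_eq_fintype_card, QuaternionGroup.card]
  rw [h1] at hodd
  exact (Nat.not_even_iff_odd.2 hodd) ⟨2 * 2 ^ n, by ring⟩

theorem fpf_cyclic_of_odd (hCN : IsCNGroup G) (H E : Subgroup G) [hHn : H.Normal]
    (hHnil : Group.IsNilpotent H) (hH1 : H ≠ ⊥)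
    (hfpf : ∀ e ∈ E, e ≠ 1 → H ⊓ centralizer ({e} : Set G) = ⊥) (hodd : Odd (Nat.card E)) :
    IsCyclic E := by
  obtain ⟨hc, hf⟩ := transfer_compl H E hfpf
  haveI : Group.IsNilpotent (H.subgroupOf (H ⊔ E)) :=
    Group.nilpotent_of_mulEquiv (subgroupOfEquivOfLe (le_sup_left : H ≤ H ⊔ E)).symm
  haveI := cn_compl_nilpotent (isCNGroup_subgroup hCN (H ⊔ E)) (H.subgroupOf (H ⊔ E))
    (E.subgroupOf (H ⊔ E)) inferInstance (subgroupOf_ne_bot le_sup_left hH1) hc hf
  have hcard : Nat.card (E.subgroupOf (H ⊔ E)) = Nat.card E :=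
    Nat.card_congr (subgroupOfEquivOfLe (le_sup_right : E ≤ H ⊔ E)).toEquiv
  haveI : IsZGroup (E.subgroupOf (H ⊔ E)) := by
    refine ⟨fun s hs S => ?_⟩
    haveI := Fact.mk hs
    rcases Cfsg.Agent.S0040.result (H.subgroupOf (H ⊔ E)) (E.subgroupOf (H ⊔ E)) hc
      (subgroupOf_ne_bot le_sup_left hH1) hf s S with h | ⟨n, ⟨e⟩⟩
    · exact h
    · exfalso
      refine not_quaternion_of_odd ?_ n e
      have h2 : Nat.card S ∣ Nat.card (E.subgroupOf (H ⊔ E)) := Subgroup.card_subgroup_dvd_card _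
      rw [hcard] at h2
      exact Odd.of_dvd_nat hodd h2
  haveI : IsCyclic (E.subgroupOf (H ⊔ E)) := inferInstance
  exact isCyclic_of_surjective (subgroupOfEquivOfLe (le_sup_right : E ≤ H ⊔ E))
    (subgroupOfEquivOfLe (le_sup_right : E ≤ H ⊔ E)).surjective

/-- Two involutions acting freely whose product acts freely coincide. -/
theorem fpf_involution_unique (H E : Subgroup G) [hHn : H.Normal] (hH1 : H ≠ ⊥)
    (hfpf : ∀ e ∈ E, e ≠ 1 → H ⊓ centralizer ({e} : Set G) = ⊥) {t t' : G} (ht : t ∈ E)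
    (ht' : t' ∈ E) (ht2 : orderOf t = 2) (ht'2 : orderOf t' = 2) : t = t' := by
  have hinv : ∀ t ∈ E, orderOf t = 2 → ∀ h ∈ H, t * h * t⁻¹ = h⁻¹ := by
    intro t ht ht2 h hh
    have ht1 : t ≠ 1 := by
      intro h0
      rw [h0, orderOf_one] at ht2
      omega
    have htt : t * t = 1 := by
      rw [← pow_two, ← ht2, pow_orderOf_eq_one]
    let φ : H →* H := (MulAut.conjNormal t : MulAut H).toMonoidHom
    have hφa : ∀ x : H, ((φ x : H) : G) = t * x * t⁻¹ := fun x => rfl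
    have hφ : MonoidHom.FixedPointFree φ := by
      intro x hx
      have h1 : t * x * t⁻¹ = x := by rw [← hφa, hx]
      have h2 : (x : G) ∈ H ⊓ centralizer ({t} : Set G) :=
        ⟨x.2, mem_centralizer_singleton_iff.2 (by rw [mul_inv_eq_iff_eq_mul] at h1; exact h1.symm)⟩
      rw [hfpf t ht ht1, mem_bot] at h2
      exact Subtype.ext h2
    have hinvol : Function.Involutive φ := by
      intro x
      apply Subtype.ext
      rw [hφa, hφa]
      have : t⁻¹ = t := inv_eq_of_mul_eq_one_left htt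
      rw [this]
      calc t * (t * x * t) * t = (t * t) * x * (t * t) := by group
        _ = x := by rw [htt]; simp
    have := congrFun (hφ.coe_eq_inv_of_involutive hinvol) ⟨h, hh⟩
    exact congrArg Subtype.val this
  obtain ⟨⟨z, hzH⟩, hz1'⟩ := Subgroup.ne_bot_iff_exists_ne_one.mp hH1
  have hz1 : z ≠ 1 := fun h0 => hz1' (Subtype.ext h0)
  have htt : t * t = 1 := by
    rw [← pow_two, ← ht2, pow_orderOf_eq_one]
  have h1 : t * t' = 1 := by
    by_contra hne
    have h2 : z ∈ H ⊓ centralizer ({t * t'} : Set G) := by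
      refine ⟨hzH, mem_centralizer_singleton_iff.2 ?_⟩
      have e1 := hinv _ ht' ht'2 z hzH
      have e2 := hinv t ht ht2 z⁻¹ (H.inv_mem hzH)
      rw [inv_inv] at e2
      rw [← e1] at e2
      have e3 : (t * t') * z * (t * t')⁻¹ = z := by
        rw [mul_inv_rev]
        calc t * t' * z * (t'⁻¹ * t⁻¹) = t * (t' * z * t'⁻¹) * t⁻¹ := by group
          _ = z := e2
      rw [mul_inv_eq_iff_eq_mul] at e3
      exact e3.symm
    rw [hfpf _ (E.mul_mem ht ht') hne, mem_bot] at h2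
    exact hz1 h2
  have h3 : t' = t⁻¹ := (inv_eq_of_mul_eq_one_right h1).symm
  rw [h3]
  exact (inv_eq_of_mul_eq_one_left htt).symm

theorem card_sup_dvd_mul' (A B : Subgroup G) (hB : B ≤ normalizer (A : Set G)) :
    Nat.card (A ⊔ B : Subgroup G) ∣ Nat.card A * Nat.card B := by
  have hA : A ≤ normalizer (A : Set G) := le_normalizer
  have h1 := card_sup_dvd_mul (A.subgroupOf (normalizer (A : Set G)))
    (B.subgroupOf (normalizer (A : Set G)))
  rw [← subgroupOf_sup hA hB, Nat.card_congr (subgroupOfEquivOfLe hA).toEquiv,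
    Nat.card_congr (subgroupOfEquivOfLe hB).toEquiv,
    Nat.card_congr (subgroupOfEquivOfLe (sup_le hA hB)).toEquiv] at h1
  exact h1

/-- The `s`-part of a nilpotent normal subgroup. -/
theorem normal_pPart {F : Subgroup G} [hFn : F.Normal] (hF : Group.IsNilpotent F) (s : ℕ)
    [hs : Fact s.Prime] (hsF : s ∣ Nat.card F) :
    ∃ V : Subgroup G, V.Normal ∧ IsPGroup s V ∧ V ≠ ⊥ ∧ V ≤ F := by
  let S : Sylow s F := default
  haveI : (S : Subgroup F).Normal := inferInstance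
  set V : Subgroup G := (S : Subgroup F).map F.subtype with hV
  have hVp : IsPGroup s V := S.2.map _
  have hVmem : ∀ t ∈ F, ∀ k : ℕ, orderOf t = s ^ k → t ∈ V := by
    intro t ht k hk
    have h1 : (⟨t, ht⟩ : F) ∈ S := mem_of_pElement_of_normal_sylow S (k := k)
      (by rw [Subgroup.orderOf_mk]; exact hk)
    exact ⟨⟨t, ht⟩, h1, rfl⟩
  have hVF : V ≤ F := by
    rintro _ ⟨c, -, rfl⟩
    exact c.2
  have hVord : ∀ v ∈ V, ∃ k : ℕ, orderOf v = s ^ k := by
    intro v hv
    obtain ⟨k, hk⟩ := IsPGroup.iff_orderOf.1 hVp ⟨v, hv⟩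
    exact ⟨k, by rwa [Subgroup.orderOf_mk] at hk⟩
  refine ⟨V, ?_, hVp, ?_, hVF⟩
  · refine ⟨fun v hv g => ?_⟩
    obtain ⟨k, hk⟩ := hVord v hv
    refine hVmem _ (hFn.conj_mem v (hVF hv) g) k ?_
    rw [← hk]
    exact (MulAut.conj g).orderOf_eq v
  · intro h0
    obtain ⟨⟨x, hx⟩, hxs⟩ := exists_prime_orderOf_dvd_card' (G := F) s hsF
    rw [Subgroup.orderOf_mk] at hxs
    have h1 : x ∈ V := hVmem x hx 1 (by rw [hxs, pow_one])
    rw [h0, mem_bot] at h1
    rw [h1, orderOf_one] at hxs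
    exact hs.out.one_lt.ne hxs

end

end Cfsg.Agent.Lib.Helper10
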