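import Mathlib

set_option autoImplicit false
set_option linter.style.haveILetI false

namespace Cfsg.Agent.Lib.Helper10

open scoped commutatorElement

theorem dvd_card_of_index_stabilizer {L X : Type*} [Group L] [MulAction L X] [Finite X] (e : ℕ)
    (h : ∀ x : X, (MulAction.stabilizer L x).index = e) : e ∣ Nat.card X := by
  classical
  cases nonempty_fintype X
  rw [Nat.card_congr (MulAction.selfEquivSigmaOrbits L X), Nat.card_sigma]
  apply Finset.dvd_sum
  intro ω _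
  rw [Nat.card_coe_set_eq, ← MulAction.index_stabilizer, h]

section

variable {L : Type*} [Group L] [Finite L] (K H₁ : Subgroup L) [K.Normal] [H₁.Normal]

theorem index_dvd_relIndex_sub_one (N : Subgroup L) [N.Normal] (hNK : N ≤ K)
    (hab : ⁅K, K⁆ ≤ H₁)
    (hfrob : ∀ k ∈ K, k ∉ H₁ → ∀ x : L, x * k * x⁻¹ * k⁻¹ ∈ H₁ → x ∈ K) :
    K.index ∣ H₁.relIndex N - 1 := by
  letI act : MulAction L (L ⧸ H₁) :=
    MulAction.compHom _ (MulAut.conj.comp (QuotientGroup.mk' H₁))
  have hsm : ∀ (x : L) (q : L ⧸ H₁), x • q = (x : L ⧸ H₁) * q * (x : L ⧸ H₁)⁻¹ := fun x q => rfl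
  let X : SubMulAction L (L ⧸ H₁) :=
    { carrier := (↑(N.map (QuotientGroup.mk' H₁)) : Set (L ⧸ H₁)) \ {1}
      smul_mem' := by
        rintro x q ⟨hq, hq1⟩
        refine ⟨?_, ?_⟩
        · obtain ⟨n, hn, rfl⟩ := hq
          exact ⟨x * n * x⁻¹, Subgroup.Normal.conj_mem inferInstance n hn x, rfl⟩
        · intro h
          apply hq1
          rw [Set.mem_singleton_iff, hsm] at h
          rw [Set.mem_singleton_iff]
          have := congrArg (fun z => (x : L ⧸ H₁)⁻¹ * z * (x : L ⧸ H₁)) h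
          simpa [mul_assoc] using this }
  have hstab : ∀ x : X, (MulAction.stabilizer L x).index = K.index := by
    rintro ⟨q, hq, hq1⟩
    obtain ⟨n, hn, rfl⟩ := hq
    rw [SubMulAction.stabilizer_of_subMul]
    congr 1
    ext x
    rw [MulAction.mem_stabilizer_iff]
    show x • ((n : L) : L ⧸ H₁) = ((n : L) : L ⧸ H₁) ↔ _
    rw [hsm]
    have hn1 : n ∉ H₁ := by
      intro h
      apply hq1
      rw [Set.mem_singleton_iff]
      exact (QuotientGroup.eq_one_iff n).2 h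
    have e1 : (x : L ⧸ H₁) * (n : L ⧸ H₁) * (x : L ⧸ H₁)⁻¹ = (n : L ⧸ H₁) ↔
        x * n * x⁻¹ * n⁻¹ ∈ H₁ := by
      rw [← QuotientGroup.eq_one_iff, QuotientGroup.mk_mul, QuotientGroup.mk_mul,
        QuotientGroup.mk_mul, QuotientGroup.mk_inv, QuotientGroup.mk_inv, mul_inv_eq_one]
    rw [e1]
    constructor
    · intro h
      exact hfrob n (hNK hn) hn1 x h
    · intro h
      apply hab
      have := Subgroup.commutator_mem_commutator h (hNK hn)
      rwa [commutatorElement_def] at this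
  have h1 := dvd_card_of_index_stabilizer K.index hstab
  have h2 : Nat.card X = H₁.relIndex N - 1 := by
    have h3 : Nat.card X = ((↑(N.map (QuotientGroup.mk' H₁)) : Set (L ⧸ H₁)) \ {1}).ncard :=
      Nat.card_coe_set_eq _
    rw [h3, Set.ncard_sdiff_singleton_of_mem (Subgroup.one_mem _)]
    have h4 := Subgroup.relIndex_ker N (QuotientGroup.mk' H₁)
    rw [QuotientGroup.ker_mk'] at h4
    rw [h4]
    rfl
  rwa [h2] at h1

theorem exists_normal_between (hH₁K : H₁ ≤ K) (hab : ⁅K, K⁆ ≤ H₁) {p q : ℕ} (hp : p.Prime)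
    (hq : q.Prime) (hpq : p ≠ q) (hpr : p ∣ H₁.relIndex K) (hqr : q ∣ H₁.relIndex K) :
    ∃ N : Subgroup L, N.Normal ∧ H₁ < N ∧ N < K := by
  haveI := Fact.mk hp
  haveI := Fact.mk hq
  set A : Subgroup (L ⧸ H₁) := K.map (QuotientGroup.mk' H₁) with hA
  have hAn : A.Normal := Subgroup.Normal.map inferInstance _ (QuotientGroup.mk'_surjective H₁)
  have hcard : Nat.card A = H₁.relIndex K := by
    have h4 := Subgroup.relIndex_ker K (QuotientGroup.mk' H₁)
    rw [QuotientGroup.ker_mk'] at h4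
    exact h4.symm
  have hcomm : ∀ a ∈ A, ∀ b ∈ A, Commute a b := by
    rintro _ ⟨a, ha, rfl⟩ _ ⟨b, hb, rfl⟩
    rw [← commutatorElement_eq_one_iff_commute, ← map_commutatorElement]
    exact (QuotientGroup.eq_one_iff _).2 (hab (Subgroup.commutator_mem_commutator ha hb))
  let Ω : Subgroup (L ⧸ H₁) :=
    { carrier := {x | x ∈ A ∧ x ^ p = 1}
      mul_mem' := by
        rintro x y ⟨hx, hx1⟩ ⟨hy, hy1⟩
        exact ⟨A.mul_mem hx hy, by rw [(hcomm x hx y hy).mul_pow, hx1, hy1, one_mul]⟩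
      one_mem' := ⟨A.one_mem, one_pow _⟩
      inv_mem' := by
        rintro x ⟨hx, hx1⟩
        exact ⟨A.inv_mem hx, by rw [inv_pow, hx1, inv_one]⟩ }
  have hΩn : Ω.Normal := by
    constructor
    rintro n ⟨hn, hn1⟩ g
    exact ⟨hAn.conj_mem n hn g, by rw [conj_pow, hn1, mul_one, mul_inv_cancel]⟩
  have hmemK : ∀ x : L, (x : L ⧸ H₁) ∈ A → x ∈ K := by
    rintro x ⟨k, hk, hkx⟩
    have h1 : k⁻¹ * x ∈ H₁ := QuotientGroup.eq.1 hkx
    have := K.mul_mem hk (hH₁K h1)
    rwa [mul_inv_cancel_left] at this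
  refine ⟨Ω.comap (QuotientGroup.mk' H₁), hΩn.comap _, ?_, ?_⟩
  · obtain ⟨a, ha⟩ := exists_prime_orderOf_dvd_card' (G := A) p (by rw [hcard]; exact hpr)
    obtain ⟨_, k, hk, rfl⟩ := a
    refine lt_of_le_of_ne ?_ ?_
    · intro h hh
      have : QuotientGroup.mk' H₁ h = 1 := (QuotientGroup.eq_one_iff h).2 hh
      rw [Subgroup.mem_comap, this]
      exact Ω.one_mem
    · intro heq
      have h1 : k ∈ Ω.comap (QuotientGroup.mk' H₁) := by
        refine ⟨⟨k, hk, rfl⟩, ?_⟩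
        have := pow_orderOf_eq_one (⟨QuotientGroup.mk' H₁ k, ⟨k, hk, rfl⟩⟩ : A)
        rw [ha] at this
        exact congrArg Subtype.val this
      rw [← heq] at h1
      have h2 : (⟨QuotientGroup.mk' H₁ k, ⟨k, hk, rfl⟩⟩ : A) = 1 :=
        Subtype.ext ((QuotientGroup.eq_one_iff k).2 h1)
      rw [h2, orderOf_one] at ha
      exact hp.one_lt.ne ha
  · obtain ⟨b, hb⟩ := exists_prime_orderOf_dvd_card' (G := A) q (by rw [hcard]; exact hqr)
    obtain ⟨_, k, hk, rfl⟩ := b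
    refine lt_of_le_of_ne ?_ ?_
    · intro x hx
      exact hmemK x hx.1
    · intro heq
      have h1 : k ∈ Ω.comap (QuotientGroup.mk' H₁) := by rw [heq]; exact hk
      have h2 : (⟨QuotientGroup.mk' H₁ k, ⟨k, hk, rfl⟩⟩ : A) ^ p = 1 := Subtype.ext h1.2
      have h3 := orderOf_dvd_of_pow_eq_one h2
      rw [hb] at h3
      exact hpq ((Nat.prime_dvd_prime_iff_eq hq hp).1 h3).symm

end

end Cfsg.Agent.Lib.Helper10
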