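import Mathlib

set_option autoImplicit false

namespace Cfsg.Agent.Lib.Helper10

open Classical in
/-- A rank-one-like ("additive") matrix with few nonzero entries is supported on one line. -/
theorem grid_lemma {I J K : Type*} [Fintype I] [Fintype J] [AddCommGroup K] (x : I → K) (y : J → K)
    (hm : 2 ≤ Fintype.card I) (hn : Fintype.card I + 2 ≤ Fintype.card J)
    (hfew : ∑ j : J, (Finset.univ.filter (fun i : I => x i + y j ≠ 0)).card < 2 * Fintype.card I) :
    (∀ i j, x i + y j = 0) ∨ (∃ (j₀ : J) (a : K), ∀ i j, x i + y j = if j = j₀ then a else 0) ∨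
      (∃ (i₀ : I) (a : K), ∀ i j, x i + y j = if i = i₀ then a else 0) := by
  set c : J → ℕ := fun j => (Finset.univ.filter (fun i : I => x i + y j ≠ 0)).card with hc
  have hfew' : ∑ j : J, c j < 2 * Fintype.card I := hfew
  have hpair : ∀ j j' : J, j ≠ j' → c j + c j' ≤ ∑ j : J, c j := by
    intro j j' hne
    have := Finset.sum_le_sum_of_subset_of_nonneg (f := c) (Finset.subset_univ ({j, j'} : Finset J))
      (fun _ _ _ => Nat.zero_le _)
    rwa [Finset.sum_pair hne] at this
  obtain ⟨j₁, hj₁⟩ : ∃ j₁, c j₁ ≤ 1 := by
    by_contra hno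
    push Not at hno
    have h1 : Fintype.card J • 2 ≤ ∑ j : J, c j := by
      have := Finset.card_nsmul_le_sum (Finset.univ : Finset J) c 2 (fun j _ => hno j)
      simpa using this
    simp only [smul_eq_mul] at h1
    omega
  rcases Nat.le_one_iff_eq_zero_or_eq_one.1 hj₁ with h0 | h1
  · -- an entirely zero column
    have hx : ∀ i, x i + y j₁ = 0 := by
      intro i
      by_contra hne
      have : i ∈ Finset.univ.filter (fun i : I => x i + y j₁ ≠ 0) := by simp [hne]
      rw [Finset.card_eq_zero.1 h0] at this
      simp at this
    have hval : ∀ i j, x i + y j = y j - y j₁ := by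
      intro i j
      have := hx i
      have e : x i = - y j₁ := eq_neg_of_add_eq_zero_left this
      rw [e]; abel
    have hcol : ∀ j, y j - y j₁ ≠ 0 → c j = Fintype.card I := by
      intro j hj
      simp only [hc]
      rw [Finset.filter_true_of_mem, Finset.card_univ]
      intro i _
      rw [hval]; exact hj
    by_cases hall : ∀ j, y j - y j₁ = 0
    · left
      intro i j
      rw [hval, hall]
    · right; left
      push Not at hall
      obtain ⟨j₀, hj₀⟩ := hall
      refine ⟨j₀, y j₀ - y j₁, ?_⟩
      intro i j
      rw [hval]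
      by_cases hj : j = j₀
      · rw [if_pos hj, hj]
      · rw [if_neg hj]
        by_contra hne
        have := hpair j j₀ hj
        rw [hcol j hne, hcol j₀ hj₀] at this
        omega
  · -- a column with exactly one nonzero entry
    obtain ⟨i₀, hi₀⟩ := Finset.card_eq_one.1 h1
    have hx : ∀ i, i ≠ i₀ → x i + y j₁ = 0 := by
      intro i hi
      by_contra hne
      have : i ∈ Finset.univ.filter (fun i : I => x i + y j₁ ≠ 0) := by simp [hne]
      rw [hi₀, Finset.mem_singleton] at this
      exact hi this
    have ha : x i₀ + y j₁ ≠ 0 := by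
      have : i₀ ∈ Finset.univ.filter (fun i : I => x i + y j₁ ≠ 0) := by rw [hi₀]; simp
      simpa using this
    right; right
    refine ⟨i₀, x i₀ + y j₁, ?_⟩
    have hy : ∀ j, y j = y j₁ := by
      by_contra hno
      push Not at hno
      obtain ⟨j₂, hj₂⟩ := hno
      have hval : ∀ i j, i ≠ i₀ → x i + y j = y j - y j₁ := by
        intro i j hi
        have e : x i = - y j₁ := eq_neg_of_add_eq_zero_left (hx i hi)
        rw [e]; abel
      have hbig : Fintype.card I - 1 ≤ c j₂ := by
        simp only [hc]
        have : Finset.univ.erase i₀ ⊆ Finset.univ.filter (fun i : I => x i + y j₂ ≠ 0) := by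
          intro i hi
          have hi' := (Finset.mem_erase.1 hi).1
          simp only [Finset.mem_filter, Finset.mem_univ, true_and]
          rw [hval i j₂ hi']
          exact sub_ne_zero.2 hj₂
        have h2 := Finset.card_le_card this
        rwa [Finset.card_erase_of_mem (Finset.mem_univ _), Finset.card_univ] at h2
      obtain ⟨i₁, hi₁⟩ : ∃ i₁ : I, i₁ ≠ i₀ := by
        have : 1 < Fintype.card I := by omega
        exact Fintype.exists_ne_of_one_lt_card this i₀
      have hone : ∀ j, 1 ≤ c j := by
        intro j
        simp only [hc]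
        rw [Nat.one_le_iff_ne_zero, Ne, Finset.card_eq_zero, ← Ne, ← Finset.nonempty_iff_ne_empty]
        by_cases hj : y j = y j₁
        · exact ⟨i₀, by simp only [Finset.mem_filter, Finset.mem_univ, true_and]; rw [hj]; exact ha⟩
        · exact ⟨i₁, by
            simp only [Finset.mem_filter, Finset.mem_univ, true_and]
            rw [hval i₁ j hi₁]
            exact sub_ne_zero.2 hj⟩
      have hsum : c j₂ + (Fintype.card J - 1) ≤ ∑ j : J, c j := by
        rw [← Finset.add_sum_erase _ c (Finset.mem_univ j₂)]
        apply Nat.add_le_add_left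
        have := Finset.card_nsmul_le_sum (Finset.univ.erase j₂) c 1 (fun j _ => hone j)
        rwa [Finset.card_erase_of_mem (Finset.mem_univ _), Finset.card_univ, smul_eq_mul, mul_one] at this
      omega
    intro i j
    rw [hy j]
    by_cases hi : i = i₀
    · rw [if_pos hi, hi]
    · rw [if_neg hi, hx i hi]

end Cfsg.Agent.Lib.Helper10
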