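import Mathlib
import Cfsg.Agent.Lib.Helper10.LinTwist
import Cfsg.Agent.Lib.Helper23.CharDeg2

/-! Counting involutions of a 2-group modulo 4. -/

set_option autoImplicit false
set_option linter.style.haveILetI false

namespace Cfsg.Agent.Lib.Helper10

open Cfsg Cfsg.Agent.CharLib Cfsg.Agent.Lib.Helper23
open scoped ComplexConjugate

universe u

variable {G : Type u} [Group G] [Fintype G]

theorem zmod4_two_pow (k : ℕ) : ((2 : ZMod 4)) ^ (k + 2) = 0 := by
  rw [pow_add]
  have : (2 : ZMod 4) ^ 2 = 0 := by decide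
  rw [this, mul_zero]

open Classical in
theorem involution_count_mod_four (hG : IsPGroup 2 G) :
    ((Finset.univ.filter (fun u : G => u * u = 1)).card : ZMod 4) =
      ((Finset.univ.filter (fun χ : IrrCharacter G =>
        charDegree (χ : G → ℂ) = 1 ∧ ∀ g, ((χ : G → ℂ) g).im = 0)).card : ZMod 4) +
      2 * ((Finset.univ.filter (fun χ : IrrCharacter G =>
        charDegree (χ : G → ℂ) = 2 ∧ ∀ g, ((χ : G → ℂ) g).im = 0)).card : ZMod 4) := by
  have key : ∀ χ : IrrCharacter G, ∃ a : ℤ,
      (a : ℂ) = H25.fsInd (χ : G → ℂ) * (χ : G → ℂ) 1 ∧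
      (a : ZMod 4) =
        (if charDegree (χ : G → ℂ) = 1 ∧ ∀ g, ((χ : G → ℂ) g).im = 0 then 1 else 0) +
        2 * (if charDegree (χ : G → ℂ) = 2 ∧ ∀ g, ((χ : G → ℂ) g).im = 0 then 1 else 0) := by
    intro χ
    have hd : (χ : G → ℂ) 1 = (charDegree (χ : G → ℂ) : ℂ) := (charDegree_cast_irr χ).symm
    obtain ⟨n, hn⟩ : ∃ n, Nat.card G = 2 ^ n := by
      haveI : Fact (Nat.Prime 2) := ⟨Nat.prime_two⟩
      exact IsPGroup.iff_card.1 hG
    obtain ⟨k, -, hk⟩ := (Nat.dvd_prime_pow Nat.prime_two).1 (hn ▸ charDegree_dvd_card χ)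
    by_cases hr : ∀ g, ((χ : G → ℂ) g).im = 0
    · have hν : H25.fsInd (χ : G → ℂ) ≠ 0 := by
        rw [Ne, H25.fsInd_eq_zero_iff]
        push Not
        exact hr
      have hcases : H25.fsInd (χ : G → ℂ) = 1 ∨ H25.fsInd (χ : G → ℂ) = -1 := by
        rcases H25.fsInd_cases χ with h | h
        · exact absurd h hν
        · exact h
      match k, hk with
      | 0, hk =>
        have h1 : H25.fsInd (χ : G → ℂ) = 1 :=
          Cfsg.Agent.S0895.result χ.1 χ.2 hr 1 (by rw [hd, hk]; simp) odd_one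
        refine ⟨1, by rw [h1, hd, hk]; simp, ?_⟩
        rw [hk]
        simp [hr]
      | 1, hk =>
        rcases hcases with h | h
        · refine ⟨2, by rw [h, hd, hk]; simp, ?_⟩
          rw [hk]
          simp [hr]
        · refine ⟨-2, by rw [h, hd, hk]; simp, ?_⟩
          rw [hk]
          simp [hr]
          decide
      | k + 2, hk =>
        have hne1 : (2 : ℕ) ^ (k + 2) ≠ 1 := by
          have : 2 ^ 2 ≤ 2 ^ (k + 2) := Nat.pow_le_pow_right (by norm_num) (by omega)
          omega
        have hne2 : (2 : ℕ) ^ (k + 2) ≠ 2 := by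
          have : 2 ^ 2 ≤ 2 ^ (k + 2) := Nat.pow_le_pow_right (by norm_num) (by omega)
          omega
        rcases hcases with h | h
        · refine ⟨2 ^ (k + 2), by rw [h, hd, hk]; simp, ?_⟩
          rw [hk]
          simp only [hne1, hne2, false_and, if_false, mul_zero, add_zero]
          push_cast
          exact zmod4_two_pow k
        · refine ⟨-2 ^ (k + 2), by rw [h, hd, hk]; simp, ?_⟩
          rw [hk]
          simp only [hne1, hne2, false_and, if_false, mul_zero, add_zero]
          push_cast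
          rw [zmod4_two_pow k, neg_zero]
    · have h0 : H25.fsInd (χ : G → ℂ) = 0 := by
        rw [H25.fsInd_eq_zero_iff]
        push Not at hr
        exact hr
      refine ⟨0, by rw [h0]; simp, ?_⟩
      simp [hr]
  choose a ha1 ha2 using key
  have h1 := H25.card_sqrt_eq_sum (1 : G)
  have h2 : (((Finset.univ.filter (fun u : G => u * u = 1)).card : ℕ) : ℤ) = ∑ χ, a χ := by
    have : ((((Finset.univ.filter (fun u : G => u * u = 1)).card : ℕ) : ℤ) : ℂ) =
        ((∑ χ, a χ : ℤ) : ℂ) := by
      push_cast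
      rw [h1]
      exact Finset.sum_congr rfl fun χ _ => (ha1 χ).symm
    exact_mod_cast this
  have h3 := congrArg (Int.cast : ℤ → ZMod 4) h2
  push_cast at h3
  rw [h3]
  simp only [ha2]
  rw [Finset.sum_add_distrib, ← Finset.mul_sum, Finset.sum_boole, Finset.sum_boole]

/-- An irreducible character fixed by all linear characters vanishes off the commutator
subgroup, so that `[G : G'] ≤ χ(1)²`. -/
theorem index_commutator_le_of_fixed (χ : IrrCharacter G) (d : ℕ)
    (hd : charDegree (χ : G → ℂ) = d) (hfix : ∀ l : G →* ℂˣ, ltw l χ = χ) :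
    (commutator G).index ≤ d ^ 2 := by
  classical
  have hvan : ∀ g : G, g ∉ commutator G → (χ : G → ℂ) g = 0 := by
    intro g hg
    obtain ⟨l, hl⟩ := exists_hom_ne_one_of_notMem_commutator hg
    have h1 : ((l g : ℂˣ) : ℂ) * (χ : G → ℂ) g = (χ : G → ℂ) g :=
      congrFun (congrArg Subtype.val (hfix l)) g
    by_contra h0
    apply hl
    ext
    apply mul_right_cancel₀ h0
    rw [h1, Units.val_one, one_mul]
  obtain ⟨n, hn1, hn⟩ := Cfsg.Agent.S1487.norm_le_apply_one (isCharacter_of_irr χ.2)
  have hnd : n = d := by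
    have := charDegree_cast_irr χ
    rw [hd, hn1] at this
    exact_mod_cast this.symm
  subst hnd
  have h1 : (Nat.card G : ℝ) = ∑ g : G, ‖(χ : G → ℂ) g‖ ^ 2 := by
    have h2 := classInner_irr_self χ.2
    rw [classInner_def] at h2
    have h3 : (∑ g : G, (χ : G → ℂ) g * conj ((χ : G → ℂ) g)) = (Nat.card G : ℂ) := by
      have hne : (Nat.card G : ℂ) ≠ 0 := by
        exact_mod_cast Nat.card_pos.ne'
      field_simp at h2
      exact h2
    have h4 : ((∑ g : G, ‖(χ : G → ℂ) g‖ ^ 2 : ℝ) : ℂ) = ((Nat.card G : ℝ) : ℂ) := by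
      push_cast
      rw [← h3]
      refine Finset.sum_congr rfl fun g _ => ?_
      rw [Complex.mul_conj, Complex.normSq_eq_norm_sq]
      push_cast
      rfl
    exact_mod_cast h4.symm
  have h2 : ∑ g : G, ‖(χ : G → ℂ) g‖ ^ 2 ≤
      ∑ g : G, (if g ∈ commutator G then (n : ℝ) ^ 2 else 0) := by
    refine Finset.sum_le_sum fun g _ => ?_
    by_cases hg : g ∈ commutator G
    · rw [if_pos hg]
      have := hn g
      gcongr
    · rw [if_neg hg, hvan g hg]
      simp
  rw [← Finset.sum_filter, Finset.sum_const, nsmul_eq_mul, ← h1] at h2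
  have h3 : (Finset.univ.filter (fun g : G => g ∈ commutator G)).card =
      Nat.card (commutator G) := by
    rw [Nat.card_eq_fintype_card, Fintype.card_subtype]
  rw [h3, ← Subgroup.card_mul_index (commutator G)] at h2
  have h4 : Nat.card (commutator G) * (commutator G).index ≤ Nat.card (commutator G) * n ^ 2 := by
    exact_mod_cast h2
  exact Nat.le_of_mul_le_mul_left h4 Nat.card_pos

end Cfsg.Agent.Lib.Helper10
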