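import Mathlib
import Cfsg.Agent.Lib.Helper10.CNGroup
import Cfsg.Agent.Fus.CaminaHerzog

/-! Maximal nilpotent subgroups of CN-groups. -/

set_option autoImplicit false
set_option linter.style.haveILetI false
set_option linter.unusedSectionVars false

namespace Cfsg.Agent.Lib.Helper10

open Cfsg Subgroup

universe u

section

variable {G : Type u} [Group G] [Finite G]

/-- a Sylow subgroup of `G` inside a nilpotent subgroup contains all its `p`-elements -/
theorem mem_sylow_of_le_nilpotent {p : ℕ} [Fact p.Prime] {L : Subgroup G}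
    (hL : Group.IsNilpotent L) (S : Sylow p G) (hSL : (S : Subgroup G) ≤ L) {x : G} (hx : x ∈ L)
    {k : ℕ} (hk : orderOf x = p ^ k) : x ∈ S := by
  let P : Sylow p L := default
  have hmem : ∀ t (ht : t ∈ L) (j : ℕ), orderOf t = p ^ j → t ∈ (P : Subgroup L).map L.subtype := by
    intro t ht j hj
    exact ⟨⟨t, ht⟩, mem_of_pElement_of_normal_sylow P (k := j)
      (by rw [Subgroup.orderOf_mk]; exact hj), rfl⟩
  have hle : (S : Subgroup G) ≤ (P : Subgroup L).map L.subtype := by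
    intro s hs
    obtain ⟨j, hj⟩ := IsPGroup.iff_orderOf.1 S.2 ⟨s, hs⟩
    exact hmem s (hSL hs) j (by rwa [Subgroup.orderOf_mk] at hj)
  have heq := S.3 (P.2.map L.subtype) hle
  have := hmem x hx k hk
  rw [heq] at this
  exact this

theorem centralizer_eq_of_center_sylow (hCN : IsCNGroup G) {H : Subgroup G}
    (hH : Group.IsNilpotent H)
    (hmax : ∀ L : Subgroup G, Group.IsNilpotent L → H ≤ L → L = H) {p : ℕ} [hp : Fact p.Prime]
    (S : Sylow p G) (hSH : (S : Subgroup G) ≤ H) {y : G} (hyS : y ∈ S) (hy1 : y ≠ 1)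
    (hyc : ∀ s ∈ S, y * s = s * y) : centralizer ({y} : Set G) = H := by
  apply centralizer_eq_of_central hCN hmax hy1
  intro h hh
  obtain ⟨j, hj⟩ := IsPGroup.iff_orderOf.1 S.2 ⟨y, hyS⟩
  rw [Subgroup.orderOf_mk] at hj
  obtain ⟨a, b, hab, ⟨k, hpa⟩, hpb⟩ := exists_pdecomp hp.out h
  have h1 : y * h ^ a = h ^ a * y :=
    hyc _ (mem_sylow_of_le_nilpotent hH S hSH (H.zpow_mem hh a) hpa)
  have h2 : y * h ^ b = h ^ b * y :=
    commute_of_mem_nilpotent hH (hSH hyS) (H.zpow_mem hh b)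
      (by rw [hj]; exact coprime_of_pow_of_not_dvd hp.out hpb)
  rw [hab, ← mul_assoc, h1, mul_assoc, h2, mul_assoc]

theorem exists_max_nilpotent_ge {L : Subgroup G} (hL : Group.IsNilpotent L) :
    ∃ H : Subgroup G, L ≤ H ∧ Group.IsNilpotent H ∧
      ∀ K : Subgroup G, Group.IsNilpotent K → H ≤ K → K = H := by
  obtain ⟨H, ⟨hH1, hH2⟩, hmin⟩ := wellFounded_gt.has_min
    {K : Subgroup G | Group.IsNilpotent K ∧ L ≤ K} ⟨L, hL, le_refl _⟩
  refine ⟨H, hH2, hH1, fun K hK hHK => ?_⟩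
  by_contra hne
  exact hmin K ⟨hK, hH2.trans hHK⟩ (lt_of_le_of_ne hHK (Ne.symm hne))

/-- two maximal nilpotent subgroups of a CN-group are conjugate or of coprime orders -/
theorem max_nilpotent_conj_or_coprime (hCN : IsCNGroup G) {H₁ H₂ : Subgroup G}
    (hH₁ : Group.IsNilpotent H₁)
    (hmax₁ : ∀ L : Subgroup G, Group.IsNilpotent L → H₁ ≤ L → L = H₁)
    (hH₂ : Group.IsNilpotent H₂)
    (hmax₂ : ∀ L : Subgroup G, Group.IsNilpotent L → H₂ ≤ L → L = H₂) :
    (∃ g : G, H₂ = H₁.map (MulAut.conj g).toMonoidHom) ∨ (Nat.card H₁).Coprime (Nat.card H₂) := by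
  by_cases hcop : (Nat.card H₁).Coprime (Nat.card H₂)
  · exact Or.inr hcop
  left
  obtain ⟨p, hp, hp1, hp2⟩ := Nat.Prime.not_coprime_iff_dvd.1 hcop
  haveI := Fact.mk hp
  have hidx : ∀ H : Subgroup G, (Nat.card H).Coprime H.index → p ∣ Nat.card H → ¬ p ∣ H.index := by
    intro H h1 h2 h3
    have := Nat.dvd_gcd h2 h3
    rw [h1] at this
    exact hp.one_lt.ne' (Nat.dvd_one.1 this)
  obtain ⟨S₁, hS₁⟩ := Cfsg.Agent.Fus.exists_sylow_le_of_not_dvd_index (p := p) H₁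
    (hidx H₁ (hall_of_max_nilpotent hCN hH₁ hmax₁) hp1)
  obtain ⟨S₂, hS₂⟩ := Cfsg.Agent.Fus.exists_sylow_le_of_not_dvd_index (p := p) H₂
    (hidx H₂ (hall_of_max_nilpotent hCN hH₂ hmax₂) hp2)
  obtain ⟨g, hg⟩ := MulAction.exists_smul_eq G S₁ S₂
  have hmem : ∀ s : G, s ∈ S₂ ↔ g⁻¹ * s * g ∈ S₁ := by
    intro s
    have h1 : s ∈ S₂ ↔ s ∈ ((g • S₁ : Sylow p G) : Subgroup G) := by rw [hg]; exact Iff.rfl
    rw [h1, Sylow.coe_subgroup_smul, Subgroup.mem_pointwise_smul_iff_inv_smul_mem]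
    simp only [MulAut.smul_def, ← map_inv, MulAut.conj_apply, inv_inv]
    exact Iff.rfl
  have hS₂nt : Nontrivial S₂ := by
    have h1 : (S₂ : Subgroup G) ≠ ⊥ :=
      Sylow.ne_bot_of_dvd_card S₂ (hp2.trans (Subgroup.card_subgroup_dvd_card H₂))
    exact (Subgroup.nontrivial_iff_ne_bot _).2 h1
  haveI := S₂.2.center_nontrivial
  obtain ⟨⟨y, hy⟩, hy1'⟩ := exists_ne (1 : center S₂)
  have hy1 : (y : G) ≠ 1 := fun h => hy1' (Subtype.ext (Subtype.ext h))
  have hyS : ∀ s ∈ S₂, (y : G) * s = s * y := by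
    intro s hs
    have := (mem_center_iff.1 hy) ⟨s, hs⟩
    exact (congrArg Subtype.val this).symm
  have hC₂ := centralizer_eq_of_center_sylow hCN hH₂ hmax₂ S₂ hS₂ y.2 hy1 hyS
  have hC₁ := centralizer_eq_of_center_sylow hCN hH₁ hmax₁ S₁ hS₁ ((hmem y).1 y.2)
    (fun h0 => hy1 (by
      have : (y : G) = g * (g⁻¹ * y * g) * g⁻¹ := by group
      rw [this, h0]; simp))
    (fun s hs => by
      have h1 : g * s * g⁻¹ ∈ S₂ := by
        rw [hmem]
        have : g⁻¹ * (g * s * g⁻¹) * g = s := by group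
        rw [this]; exact hs
      have h2 := hyS _ h1
      calc g⁻¹ * y * g * s = g⁻¹ * (y * (g * s * g⁻¹)) * g := by group
        _ = g⁻¹ * ((g * s * g⁻¹) * y) * g := by rw [h2]
        _ = s * (g⁻¹ * y * g) := by group)
  refine ⟨g, ?_⟩
  ext x
  rw [← hC₂, ← hC₁, mem_centralizer_singleton_iff, Subgroup.mem_map]
  constructor
  · intro hx
    refine ⟨g⁻¹ * x * g, mem_centralizer_singleton_iff.2 ?_, by simp [MulAut.conj_apply, mul_assoc]⟩
    calc g⁻¹ * x * g * (g⁻¹ * y * g) = g⁻¹ * (x * y) * g := by group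
      _ = g⁻¹ * (y * x) * g := by rw [hx]
      _ = g⁻¹ * y * g * (g⁻¹ * x * g) := by group
  · rintro ⟨w, hw, rfl⟩
    rw [mem_centralizer_singleton_iff] at hw
    show g * w * g⁻¹ * y = y * (g * w * g⁻¹)
    calc g * w * g⁻¹ * y = g * (w * (g⁻¹ * y * g)) * g⁻¹ := by group
      _ = g * ((g⁻¹ * y * g) * w) * g⁻¹ := by rw [hw]
      _ = y * (g * w * g⁻¹) := by group

end

end Cfsg.Agent.Lib.Helper10
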