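import Mathlib
import Cfsg.Agent.Lib.Helper10.FrobCN2

/-! Nilpotent groups whose Sylow subgroups are cyclic or generalized quaternion. -/

set_option autoImplicit false
set_option linter.style.haveILetI false
set_option linter.unusedSectionVars false

namespace Cfsg.Agent.Lib.Helper10

open Cfsg Subgroup

theorem eq_two_of_quaternion {S : Type*} [Group S] {t : ℕ} (ht : t.Prime) (hS : IsPGroup t S)
    (n : ℕ) (e : S ≃* QuaternionGroup (2 ^ n)) : t = 2 := by
  haveI : NeZero (2 ^ n) := ⟨by positivity⟩
  haveI : Finite S := Finite.of_equiv _ e.symm.toEquiv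
  haveI := Fact.mk ht
  have h1 : Nat.card S = 4 * 2 ^ n := by
    rw [Nat.card_congr e.toEquiv, Nat.card_eq_fintype_card, QuaternionGroup.card]
  obtain ⟨k, hk⟩ := IsPGroup.iff_card.1 hS
  have h2 : 2 ∣ t ^ k := by
    rw [← hk, h1]
    exact ⟨2 * 2 ^ n, by ring⟩
  have h3 := Nat.Prime.dvd_of_dvd_pow Nat.prime_two h2
  exact ((Nat.prime_dvd_prime_iff_eq Nat.prime_two ht).1 h3).symm

theorem nilpotent_cq_struct {X : Type*} [Group X] [Finite X] [hX : Group.IsNilpotent X]
    (hS : ∀ (s : ℕ) [Fact s.Prime] (S : Sylow s X),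
      IsCyclic S ∨ ∃ n : ℕ, Nonempty (S ≃* QuaternionGroup (2 ^ n))) :
    IsCyclic X ∨ ∃ C Q : Subgroup X, C ⊔ Q = ⊤ ∧ (∀ a ∈ C, ∀ b ∈ Q, a * b = b * a) ∧
      IsCyclic C ∧ Odd (Nat.card C) ∧ ∃ n : ℕ, Nonempty (Q ≃* QuaternionGroup (2 ^ n)) := by
  by_cases hz : ∀ (s : ℕ) (hs : s.Prime) (S : Sylow s X), IsCyclic S
  · left
    haveI : IsZGroup X := ⟨fun s hs S => hz s hs S⟩
    infer_instance
  · right
    push Not at hz
    obtain ⟨s, hs, S, hSnc⟩ := hz
    haveI := Fact.mk hs
    rcases hS s S with h | ⟨n, ⟨e⟩⟩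
    · exact absurd h hSnc
    have hs2 : s = 2 := eq_two_of_quaternion hs S.2 n e
    subst hs2
    haveI : (S : Subgroup X).Normal := inferInstance
    obtain ⟨C, hC⟩ := Subgroup.exists_right_complement'_of_coprime S.card_coprime_index
    have hcardC : Nat.card C = (S : Subgroup X).index := hC.symm.index_eq_card.symm
    have hoddC : Odd (Nat.card C) := by
      rw [hcardC, ← Nat.not_even_iff_odd, even_iff_two_dvd]
      exact S.not_dvd_index
    refine ⟨C, S, hC.symm.sup_eq_top, ?_, ?_, hoddC, n, ⟨e⟩⟩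
    · intro a ha b hb
      apply Cfsg.H1.commute_of_coprime_of_nilpotent X a b
      obtain ⟨k, hk⟩ := IsPGroup.iff_orderOf.1 S.2 ⟨b, hb⟩
      rw [Subgroup.orderOf_mk] at hk
      rw [hk]
      apply Nat.Coprime.pow_right
      have h1 : orderOf a ∣ Nat.card C := by
        have := orderOf_dvd_natCard (⟨a, ha⟩ : C)
        rwa [Subgroup.orderOf_mk] at this
      exact (Odd.of_dvd_nat hoddC h1).coprime_two_right
    · haveI : IsZGroup C := by
        refine ⟨fun t ht T => ?_⟩
        haveI := Fact.mk ht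
        obtain ⟨S', hS'⟩ := (T.2.map C.subtype).exists_le_sylow
        rcases hS t S' with h | ⟨m, ⟨e'⟩⟩
        · let f : T →* S' :=
            { toFun := fun x => ⟨x.1.1, hS' ⟨x.1, x.2, rfl⟩⟩
              map_one' := rfl
              map_mul' := fun _ _ => rfl }
          have hf : Function.Injective f := by
            intro x y hxy
            apply Subtype.ext
            apply Subtype.ext
            exact congrArg (fun z : S' => (z : X)) hxy
          exact isCyclic_of_injective f hf
        · have ht2 : t = 2 := eq_two_of_quaternion ht S'.2 m e'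
          subst ht2
          obtain ⟨k, hk⟩ := IsPGroup.iff_card.1 T.2
          have h1 : Nat.card T ∣ Nat.card C := Subgroup.card_subgroup_dvd_card _
          have h2 : Odd (Nat.card T) := Odd.of_dvd_nat hoddC h1
          have h3 : Nat.card T = 1 := by
            rcases Nat.eq_zero_or_pos k with h0 | h0
            · rw [hk, h0, pow_zero]
            · exfalso
              rw [hk] at h2
              exact (Nat.not_even_iff_odd.2 h2) ((Nat.even_pow' h0.ne').2 even_two)
          haveI : Subsingleton T := (Nat.card_eq_one_iff_unique.1 h3).1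
          infer_instance
      infer_instance

/-- The same statement for a subgroup of an ambient group. -/
theorem nilpotent_cq_struct_subgroup {G : Type*} [Group G] [Finite G] (E : Subgroup G)
    (hE : Group.IsNilpotent E)
    (hS : ∀ (s : ℕ) [Fact s.Prime] (S : Sylow s E),
      IsCyclic S ∨ ∃ n : ℕ, Nonempty (S ≃* QuaternionGroup (2 ^ n))) :
    IsCyclic E ∨ ∃ C Q : Subgroup G, C ⊔ Q = E ∧ (∀ a ∈ C, ∀ b ∈ Q, a * b = b * a) ∧
      IsCyclic C ∧ Odd (Nat.card C) ∧ ∃ n : ℕ, Nonempty (Q ≃* QuaternionGroup (2 ^ n)) := by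
  rcases nilpotent_cq_struct hS with h | ⟨C, Q, h1, h2, h3, h4, n, ⟨e⟩⟩
  · exact Or.inl h
  · right
    refine ⟨C.map E.subtype, Q.map E.subtype, ?_, ?_, ?_, ?_, n, ⟨?_⟩⟩
    · rw [← Subgroup.map_sup, h1, ← MonoidHom.range_eq_map, Subgroup.range_subtype]
    · rintro _ ⟨a, ha, rfl⟩ _ ⟨b, hb, rfl⟩
      exact congrArg Subtype.val (h2 a ha b hb)
    · exact isCyclic_of_surjective (C.equivMapOfInjective E.subtype E.subtype_injective)
        (C.equivMapOfInjective E.subtype E.subtype_injective).surjective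
    · rw [← Nat.card_congr (C.equivMapOfInjective E.subtype E.subtype_injective).toEquiv]
      exact h4
    · exact (Q.equivMapOfInjective E.subtype E.subtype_injective).symm.trans e

end Cfsg.Agent.Lib.Helper10
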