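import Mathlib
import Cfsg.Agent.Lib.Helper10.FrobCN2
import Cfsg.Agent.Lib.Helper10.MaxNil
import Cfsg.Agent.Lib.Helper10.Descend
import Cfsg.Agent.Fus.Embedded
import Cfsg.Agent.S0043
import Cfsg.Agent.S0044
import Cfsg.Agent.S0050

/-! Solvable CN-groups without normal Sylow subgroups: first reductions. -/

set_option autoImplicit false
set_option linter.style.haveILetI false
set_option linter.unusedSectionVars false

namespace Cfsg.Agent.Lib.Helper10

open Cfsg Subgroup

universe u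

section

variable {G : Type u} [Group G] [Finite G]

theorem orderOf_of_mem_pGroup {p : ℕ} [Fact p.Prime] {H : Subgroup G} (hHp : IsPGroup p H) {x : G}
    (hx : x ∈ H) : ∃ k : ℕ, orderOf x = p ^ k := by
  obtain ⟨k, hk⟩ := IsPGroup.iff_orderOf.1 hHp ⟨x, hx⟩
  exact ⟨k, by rwa [Subgroup.orderOf_mk] at hk⟩

theorem exists_pCore_selfcent [Group.IsSolvable G] (hCN : IsCNGroup G) [hnt : Nontrivial G]
    (hns : ∀ (q : ℕ) [Fact q.Prime] (P : Sylow q G), (P : Subgroup G).Normal →
      (P : Subgroup G) = ⊥) :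
    ∃ p : ℕ, p.Prime ∧ pCore p G ≠ ⊥ ∧ centralizer (pCore p G : Set G) ≤ pCore p G := by
  set F := fittingSubgroup G with hFdef
  haveI hFn : F.Normal := Cfsg.Agent.Lib.Helper22.fittingSubgroup_normal
  have hFnil : Group.IsNilpotent F := Cfsg.Agent.Lib.Helper22.fittingSubgroup_isNilpotent
  have hCF : centralizer (F : Set G) ≤ F := Cfsg.Agent.S0044.result
  have hF1 : F ≠ ⊥ := by
    intro h0
    obtain ⟨g, hg⟩ := exists_ne (1 : G)
    have h1 : g ∈ centralizer (F : Set G) := by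
      rw [mem_centralizer_iff]
      intro h hh
      have : h = 1 := by
        have h2 : h ∈ F := hh
        rwa [h0, mem_bot] at h2
      rw [this, one_mul, mul_one]
    have h2 := hCF h1
    rw [h0, mem_bot] at h2
    exact hg h2
  have hcardF : Nat.card F ≠ 1 := fun h0 => hF1 ((Subgroup.card_eq_one).1 h0)
  set p := (Nat.card F).minFac with hp
  have hpp : p.Prime := Nat.minFac_prime hcardF
  haveI : Fact p.Prime := ⟨hpp⟩
  have hpF : p ∣ Nat.card F := Nat.minFac_dvd _
  have hFp : IsPGroup p F := by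
    apply IsPGroup.of_card (n := (Nat.card F).primeFactorsList.length)
    apply Nat.eq_prime_pow_of_unique_prime_dvd Nat.card_pos.ne'
    intro q hq hqF
    by_contra hqp
    haveI : Fact q.Prime := ⟨hq⟩
    obtain ⟨Vp, hVpn, hVpp, hVp1, hVpF⟩ := normal_pPart hFnil p hpF
    obtain ⟨Vq, hVqn, hVqp, hVq1, hVqF⟩ := normal_pPart hFnil q hqF
    have hcop : ∀ i j : ℕ, (q ^ i).Coprime (p ^ j) := fun i j =>
      Nat.Coprime.pow _ _ ((Nat.coprime_primes hq hpp).2 hqp)
    set D : Subgroup G := centralizer (Vq : Set G) with hD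
    haveI hDn : D.Normal := inferInstance
    obtain ⟨⟨y, hyV⟩, hy1'⟩ := Subgroup.ne_bot_iff_exists_ne_one.mp hVq1
    have hy1 : y ≠ 1 := fun h0 => hy1' (Subtype.ext h0)
    have hDnil : Group.IsNilpotent D := Cfsg.Agent.H4.isNilpotent_of_le
      (fun c hc => mem_centralizer_singleton_iff.2 ((mem_centralizer_iff.1 hc) y hyV).symm)
      (hCN y hy1)
    have hall : ∀ (t : G) (k : ℕ), orderOf t = p ^ k → t ∈ D := by
      intro t k hk
      obtain ⟨v, hv, hv1, htv⟩ := exists_fixed_of_pElement Vp hVpp hVp1 hk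
      refine mem_centralizer_iff.2 fun x hx => ?_
      obtain ⟨i, hi⟩ := orderOf_of_mem_pGroup hVqp hx
      obtain ⟨j, hj⟩ := orderOf_of_mem_pGroup hVpp hv
      have h1 : x ∈ centralizer ({v} : Set G) :=
        mem_centralizer_singleton_iff.2
          (commute_of_mem_nilpotent hFnil (hVqF hx) (hVpF hv) (by rw [hi, hj]; exact hcop i j))
      have h2 : t ∈ centralizer ({v} : Set G) := mem_centralizer_singleton_iff.2 htv
      exact commute_of_mem_nilpotent (hCN v hv1) h1 h2 (by rw [hi, hk]; exact hcop i k)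
    let P : Sylow p G := default
    have hPD : (P : Subgroup G) ≤ D := by
      intro x hx
      obtain ⟨k, hk⟩ := orderOf_of_mem_pGroup P.2 hx
      exact hall x k hk
    have hPn : (P : Subgroup G).Normal := by
      refine ⟨fun x hx g => ?_⟩
      obtain ⟨k, hk⟩ := orderOf_of_mem_pGroup P.2 hx
      have hk' : orderOf (g * x * g⁻¹) = p ^ k := by
        rw [← hk]; exact (MulAut.conj g).orderOf_eq x
      exact mem_sylow_of_le_nilpotent hDnil P hPD (hall _ k hk') hk'
    have hP0 := hns p P hPn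
    obtain ⟨⟨v, hvV⟩, hv1'⟩ := Subgroup.ne_bot_iff_exists_ne_one.mp hVp1
    have hv1 : v ≠ 1 := fun h0 => hv1' (Subtype.ext h0)
    obtain ⟨j, hj⟩ := orderOf_of_mem_pGroup hVpp hvV
    have h3 : v ∈ (P : Subgroup G) := mem_sylow_of_le_nilpotent hDnil P hPD (hall _ j hj) hj
    rw [hP0, mem_bot] at h3
    exact hv1 h3
  have hle1 : F ≤ pCore p G := Cfsg.Agent.Fus.le_pCore hFn hFp
  have hle2 : pCore p G ≤ F :=
    Cfsg.Agent.Lib.Helper22.le_fittingSubgroup _ (Cfsg.Agent.Fus.pCore_normal' p G)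
      (Cfsg.Agent.Fus.pCore_isPGroup).isNilpotent
  have heq : pCore p G = F := le_antisymm hle2 hle1
  refine ⟨p, hpp, ?_, ?_⟩
  · rw [heq]; exact hF1
  · rw [heq]; exact hCF

theorem pprime_fpf (hCN : IsCNGroup G) {p : ℕ} [hp : Fact p.Prime] (H : Subgroup G)
    (hHp : IsPGroup p H) (hH1 : H ≠ ⊥) (hCH : centralizer (H : Set G) ≤ H) {e : G} (he1 : e ≠ 1)
    (hpe : ¬ p ∣ orderOf e) : H ⊓ centralizer ({e} : Set G) = ⊥ := by
  by_contra hne
  obtain ⟨⟨h, hh⟩, hh1'⟩ := Subgroup.ne_bot_iff_exists_ne_one.mp hne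
  have hh1 : h ≠ 1 := fun h0 => hh1' (Subtype.ext h0)
  have hhH : h ∈ H := hh.1
  have hhe : h * e = e * h := mem_centralizer_singleton_iff.1 hh.2
  have hcardH : Nat.card H ≠ 1 := fun h0 => hH1 ((Subgroup.card_eq_one).1 h0)
  obtain ⟨z, hzH, hz1, -, hzc⟩ := exists_central_pElement hHp.isNilpotent
    (Nat.minFac_prime hcardH) (Nat.minFac_dvd _)
  have hord : ∀ x ∈ H, (orderOf x).Coprime (orderOf e) := by
    intro x hx
    obtain ⟨k, hk⟩ := orderOf_of_mem_pGroup hHp hx
    rw [hk]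
    exact coprime_of_pow_of_not_dvd hp.out hpe
  have hze : z * e = e * z :=
    commute_of_mem_nilpotent (hCN h hh1) (mem_centralizer_singleton_iff.2 (hzc h hhH))
      (mem_centralizer_singleton_iff.2 hhe.symm) (hord z hzH)
  have hxe : ∀ x ∈ H, x * e = e * x := fun x hx =>
    commute_of_mem_nilpotent (hCN z hz1) (mem_centralizer_singleton_iff.2 (hzc x hx).symm)
      (mem_centralizer_singleton_iff.2 hze.symm) (hord x hx)
  have heH : e ∈ H := hCH (mem_centralizer_iff.2 (fun x hx => hxe x hx))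
  have h1 := hord e heH
  rw [Nat.coprime_self] at h1
  exact he1 (orderOf_eq_one_iff.1 h1)

theorem no_commute (hCN : IsCNGroup G) {p : ℕ} [hp : Fact p.Prime] (H : Subgroup G) [H.Normal]
    (hHp : IsPGroup p H) (hH1 : H ≠ ⊥)
    (hB1 : ∀ e : G, e ≠ 1 → ¬ p ∣ orderOf e → H ⊓ centralizer ({e} : Set G) = ⊥)
    {x a : G} {k : ℕ} (hx1 : x ≠ 1) (hxk : orderOf x = p ^ k) (ha1 : a ≠ 1)
    (hpa : ¬ p ∣ orderOf a) (hxa : x * a = a * x) : False := by
  obtain ⟨v, hv, hv1, hxv⟩ := exists_fixed_of_pElement H hHp hH1 hxk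
  obtain ⟨j, hj⟩ := orderOf_of_mem_pGroup hHp hv
  have h1 : v * a = a * v :=
    commute_of_mem_nilpotent (hCN x hx1) (mem_centralizer_singleton_iff.2 hxv.symm)
      (mem_centralizer_singleton_iff.2 hxa.symm)
      (by rw [hj]; exact coprime_of_pow_of_not_dvd hp.out hpa)
  have h2 : v ∈ H ⊓ centralizer ({a} : Set G) := ⟨hv, mem_centralizer_singleton_iff.2 h1⟩
  rw [hB1 a ha1 hpa, mem_bot] at h2
  exact hv1 h2

end

end Cfsg.Agent.Lib.Helper10
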