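import Mathlib
import Cfsg.Agent.Lib.Helper10.ThreeStep

/-! Solvable CN-groups without normal Sylow subgroups: a subgroup of prime order whose normalizer
complements `O_p(G)`. -/

set_option autoImplicit false
set_option linter.style.haveILetI false
set_option linter.unusedSectionVars false

namespace Cfsg.Agent.Lib.Helper10

open Cfsg Subgroup

universe u

section

variable {G : Type u} [Group G] [Finite G]

theorem exists_prime_compl [Group.IsSolvable G] {p : ℕ} [hp : Fact p.Prime] (H : Subgroup G)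
    [hHn : H.Normal] (hHp : IsPGroup p H) (hH1 : H ≠ ⊥) (hHtop : H ≠ ⊤)
    (hmaxp : ∀ K : Subgroup G, K.Normal → IsPGroup p K → K ≤ H)
    (hB1 : ∀ e : G, e ≠ 1 → ¬ p ∣ orderOf e → H ⊓ centralizer ({e} : Set G) = ⊥) :
    ∃ a : G, (orderOf a).Prime ∧ ¬ p ∣ orderOf a ∧
      H ⊔ normalizer (zpowers a : Set G) = ⊤ := by
  haveI : Nontrivial (G ⧸ H) := by
    rw [QuotientGroup.nontrivial_iff]
    exact hHtop
  obtain ⟨Kb, hKbn, hKb1, hKbmin⟩ := exists_chief (⊥ : Subgroup (G ⧸ H)) bot_ne_top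
  obtain ⟨hKbc, r, hr, hKbr⟩ := Cfsg.Agent.S0043.result Kb hKb1.ne'
    (fun M hM hMK => hKbmin M hM bot_le hMK)
  haveI : Fact r.Prime := ⟨hr⟩
  set π := QuotientGroup.mk' H with hπ
  have hπ1 : ∀ x : G, π x = 1 ↔ x ∈ H := fun x => QuotientGroup.eq_one_iff x
  set K : Subgroup G := Kb.comap π with hK
  haveI hKn : K.Normal := inferInstance
  have hHK : H ≤ K := by
    intro x hx
    change π x ∈ Kb
    rw [(hπ1 x).2 hx]
    exact Kb.one_mem
  have hKr : ∀ k ∈ K, k ^ r ∈ H := by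
    intro k hk
    rw [← hπ1, map_pow]
    exact hKbr _ hk
  have hKc : ∀ k₁ ∈ K, ∀ k₂ ∈ K, k₁ * k₂ * k₁⁻¹ * k₂⁻¹ ∈ H := by
    intro k₁ h₁ k₂ h₂
    rw [← hπ1]
    have h3 : π k₁ * π k₂ = π k₂ * π k₁ :=
      congrArg Subtype.val (hKbc.is_comm.comm ⟨π k₁, h₁⟩ ⟨π k₂, h₂⟩)
    rw [map_mul, map_mul, map_mul, map_inv, map_inv, h3]
    group
  have hKH : ¬ K ≤ H := by
    intro hle
    apply hKb1.ne'
    rw [eq_bot_iff]
    intro x hx
    obtain ⟨y, rfl⟩ := QuotientGroup.mk'_surjective H x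
    rw [mem_bot]
    exact (hπ1 y).2 (hle hx)
  have hrp : r ≠ p := by
    intro h0
    apply hKH
    apply hmaxp K hKn
    intro ⟨k, hk⟩
    obtain ⟨j, hj⟩ := hHp ⟨k ^ r, hKr k hk⟩
    refine ⟨j + 1, Subtype.ext ?_⟩
    have h1 : (k ^ r) ^ p ^ j = 1 := congrArg Subtype.val hj
    change k ^ p ^ (j + 1) = 1
    rw [pow_succ', pow_mul, ← h0]
    rw [← h0] at h1
    exact h1
  -- Schur--Zassenhaus inside `K`
  obtain ⟨i, hi⟩ := IsPGroup.iff_card.1 hHp
  have hcardHK : Nat.card (H.subgroupOf K) = p ^ i := by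
    rw [Nat.card_congr (subgroupOfEquivOfLe hHK).toEquiv, hi]
  have hquot : IsPGroup r (K ⧸ H.subgroupOf K) := by
    intro x
    obtain ⟨y, rfl⟩ := QuotientGroup.mk'_surjective _ x
    refine ⟨1, ?_⟩
    rw [pow_one, ← map_pow]
    exact (QuotientGroup.eq_one_iff _).2 (hKr y y.2)
  obtain ⟨j, hj⟩ := IsPGroup.iff_card.1 hquot
  have hindex : (H.subgroupOf K).index = r ^ j := by
    rw [Subgroup.index_eq_card, hj]
  have hcop : (Nat.card (H.subgroupOf K)).Coprime (H.subgroupOf K).index := by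
    rw [hcardHK, hindex]
    exact Nat.Coprime.pow _ _ ((Nat.coprime_primes hp.out hr).2 (Ne.symm hrp))
  obtain ⟨A', hA'⟩ := Subgroup.exists_right_complement'_of_coprime hcop
  set A₁ : Subgroup G := A'.map K.subtype with hA₁
  have hA₁K : A₁ ≤ K := by
    rintro _ ⟨c, -, rfl⟩
    exact c.2
  have hA₁H : ∀ x ∈ A₁, x ∈ H → x = 1 := by
    rintro _ ⟨c, hc, rfl⟩ hcH
    have h1 : c ∈ H.subgroupOf K ⊓ A' := ⟨hcH, hc⟩
    rw [hA'.disjoint.eq_bot, mem_bot] at h1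
    rw [h1]; rfl
  have hsup : H ⊔ A₁ = K := by
    have h1 := congrArg (Subgroup.map K.subtype) hA'.sup_eq_top
    rw [Subgroup.map_sup, ← MonoidHom.range_eq_map, Subgroup.range_subtype,
      Subgroup.map_subgroupOf_eq_of_le hHK] at h1
    exact h1
  have hA₁r : ∀ x ∈ A₁, x ^ r = 1 := fun x hx =>
    hA₁H _ (A₁.pow_mem hx r) (hKr x (hA₁K hx))
  have hA₁c : ∀ x ∈ A₁, ∀ y ∈ A₁, x * y = y * x := by
    intro x hx y hy
    have h1 := hA₁H _ (A₁.mul_mem (A₁.mul_mem (A₁.mul_mem hx hy) (A₁.inv_mem hx)) (A₁.inv_mem hy))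
      (hKc x (hA₁K hx) y (hA₁K hy))
    rw [mul_inv_eq_one, mul_inv_eq_iff_eq_mul] at h1
    exact h1
  have hA₁1 : A₁ ≠ ⊥ := by
    intro h0
    rw [h0, sup_bot_eq] at hsup
    exact hKH hsup.ge
  have hA₁ord : ∀ x ∈ A₁, x ≠ 1 → orderOf x = r := fun x hx hx1 =>
    orderOf_eq_prime (hA₁r x hx) hx1
  have hpr : ¬ p ∣ r := fun h0 => hrp ((Nat.prime_dvd_prime_iff_eq hp.out hr).1 h0).symm
  have hA₁fpf : ∀ x ∈ A₁, x ≠ 1 → H ⊓ centralizer ({x} : Set G) = ⊥ := fun x hx hx1 =>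
    hB1 x hx1 (by rw [hA₁ord x hx hx1]; exact hpr)
  -- the centre of `H`
  have hcardH : Nat.card H ≠ 1 := fun h0 => hH1 ((Subgroup.card_eq_one).1 h0)
  obtain ⟨z, hzH, hz1, -, hzc⟩ := exists_central_pElement hHp.isNilpotent
    (Nat.minFac_prime hcardH) (Nat.minFac_dvd _)
  set Vz : Subgroup G := H ⊓ centralizer (H : Set G) with hVz
  haveI : IsMulCommutative Vz := ⟨⟨fun u v => Subtype.ext
    ((mem_centralizer_iff.1 v.2.2) u u.2.1)⟩⟩
  have hVz1 : Vz ≠ ⊥ := by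
    intro h0
    have h1 : z ∈ Vz := ⟨hzH, mem_centralizer_iff.2 fun x hx => (hzc x hx).symm⟩
    rw [h0, mem_bot] at h1
    exact hz1 h1
  haveI hVzn : Vz.Normal := inferInstance
  have hVzfpf : ∀ b ∈ A₁, b ≠ 1 → Vz ⊓ centralizer ({b} : Set G) = ⊥ := by
    intro b hb hb1
    rw [eq_bot_iff, ← hA₁fpf b hb hb1]
    exact inf_le_inf_right _ inf_le_left
  haveI hA₁comm : IsMulCommutative A₁ := ⟨⟨fun u v => Subtype.ext (hA₁c u u.2 v v.2)⟩⟩
  haveI hcyc : IsCyclic A₁ := Cfsg.Agent.S0041.result A₁ Vz hVz1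
    (by rw [normalizer_eq_top]; exact le_top) hVzfpf (Or.inl hA₁comm)
  obtain ⟨⟨a, haA⟩, hgen⟩ := IsCyclic.exists_generator (α := A₁)
  have hza : zpowers a = A₁ := by
    apply le_antisymm
    · rw [zpowers_le]; exact haA
    · intro x hx
      obtain ⟨m, hm⟩ := mem_zpowers_iff.1 (hgen ⟨x, hx⟩)
      exact mem_zpowers_iff.2 ⟨m, congrArg Subtype.val hm⟩
  have ha1 : a ≠ 1 := by
    intro h0
    apply hA₁1
    rw [← hza, h0, zpowers_one_eq_bot]
  have hoa : orderOf a = r := hA₁ord a haA ha1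
  refine ⟨a, by rw [hoa]; exact hr, by rw [hoa]; exact hpr, ?_⟩
  rw [hza]
  have hHall : (Nat.card A₁).Coprime (A₁.relIndex K) := by
    have h1 : Nat.card A₁ = r ^ j := by
      rw [← hindex, hA'.symm.index_eq_card]
      exact (Nat.card_congr (A'.equivMapOfInjective K.subtype K.subtype_injective).toEquiv).symm
    have h2 : A₁.subgroupOf K = A' := comap_map_eq_self_of_injective K.subtype_injective A'
    have h3 : A₁.relIndex K = p ^ i := by
      rw [Subgroup.relIndex, h2, hA'.index_eq_card, hcardHK]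
    rw [h1, h3]
    exact Nat.Coprime.pow _ _ ((Nat.coprime_primes hr hp.out).2 hrp)
  have h1 := Cfsg.Agent.S0050.result K inferInstance A₁ hA₁K hHall
  rw [← hsup, sup_assoc, sup_eq_right.2 (le_normalizer : A₁ ≤ normalizer (A₁ : Set G))] at h1
  exact h1

end

end Cfsg.Agent.Lib.Helper10
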