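import Mathlib
import Cfsg.Agent.Lib.Helper10.ThreeStep2

/-! Solvable CN-groups without normal Sylow subgroups are three-step groups. -/

set_option autoImplicit false
set_option linter.style.haveILetI false
set_option linter.unusedSectionVars false

namespace Cfsg.Agent.Lib.Helper10

open Cfsg Subgroup

universe u

section

variable {G : Type u} [Group G] [Finite G]

theorem three_step_core (hCN : IsCNGroup G) {p : ℕ} [hp : Fact p.Prime] (H : Subgroup G)
    [hHn : H.Normal] (hHp : IsPGroup p H) (hH1 : H ≠ ⊥)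
    (hB1 : ∀ e : G, e ≠ 1 → ¬ p ∣ orderOf e → H ⊓ centralizer ({e} : Set G) = ⊥)
    {a : G} (har : (orderOf a).Prime) (hpa : ¬ p ∣ orderOf a)
    (hHN : H ⊔ normalizer (zpowers a : Set G) = ⊤)
    {w₀ : G} {k₀ : ℕ} (hw₀ : w₀ ∉ H) (hw₀p : orderOf w₀ = p ^ k₀) :
    ∃ A : Subgroup G, A ≠ ⊥ ∧ IsCyclic A ∧ Odd (Nat.card A) ∧ (Nat.card A).Coprime p ∧
      (H ⊔ A).Normal ∧ H ⊔ A ≠ ⊤ ∧ (∃ n : ℕ, (H ⊔ A).index = p ^ n) ∧
      (∀ b ∈ A, b ≠ 1 → H ⊓ centralizer ({b} : Set G) = ⊥) ∧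
      ∀ x : G, x ∉ H ⊔ A → ∀ b ∈ A, b ≠ 1 → x * b * x⁻¹ * b⁻¹ ∉ H := by
  have hB2 : ∀ {x b : G} {k : ℕ}, x ≠ 1 → orderOf x = p ^ k → b ≠ 1 → ¬ p ∣ orderOf b →
      x * b = b * x → False := fun h1 h2 h3 h4 h5 => no_commute hCN H hHp hH1 hB1 h1 h2 h3 h4 h5
  haveI : Fact (orderOf a).Prime := ⟨har⟩
  have ha1 : a ≠ 1 := by
    intro h0
    rw [h0, orderOf_one] at har
    exact Nat.not_prime_one har
  set A : Subgroup G := centralizer ({a} : Set G) with hA
  set N : Subgroup G := normalizer (zpowers a : Set G) with hN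
  set π := QuotientGroup.mk' H with hπ
  have hπ1 : ∀ x : G, π x = 1 ↔ x ∈ H := fun x => QuotientGroup.eq_one_iff x
  have haA : a ∈ A := mem_centralizer_singleton_iff.2 rfl
  have hAz : ∀ x ∈ A, ∀ c ∈ zpowers a, x * c = c * x := by
    intro x hx c hc
    obtain ⟨m, rfl⟩ := mem_zpowers_iff.1 hc
    exact Commute.zpow_right (show Commute x a from mem_centralizer_singleton_iff.1 hx) m
  -- elements of `A` are `p'`-elements
  have hAp : ∀ x ∈ A, ¬ p ∣ orderOf x := by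
    intro x hx
    obtain ⟨i, j, hxij, ⟨k, hk⟩, hj⟩ := exists_pdecomp hp.out x
    have h1 : x ^ i = 1 := by
      by_contra hne
      exact hB2 hne hk ha1 hpa (mem_centralizer_singleton_iff.1 (A.zpow_mem hx i))
    rw [h1, one_mul] at hxij
    rw [hxij]
    exact hj
  have hAfpf : ∀ b ∈ A, b ≠ 1 → H ⊓ centralizer ({b} : Set G) = ⊥ := fun b hb hb1 =>
    hB1 b hb1 (hAp b hb)
  have hHA : ∀ x ∈ H, x ∈ A → x = 1 := by
    intro x hxH hxA
    by_contra hne
    have h1 : x ∈ H ⊓ centralizer ({x} : Set G) := ⟨hxH, mem_centralizer_singleton_iff.2 rfl⟩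
    rw [hAfpf x hxA hne, mem_bot] at h1
    exact hne h1
  have hAN : A ≤ N := by
    intro x hx
    rw [hN, mem_normalizer_iff]
    intro c
    constructor
    · intro hc
      rw [hAz x hx c hc, mul_inv_cancel_right]
      exact hc
    · intro hc
      have h1 := hAz x⁻¹ (A.inv_mem hx) _ hc
      have h2 : c = x * c * x⁻¹ := by
        calc c = x⁻¹ * (x * c * x⁻¹) * x := by group
          _ = x * c * x⁻¹ * x⁻¹ * x := by rw [h1]
          _ = x * c * x⁻¹ := by group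
      rw [h2]
      exact hc
  have hNA : ∀ n ∈ N, ∀ x ∈ A, n * x * n⁻¹ ∈ A := by
    intro n hn x hx
    have h1 : n⁻¹ * a * n ∈ zpowers a := by
      have := (mem_normalizer_iff''.1 hn a).1 (mem_zpowers a)
      exact this
    have h2 := hAz x hx _ h1
    rw [hA, mem_centralizer_singleton_iff]
    calc n * x * n⁻¹ * a = n * (x * (n⁻¹ * a * n)) * n⁻¹ := by group
      _ = n * ((n⁻¹ * a * n) * x) * n⁻¹ := by rw [h2]
      _ = a * (n * x * n⁻¹) := by group
  have hHNbot : ∀ h ∈ H, h ∈ N → h = 1 := by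
    intro h hh hn
    have h1 : h * a * h⁻¹ ∈ zpowers a := (mem_normalizer_iff.1 hn a).1 (mem_zpowers a)
    have h2 : h * a * h⁻¹ * a⁻¹ ∈ A :=
      A.mul_mem ((zpowers_le.2 haA) h1) (A.inv_mem haA)
    have h3 : h * a * h⁻¹ * a⁻¹ ∈ H := by
      have : h * a * h⁻¹ * a⁻¹ = h * (a * h⁻¹ * a⁻¹) := by group
      rw [this]
      exact H.mul_mem hh (hHn.conj_mem _ (H.inv_mem hh) a)
    have h4 := hHA _ h3 h2
    rw [mul_inv_eq_one, mul_inv_eq_iff_eq_mul] at h4
    exact hHA h hh (mem_centralizer_singleton_iff.2 h4)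
  have hdec : ∀ x : G, ∃ h ∈ H, ∃ n ∈ N, x = h * n := by
    intro x
    have hx : x ∈ ((H ⊔ N : Subgroup G) : Set G) := by rw [hHN]; trivial
    rw [Subgroup.normal_mul] at hx
    obtain ⟨h, hh, n, hn, hhn⟩ := Set.mem_mul.1 hx
    exact ⟨h, hh, n, hn, hhn.symm⟩
  have hπhn : ∀ h ∈ H, ∀ n : G, π (h * n) = π n := by
    intro h hh n
    rw [map_mul, (hπ1 h).2 hh, one_mul]
  -- the order of the `N`-part divides the order
  have hordN : ∀ h ∈ H, ∀ n ∈ N, orderOf n ∣ orderOf (h * n) := by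
    intro h hh n hn
    apply orderOf_dvd_of_pow_eq_one
    apply hHNbot _ _ (N.pow_mem hn _)
    rw [← hπ1, map_pow, ← hπhn h hh n, ← map_pow, pow_orderOf_eq_one, map_one]
  -- `p'`-elements of `N` lie in `A`
  have hNC : ∀ n ∈ N, ¬ p ∣ orderOf n → n ∈ A := by
    intro n hn hpn
    set L : Subgroup G := zpowers a ⊔ zpowers n with hL
    have hzn : zpowers n ≤ N := zpowers_le.2 hn
    have hLN : L ≤ N := sup_le le_normalizer hzn
    have hcardL : ¬ p ∣ Nat.card L := by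
      intro h0
      have h1 := h0.trans (card_sup_dvd_mul' (zpowers a) (zpowers n) hzn)
      rw [Nat.card_zpowers, Nat.card_zpowers] at h1
      rcases (Nat.Prime.dvd_mul hp.out).1 h1 with h2 | h2
      · exact hpa h2
      · exact hpn h2
    have hLfpf : ∀ e ∈ L, e ≠ 1 → H ⊓ centralizer ({e} : Set G) = ⊥ := by
      intro e he he1
      apply hB1 e he1
      intro h0
      apply hcardL
      have := orderOf_dvd_natCard (⟨e, he⟩ : L)
      rw [Subgroup.orderOf_mk] at this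
      exact h0.trans this
    haveI hLnil : Group.IsNilpotent L := fpf_nilpotent hCN H L hHp.isNilpotent hH1 hLfpf
    haveI : ((zpowers a).subgroupOf L).Normal := normal_subgroupOf_of_le_normalizer hLN
    have hM1 : (zpowers a).subgroupOf L ≠ ⊥ := by
      apply subgroupOf_ne_bot le_sup_left
      intro h0
      exact ha1 (zpowers_eq_bot.1 h0)
    obtain ⟨⟨c, hc⟩, hc1'⟩ := Subgroup.ne_bot_iff_exists_ne_one.mp
      (Cfsg.Agent.H4.normal_inf_center_ne_bot _ hM1)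
    have hc1 : (c : G) ≠ 1 := fun h0 => hc1' (Subtype.ext (Subtype.ext h0))
    have hcz : (c : G) ∈ zpowers a := hc.1
    have hcn : (c : G) * n = n * c := by
      have h1 := (Subgroup.mem_center_iff.1 hc.2) ⟨n, (le_sup_right : zpowers n ≤ L) (mem_zpowers n)⟩
      exact (congrArg Subtype.val h1).symm
    have hcard : Nat.card (zpowers a) = orderOf a := Nat.card_zpowers a
    have h2 : (⟨a, mem_zpowers a⟩ : zpowers a) ∈ zpowers (⟨c, hcz⟩ : zpowers a) :=
      mem_zpowers_of_prime_card hcard (fun h0 => hc1 (congrArg Subtype.val h0))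
    obtain ⟨m, hm⟩ := mem_zpowers_iff.1 h2
    have hm' : (c : G) ^ m = a := congrArg Subtype.val hm
    rw [hA, mem_centralizer_singleton_iff, ← hm']
    exact Commute.zpow_right (show Commute n (c : G) from hcn.symm) m
  -- elements of `N` outside `A` have a nontrivial `p`-part
  have hpart : ∀ n ∈ N, n ∉ A → ∃ (i : ℤ) (k : ℕ), n ^ i ≠ 1 ∧ orderOf (n ^ i) = p ^ k := by
    intro n hn hnA
    obtain ⟨i, j, hnij, ⟨k, hk⟩, hj⟩ := exists_pdecomp hp.out n
    refine ⟨i, k, ?_, hk⟩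
    intro h0
    rw [h0, one_mul] at hnij
    apply hnA
    rw [hnij]
    exact hNC _ (N.zpow_mem hn j) hj
  -- a nontrivial `p`-element of `N`
  obtain ⟨w, hwN, hw1, kw, hwk⟩ : ∃ w ∈ N, w ≠ 1 ∧ ∃ k : ℕ, orderOf w = p ^ k := by
    obtain ⟨h, hh, n, hn, hhn⟩ := hdec w₀
    refine ⟨n, hn, ?_, ?_⟩
    · intro h0
      rw [h0, mul_one] at hhn
      exact hw₀ (hhn ▸ hh)
    · have h1 := hordN h hh n hn
      rw [← hhn, hw₀p] at h1
      obtain ⟨k, -, hk⟩ := (Nat.dvd_prime_pow hp.out).1 h1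
      exact ⟨k, hk⟩
  have hwA : w ∉ A := by
    intro h0
    apply hAp w h0
    rw [hwk]
    rcases Nat.eq_zero_or_pos kw with h1 | h1
    · rw [h1, pow_zero] at hwk
      exact absurd (orderOf_eq_one_iff.1 hwk) hw1
    · exact dvd_pow_self p h1.ne'
  have hodd : Odd (Nat.card A) := by
    by_contra hne
    rw [Nat.not_odd_iff_even] at hne
    haveI : Fact (Nat.Prime 2) := ⟨Nat.prime_two⟩
    obtain ⟨⟨t, ht⟩, ht2⟩ := exists_prime_orderOf_dvd_card' (G := A) 2 (even_iff_two_dvd.1 hne)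
    rw [Subgroup.orderOf_mk] at ht2
    have ht1 : t ≠ 1 := by
      intro h0
      rw [h0, orderOf_one] at ht2
      omega
    have h1 : orderOf (w * t * w⁻¹) = 2 := by rw [← ht2]; exact (MulAut.conj w).orderOf_eq t
    have h2 : w * t * w⁻¹ = t :=
      fpf_involution_unique H A hH1 hAfpf (hNA w hwN t ht) ht h1 ht2
    rw [mul_inv_eq_iff_eq_mul] at h2
    exact hB2 hw1 hwk ht1 (hAp t ht) h2
  have hsupmem : ∀ x ∈ H ⊔ A, ∃ h ∈ H, ∃ b ∈ A, x = h * b := by
    intro x hx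
    have hx' : x ∈ ((H ⊔ A : Subgroup G) : Set G) := hx
    rw [Subgroup.normal_mul] at hx'
    obtain ⟨h, hh, n, hn, hhn⟩ := Set.mem_mul.1 hx'
    exact ⟨h, hh, n, hn, hhn.symm⟩
  have hHle : H ≤ H ⊔ A := le_sup_left
  have hAle : A ≤ H ⊔ A := le_sup_right
  haveI hnormal : (H ⊔ A).Normal := by
    refine ⟨fun x hx g => ?_⟩
    obtain ⟨h₁, hh₁, b, hb, rfl⟩ := hsupmem x hx
    obtain ⟨h, hh, n, hn, rfl⟩ := hdec g
    have e1 : h * n * (h₁ * b) * (h * n)⁻¹
        = (h * n * h₁ * (h * n)⁻¹) * (h * (n * b * n⁻¹) * h⁻¹) := by group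
    rw [e1]
    exact (H ⊔ A).mul_mem (hHle (hHn.conj_mem _ hh₁ _))
      ((H ⊔ A).mul_mem ((H ⊔ A).mul_mem (hHle hh) (hAle (hNA n hn b hb)))
        ((H ⊔ A).inv_mem (hHle hh)))
  -- elements of `N` in `H ⊔ A` lie in `A`
  have hNsup : ∀ n ∈ N, n ∈ H ⊔ A → n ∈ A := by
    intro n hn hnHA
    obtain ⟨h, hh, b, hb, hnb⟩ := hsupmem n hnHA
    have h1 : h = n * b⁻¹ := by rw [hnb]; group
    have h2 : h = 1 := hHNbot h hh (h1 ▸ N.mul_mem hn (N.inv_mem (hAN hb)))
    rw [hnb, h2, one_mul]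
    exact hb
  refine ⟨A, ?_, fpf_cyclic_of_odd hCN H A hHp.isNilpotent hH1 hAfpf hodd, hodd, ?_, hnormal, ?_,
    ?_, hAfpf, ?_⟩
  · intro h0
    rw [h0, mem_bot] at haA
    exact ha1 haA
  · rw [Nat.coprime_comm, Nat.Prime.coprime_iff_not_dvd hp.out]
    intro h0
    obtain ⟨⟨t, ht⟩, htp⟩ := exists_prime_orderOf_dvd_card' (G := A) p h0
    rw [Subgroup.orderOf_mk] at htp
    exact hAp t ht (by rw [htp])
  · intro h0
    exact hwA (hNsup w hwN (by rw [h0]; trivial))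
  · have hquot : IsPGroup p (G ⧸ (H ⊔ A)) := by
      intro x
      obtain ⟨g, rfl⟩ := QuotientGroup.mk'_surjective _ x
      obtain ⟨i, j, hgij, ⟨k, hk⟩, hj⟩ := exists_pdecomp hp.out g
      refine ⟨k, ?_⟩
      have h1 : g ^ j ∈ H ⊔ A := by
        obtain ⟨h, hh, n, hn, hhn⟩ := hdec (g ^ j)
        have h2 : ¬ p ∣ orderOf n := fun h0 => hj (h0.trans (hhn ▸ hordN h hh n hn))
        rw [hhn]
        exact (H ⊔ A).mul_mem (hHle hh) (hAle (hNC n hn h2))
      have h2 : QuotientGroup.mk' (H ⊔ A) (g ^ j) = 1 := (QuotientGroup.eq_one_iff _).2 h1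
      have h3 : QuotientGroup.mk' (H ⊔ A) g = QuotientGroup.mk' (H ⊔ A) (g ^ i) := by
        conv_lhs => rw [hgij]
        rw [map_mul, h2, mul_one]
      rw [h3, ← map_pow, ← hk, pow_orderOf_eq_one, map_one]
    obtain ⟨n, hn⟩ := IsPGroup.iff_card.1 hquot
    exact ⟨n, by rw [Subgroup.index_eq_card, hn]⟩
  · intro x hx b hb hb1 hxb
    obtain ⟨h, hh, n, hn, rfl⟩ := hdec x
    have hnA : n ∉ A := fun h0 => hx ((H ⊔ A).mul_mem (hHle hh) (hAle h0))
    have h1 : n * b * n⁻¹ * b⁻¹ ∈ H := by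
      rw [← hπ1] at hxb ⊢
      rw [map_mul, map_mul, map_mul, map_inv, hπhn h hh n] at hxb
      rw [map_mul, map_mul, map_mul, map_inv]
      exact hxb
    have h2 : n * b * n⁻¹ * b⁻¹ ∈ A := A.mul_mem (hNA n hn b hb) (A.inv_mem hb)
    have h3 := hHA _ h1 h2
    rw [mul_inv_eq_one, mul_inv_eq_iff_eq_mul] at h3
    obtain ⟨i, k, hi1, hik⟩ := hpart n hn hnA
    exact hB2 hi1 hik hb1 (hAp b hb) (Commute.zpow_left (show Commute n b from h3) i)

end

end Cfsg.Agent.Lib.Helper10
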