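import Mathlib
import Cfsg.Agent.Lib.Helper10.ThreeStep3
import Cfsg.Agent.S1474

/-! Three-step groups have a non-nilpotent derived group; dichotomy for solvable CN-groups of odd
order. -/

set_option autoImplicit false
set_option linter.style.haveILetI false
set_option linter.unusedSectionVars false

namespace Cfsg.Agent.Lib.Helper10

open Cfsg Subgroup

universe u

theorem threeStep_no_nilpotent_derived {Y : Type u} [Group Y] [Finite Y] {p : ℕ}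
    (h : IsThreeStepGroup p Y) (L : Subgroup Y) (hL : Group.IsNilpotent L)
    (hcomm : ∀ u v : Y, u * v * u⁻¹ * v⁻¹ ∈ L) : False := by
  obtain ⟨hH1, A, hA1, -, -, -, hnorm, htop, -, hfpf, hlast⟩ := h
  set H₀ := pCore p Y with hH₀
  haveI hH₀n : H₀.Normal := Cfsg.Agent.Fus.pCore_normal' p Y
  obtain ⟨⟨a, haA⟩, ha1'⟩ := Subgroup.ne_bot_iff_exists_ne_one.mp hA1
  have ha1 : a ≠ 1 := fun h0 => ha1' (Subtype.ext h0)
  obtain ⟨x, hx⟩ : ∃ x : Y, x ∉ H₀ ⊔ A := by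
    by_contra hne
    push Not at hne
    exact htop (eq_top_iff.2 fun y _ => hne y)
  have hH₀L : H₀ ≤ L := by
    let f : H₀ → H₀ := fun h => ⟨(h : Y) * a * (h : Y)⁻¹ * a⁻¹, by
      have : (h : Y) * a * (h : Y)⁻¹ * a⁻¹ = h * (a * (h : Y)⁻¹ * a⁻¹) := by group
      rw [this]
      exact H₀.mul_mem h.2 (hH₀n.conj_mem _ (H₀.inv_mem h.2) a)⟩
    have hinj : Function.Injective f := by
      intro h h' hh
      have h1 : (h : Y) * a * (h : Y)⁻¹ * a⁻¹ = h' * a * (h' : Y)⁻¹ * a⁻¹ := congrArg Subtype.val hh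
      have h2 : (h : Y) * a * (h : Y)⁻¹ = h' * a * (h' : Y)⁻¹ := mul_right_cancel h1
      have h3 : ((h' : Y)⁻¹ * h) * a = a * ((h' : Y)⁻¹ * h) := by
        calc ((h' : Y)⁻¹ * h) * a = (h' : Y)⁻¹ * (h * a * (h : Y)⁻¹) * h := by group
          _ = (h' : Y)⁻¹ * (h' * a * (h' : Y)⁻¹) * h := by rw [h2]
          _ = a * ((h' : Y)⁻¹ * h) := by group
      have h4 : (h' : Y)⁻¹ * h ∈ H₀ ⊓ centralizer ({a} : Set Y) :=
        ⟨H₀.mul_mem (H₀.inv_mem h'.2) h.2, mem_centralizer_singleton_iff.2 h3⟩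
      rw [hfpf a haA ha1, mem_bot] at h4
      apply Subtype.ext
      exact (inv_mul_eq_one.1 h4).symm
    have hsurj : Function.Surjective f := Finite.injective_iff_surjective.1 hinj
    intro h hh
    obtain ⟨h', hh'⟩ := hsurj ⟨h, hh⟩
    have h1 : (h' : Y) * a * (h' : Y)⁻¹ * a⁻¹ = h := congrArg Subtype.val hh'
    rw [← h1]
    exact hcomm _ _
  set c := x * a * x⁻¹ * a⁻¹ with hc
  have hcL : c ∈ L := hcomm x a
  have hcH : c ∉ H₀ := hlast x hx a haA ha1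
  have haS : a ∈ H₀ ⊔ A := (le_sup_right : A ≤ H₀ ⊔ A) haA
  have hcS : c ∈ ((H₀ ⊔ A : Subgroup Y) : Set Y) :=
    (H₀ ⊔ A).mul_mem (hnorm.conj_mem a haS x) ((H₀ ⊔ A).inv_mem haS)
  rw [Subgroup.normal_mul] at hcS
  obtain ⟨h₁, hh₁, a₁, ha₁, hha⟩ := Set.mem_mul.1 hcS
  have ha₁1 : a₁ ≠ 1 := by
    intro h0
    rw [h0, mul_one] at hha
    exact hcH (hha ▸ hh₁)
  have ha₁L : a₁ ∈ L := by
    have : a₁ = h₁⁻¹ * c := by rw [← hha]; group
    rw [this]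
    exact L.mul_mem (L.inv_mem (hH₀L hh₁)) hcL
  haveI : (H₀.subgroupOf L).Normal := inferInstance
  obtain ⟨⟨z, hz⟩, hz1'⟩ := Subgroup.ne_bot_iff_exists_ne_one.mp
    (Cfsg.Agent.H4.normal_inf_center_ne_bot _ (subgroupOf_ne_bot hH₀L hH1))
  have hz1 : (z : Y) ≠ 1 := fun h0 => hz1' (Subtype.ext (Subtype.ext h0))
  have hzH : (z : Y) ∈ H₀ := hz.1
  have hza : (z : Y) * a₁ = a₁ * z := by
    have h1 := (Subgroup.mem_center_iff.1 hz.2) ⟨a₁, ha₁L⟩
    exact (congrArg Subtype.val h1).symm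
  have h5 : (z : Y) ∈ H₀ ⊓ centralizer ({a₁} : Set Y) :=
    ⟨hzH, mem_centralizer_singleton_iff.2 hza⟩
  rw [hfpf a₁ ha₁ ha₁1, mem_bot] at h5
  exact hz1 h5

theorem cn_odd_dichotomy {Y : Type u} [Group Y] [Finite Y] [Group.IsSolvable Y]
    (hCN : IsCNGroup Y) (hodd : Odd (Nat.card Y)) :
    (∃ L : Subgroup Y, Group.IsNilpotent L ∧ ∀ u v : Y, u * v * u⁻¹ * v⁻¹ ∈ L) ∨
    ∃ p : ℕ, p.Prime ∧ pCore p Y ≠ ⊥ ∧ centralizer (pCore p Y : Set Y) ≤ pCore p Y ∧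
      ∃ T : Subgroup Y, T.Normal ∧ T ≠ ⊤ ∧ ∃ n : ℕ, T.index = p ^ n := by
  by_cases hnil : Group.IsNilpotent Y
  · exact Or.inl ⟨⊤, Group.nilpotent_of_mulEquiv Subgroup.topEquiv.symm, fun _ _ => mem_top _⟩
  by_cases hex : ∃ (q : ℕ) (_ : Fact q.Prime) (P : Sylow q Y),
      (P : Subgroup Y) ≠ ⊥ ∧ (P : Subgroup Y).Normal
  · left
    obtain ⟨q, hq, P, hP1, hPn⟩ := hex
    obtain ⟨hH1, -, ⟨E, hE, -, hfpf⟩, -⟩ := Cfsg.Agent.S1474.result hCN hnil q P hP1 hPn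
    obtain ⟨hHnil, -⟩ := fittingHall_spec (G := Y)
    refine ⟨fittingHall Y, hHnil, fun u v => ?_⟩
    have hoddE : Odd (Nat.card E) := Odd.of_dvd_nat hodd (Subgroup.card_subgroup_dvd_card E)
    haveI hcyc : IsCyclic E := fpf_cyclic_of_odd hCN (fittingHall Y) E hHnil hH1 hfpf hoddE
    letI := IsCyclic.commGroup (α := E)
    let e := hE.symm.QuotientMulEquiv
    have h1 : (QuotientGroup.mk' (fittingHall Y) u) * (QuotientGroup.mk' (fittingHall Y) v)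
        = (QuotientGroup.mk' (fittingHall Y) v) * (QuotientGroup.mk' (fittingHall Y) u) := by
      apply e.injective
      rw [map_mul, map_mul, mul_comm]
    rw [← QuotientGroup.eq_one_iff]
    change QuotientGroup.mk' (fittingHall Y) (u * v * u⁻¹ * v⁻¹) = 1
    rw [map_mul, map_mul, map_mul, map_inv, map_inv, h1]
    group
  · right
    have hns : ∀ (q : ℕ) [Fact q.Prime] (P : Sylow q Y), (P : Subgroup Y).Normal →
        (P : Subgroup Y) = ⊥ := by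
      intro q hq P hPn
      by_contra hne
      exact hex ⟨q, hq, P, hne, hPn⟩
    haveI : Nontrivial Y := by
      by_contra hne
      rw [not_nontrivial_iff_subsingleton] at hne
      exact hnil inferInstance
    obtain ⟨p, hp, hH1, hCH⟩ := exists_pCore_selfcent hCN hns
    haveI : Fact p.Prime := ⟨hp⟩
    refine ⟨p, hp, hH1, hCH, ?_⟩
    haveI hHn : (pCore p Y).Normal := Cfsg.Agent.Fus.pCore_normal' p Y
    have hHp : IsPGroup p (pCore p Y) := Cfsg.Agent.Fus.pCore_isPGroup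
    have hB1 : ∀ e : Y, e ≠ 1 → ¬ p ∣ orderOf e →
        pCore p Y ⊓ Subgroup.centralizer ({e} : Set Y) = ⊥ :=
      fun e he1 hpe => pprime_fpf hCN (pCore p Y) hHp hH1 hCH he1 hpe
    obtain ⟨P, hHP⟩ := hHp.exists_le_sylow
    have hne : pCore p Y ≠ (P : Subgroup Y) := by
      intro h0
      have h1 := hns p P (h0 ▸ hHn)
      exact hH1 (h0.trans h1)
    obtain ⟨w₀, hw₀P, hw₀⟩ := SetLike.exists_of_lt (lt_of_le_of_ne hHP hne)
    obtain ⟨k₀, hk₀⟩ := orderOf_of_mem_pGroup P.2 hw₀P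
    have hHtop : pCore p Y ≠ ⊤ := fun h0 => hw₀ (by rw [h0]; trivial)
    obtain ⟨a, har, hpa, hHN⟩ := exists_prime_compl (pCore p Y) hHp hH1 hHtop
      (fun K hK hKp => Cfsg.Agent.Fus.le_pCore hK hKp) hB1
    obtain ⟨A, -, -, -, -, h5, h6, h7, -, -⟩ :=
      three_step_core hCN (pCore p Y) hHp hH1 hB1 har hpa hHN hw₀ hk₀
    exact ⟨pCore p Y ⊔ A, h5, h6, h7⟩

end Cfsg.Agent.Lib.Helper10
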