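import Mathlib
import Cfsg.Agent.Lib.Helper10.CliffAb
import Cfsg.Agent.Lib.Helper10.Extend
import Cfsg.Agent.Lib.Helper10.Coprime
import Cfsg.Agent.Lib.Helper10.FixedIrr
import Cfsg.Agent.S1512

/-!
Characters of `K ⋊ W₁` where all non-identity elements of `W₁` have the same centraliser in `K`.
-/

set_option autoImplicit false

universe u

namespace Cfsg.Agent.Lib.Helper10

open Cfsg Cfsg.Agent.CharLib Cfsg.Agent.CharLib.H2

/-- invariant character, abelian coprime quotient: the induced character is a sum of `[T:N]` distinct extensions -/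
theorem invariant_abelian_coprime {T : Type u} [Group T] [Fintype T] (N : Subgroup T) [hN : N.Normal]
    (θ : N → ℂ) (hθ : IsIrrCharacter N θ) (hinv : ∀ t : T, H2.conjFun hN θ t = θ)
    (hab : ∀ x y : T, x * y * x⁻¹ * y⁻¹ ∈ N) (hcop : Nat.Coprime (Nat.card N) N.index) :
    ∃ C : Finset (IrrCharacter T), C.card = N.index ∧ indFun N θ = ∑ ψ ∈ C, (ψ : T → ℂ) ∧
      ∀ ψ ∈ C, (ψ : T → ℂ) 1 = θ 1 := by
  classical
  obtain ⟨e, C, he, hcard, hind, hdeg, hne⟩ := invariant_abelian_quotient N θ hθ hinv hab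
  obtain ⟨χ₀, hχ₀, hext⟩ := coprime_extension N hcop θ hθ (fun t n => congrFun (hinv t) n)
  have he1 : e = 1 := by
    have h1 := frobenius_reciprocity N θ (isClassFunction_of_irr hχ₀)
    have h2 : (fun h : N => χ₀ h) = θ := funext hext
    rw [h2, classInner_irr_self hθ, hind, classInner_smul_left, classInner_sum_left] at h1
    by_cases hmem : (⟨χ₀, hχ₀⟩ : IrrCharacter T) ∈ C
    · rw [Finset.sum_eq_single (⟨χ₀, hχ₀⟩ : IrrCharacter T)] at h1
      · rw [classInner_irr_self hχ₀, mul_one] at h1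
        exact_mod_cast h1
      · intro ψ _ hψ
        exact classInner_irr_ne ψ.2 hχ₀ (fun h => hψ (Subtype.ext h))
      · intro h; exact absurd hmem h
    · rw [Finset.sum_eq_zero, mul_zero] at h1
      · exact absurd h1 zero_ne_one
      · intro ψ hψ
        exact classInner_irr_ne ψ.2 hχ₀ (fun h => hmem (by
          have : ψ = ⟨χ₀, hχ₀⟩ := Subtype.ext h
          rw [← this]; exact hψ))
  subst he1
  refine ⟨C, ?_, by rw [hind]; simp, fun ψ hψ => by rw [hdeg ψ hψ]; simp⟩
  have h1 := N.card_mul_index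
  rw [← hcard] at h1
  have hpos : 0 < Nat.card N := Nat.card_pos
  have h2 : Nat.card N * N.index = Nat.card N * C.card := by rw [h1]; ring
  exact (Nat.eq_of_mul_eq_mul_left hpos h2).symm

section fixed

variable {L : Type u} [Group L] [Finite L]

/-- two elements of `C_K(x)` conjugate in `K` are conjugate in `C_K(x)` (coprime action) -/
theorem conj_in_centralizer (K : Subgroup L) [hK : K.Normal] (x : L) (hx : Nat.Coprime (orderOf x) (Nat.card K))
    {w w' k : L} (hw : x * w = w * x) (hw' : x * w' = w' * x) (hk : k ∈ K) (hconj : k * w * k⁻¹ = w') :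
    ∃ c ∈ K, x * c = c * x ∧ c * w * c⁻¹ = w' := by
  have hcomm : ∀ a ∈ Subgroup.zpowers x, a * w = w * a ∧ a * w' = w' * a := by
    intro a ha
    obtain ⟨i, rfl⟩ := Subgroup.mem_zpowers_iff.1 ha
    exact ⟨((show Commute x w from hw).zpow_left i).eq, ((show Commute x w' from hw').zpow_left i).eq⟩
  have hAN : Subgroup.zpowers x ≤ Subgroup.normalizer ((K ⊓ Subgroup.centralizer ({w} : Set L) : Subgroup L) : Set L) := by
    intro a ha
    rw [Subgroup.mem_normalizer_iff]
    intro y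
    have h1 := (hcomm a ha).1
    have h1' : a⁻¹ * w = w * a⁻¹ := by
      calc a⁻¹ * w = a⁻¹ * (w * a) * a⁻¹ := by group
        _ = a⁻¹ * (a * w) * a⁻¹ := by rw [h1]
        _ = w * a⁻¹ := by group
    simp only [Subgroup.mem_inf, Subgroup.mem_centralizer_singleton_iff]
    constructor
    · rintro ⟨h2, h3⟩
      refine ⟨hK.conj_mem y h2 a, ?_⟩
      calc a * y * a⁻¹ * w = a * y * (a⁻¹ * w) := by group
        _ = a * y * (w * a⁻¹) := by rw [h1']
        _ = a * (y * w) * a⁻¹ := by group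
        _ = a * (w * y) * a⁻¹ := by rw [h3]
        _ = (a * w) * y * a⁻¹ := by group
        _ = (w * a) * y * a⁻¹ := by rw [h1]
        _ = w * (a * y * a⁻¹) := by group
    · rintro ⟨h2, h3⟩
      refine ⟨?_, ?_⟩
      · have := hK.conj_mem _ h2 a⁻¹
        simpa [mul_assoc] using this
      · calc y * w = a⁻¹ * ((a * y * a⁻¹) * (a * w)) := by group
          _ = a⁻¹ * ((a * y * a⁻¹) * (w * a)) := by rw [h1]
          _ = a⁻¹ * ((a * y * a⁻¹ * w) * a) := by group
          _ = a⁻¹ * ((w * (a * y * a⁻¹)) * a) := by rw [h3]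
          _ = (a⁻¹ * w) * a * y := by group
          _ = (w * a⁻¹) * a * y := by rw [h1']
          _ = w * y := by group
  obtain ⟨n, hn, hkn⟩ := exists_fixed_in_coset K (Subgroup.zpowers x) (K ⊓ Subgroup.centralizer ({w} : Set L))
    (by rw [Subgroup.normalizer_eq_top K]; exact le_top) inf_le_left hAN
    (by rw [Nat.card_zpowers]; exact hx.symm) (Or.inr inferInstance) hk (by
      intro a ha
      obtain ⟨h1, h2⟩ := hcomm a ha
      have h1' : a⁻¹ * w = w * a⁻¹ := by
        calc a⁻¹ * w = a⁻¹ * (w * a) * a⁻¹ := by group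
          _ = a⁻¹ * (a * w) * a⁻¹ := by rw [h1]
          _ = w * a⁻¹ := by group
      refine Subgroup.mem_inf.2 ⟨K.mul_mem (K.inv_mem hk) (hK.conj_mem k hk a), ?_⟩
      rw [Subgroup.mem_centralizer_singleton_iff]
      have e1 : k * w = w' * k := by rw [← hconj]; group
      have e2 : k⁻¹ * w' = w * k⁻¹ := by rw [← hconj]; group
      calc k⁻¹ * (a * k * a⁻¹) * w = k⁻¹ * (a * k * (a⁻¹ * w)) := by group
        _ = k⁻¹ * (a * k * (w * a⁻¹)) := by rw [h1']
        _ = k⁻¹ * (a * (k * w) * a⁻¹) := by group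
        _ = k⁻¹ * (a * (w' * k) * a⁻¹) := by rw [e1]
        _ = k⁻¹ * ((a * w') * k * a⁻¹) := by group
        _ = k⁻¹ * ((w' * a) * k * a⁻¹) := by rw [h2]
        _ = (k⁻¹ * w') * (a * k * a⁻¹) := by group
        _ = (w * k⁻¹) * (a * k * a⁻¹) := by rw [e2]
        _ = w * (k⁻¹ * (a * k * a⁻¹)) := by group)
  refine ⟨k * n, K.mul_mem hk hn.1, ?_, ?_⟩
  · rw [Subgroup.mem_centralizer_iff] at hkn
    exact hkn x (Subgroup.mem_zpowers x)
  · have h3 := Subgroup.mem_centralizer_singleton_iff.1 hn.2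
    calc k * n * w * (k * n)⁻¹ = k * (n * w) * n⁻¹ * k⁻¹ := by group
      _ = k * (w * n) * n⁻¹ * k⁻¹ := by rw [h3]
      _ = k * w * k⁻¹ := by group
      _ = w' := hconj

theorem card_fixed_classes (K W₂ : Subgroup L) [hK : K.Normal] (x : L) (hx1 : x ≠ 1)
    (hx : Nat.Coprime (orderOf x) (Nat.card K))
    (hC : ∀ y ∈ Subgroup.zpowers x, y ≠ 1 → K ⊓ Subgroup.centralizer ({y} : Set L) = W₂)
    (hab : ∀ a ∈ W₂, ∀ b ∈ W₂, a * b = b * a) :
    Nat.card {C : ConjClasses K // ConjClasses.map (MulEquiv.toMonoidHom ((MulAut.conjNormal x : MulAut K))) C = C}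
      = Nat.card W₂ := by
  apply le_antisymm (Cfsg.Agent.S1512.result K W₂ x hx1 hx hC)
  have hW : K ⊓ Subgroup.centralizer ({x} : Set L) = W₂ := hC x (Subgroup.mem_zpowers x) hx1
  have hWK : W₂ ≤ K := by rw [← hW]; exact inf_le_left
  have hWx : ∀ w ∈ W₂, x * w = w * x := by
    intro w hw
    rw [← hW] at hw
    exact (Subgroup.mem_centralizer_singleton_iff.1 hw.2).symm
  let f : W₂ → {C : ConjClasses K // ConjClasses.map (MulEquiv.toMonoidHom ((MulAut.conjNormal x : MulAut K))) C = C} :=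
    fun w => ⟨ConjClasses.mk (⟨(w : L), hWK w.2⟩ : K), by
      change ConjClasses.mk ((MulAut.conjNormal x : MulAut K) ⟨(w : L), hWK w.2⟩) = _
      congr 1
      apply Subtype.ext
      rw [MulAut.conjNormal_apply]
      show x * (w : L) * x⁻¹ = w
      rw [hWx w w.2]; group⟩
  apply Nat.card_le_card_of_injective f
  intro w w' hww
  have h1 : ConjClasses.mk (⟨(w : L), hWK w.2⟩ : K) = ConjClasses.mk (⟨(w' : L), hWK w'.2⟩ : K) :=
    congrArg Subtype.val hww
  rw [ConjClasses.mk_eq_mk_iff_isConj, isConj_iff] at h1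
  obtain ⟨k, hk⟩ := h1
  have hk' : (k : L) * w * (k : L)⁻¹ = w' := by
    have := congrArg (fun z : K => (z : L)) hk
    simpa using this
  obtain ⟨c, hcK, hcx, hcw⟩ := conj_in_centralizer K x hx (hWx w w.2) (hWx w' w'.2) k.2 hk'
  have hcW : c ∈ W₂ := by
    rw [← hW]
    exact Subgroup.mem_inf.2 ⟨hcK, Subgroup.mem_centralizer_singleton_iff.2 hcx.symm⟩
  apply Subtype.ext
  rw [← hcw, hab c hcW w w.2]; group

theorem card_fixed_irr (K W₂ : Subgroup L) [hK : K.Normal] (x : L) (hx1 : x ≠ 1)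
    (hx : Nat.Coprime (orderOf x) (Nat.card K))
    (hC : ∀ y ∈ Subgroup.zpowers x, y ≠ 1 → K ⊓ Subgroup.centralizer ({y} : Set L) = W₂)
    (hab : ∀ a ∈ W₂, ∀ b ∈ W₂, a * b = b * a) :
    Nat.card {θ : IrrCharacter K // H2.conjFun hK (θ : K → ℂ) x = θ} = Nat.card W₂ := by
  rw [← card_fixed_classes K W₂ x hx1 hx hC hab]
  have key := card_fixed_irr_eq_card_fixed_classes (G := K)
    (fun χ => ⟨H2.conjFun hK χ x, isIrrCharacter_conjFun hK χ.2 x⟩)
    (fun k => ⟨x * k * x⁻¹, hK.conj_mem k k.2 x⟩) (fun χ g => rfl)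
  have e1 : Nat.card {θ : IrrCharacter K // H2.conjFun hK (θ : K → ℂ) x = θ} =
      Nat.card {χ : IrrCharacter K // (⟨H2.conjFun hK χ x, isIrrCharacter_conjFun hK χ.2 x⟩ : IrrCharacter K) = χ} := by
    apply Nat.card_congr
    apply Equiv.subtypeEquivRight
    intro θ
    exact ⟨fun h => Subtype.ext h, fun h => congrArg Subtype.val h⟩
  rw [e1, key]
  apply Nat.card_congr
  apply Equiv.subtypeEquivRight
  intro C
  obtain ⟨g, rfl⟩ := ConjClasses.exists_rep C
  constructor
  · intro h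
    change ConjClasses.mk ((MulAut.conjNormal x : MulAut K) g) = ConjClasses.mk g
    rw [ConjClasses.mk_eq_mk_iff_isConj]
    exact h g rfl
  · intro h g' hg'
    change ConjClasses.mk ((MulAut.conjNormal x : MulAut K) g) = ConjClasses.mk g at h
    have h2 : ConjClasses.mk ((MulAut.conjNormal x : MulAut K) g') = ConjClasses.mk g' := by
      have h3 : ConjClasses.map (MulEquiv.toMonoidHom ((MulAut.conjNormal x : MulAut K))) (ConjClasses.mk g') =
          ConjClasses.map (MulEquiv.toMonoidHom ((MulAut.conjNormal x : MulAut K))) (ConjClasses.mk g) := by rw [hg']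
      change ConjClasses.mk ((MulAut.conjNormal x : MulAut K) g') = ConjClasses.mk ((MulAut.conjNormal x : MulAut K) g) at h3
      rw [h3, h, hg']
    rw [ConjClasses.mk_eq_mk_iff_isConj] at h2
    exact h2

end fixed

end Cfsg.Agent.Lib.Helper10
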