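import Mathlib
import Cfsg.Prelude

/-! Groups of odd order do not involve `Qd(p)` for odd `p`. -/

set_option autoImplicit false
set_option linter.style.haveILetI false
set_option linter.unusedSectionVars false

namespace Cfsg.Agent.Lib.Helper10

open Cfsg Subgroup

universe u

theorem exists_involution_qd (p : ℕ) [Fact p.Prime] (hp : p ≠ 2) :
    ∃ t : ↥(qd p), t ≠ 1 ∧ t * t = 1 := by
  have hp2 : 2 < p := lt_of_le_of_ne (Fact.out : p.Prime).two_le (Ne.symm hp)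
  haveI : Fact (2 < p) := ⟨hp2⟩
  let M : Matrix.SpecialLinearGroup (Fin 3) (ZMod p) :=
    ⟨!![-1, 0, 0; 0, -1, 0; 0, 0, 1], by simp [Matrix.det_fin_three]⟩
  have hM : M ∈ qd p := Subgroup.subset_closure ⟨by simp [M], by simp [M], by simp [M]⟩
  refine ⟨⟨M, hM⟩, ?_, ?_⟩
  · intro h0
    have h1 : M = 1 := congrArg Subtype.val h0
    have h2 : (M : Matrix (Fin 3) (Fin 3) (ZMod p)) 0 0 = (1 : Matrix (Fin 3) (Fin 3) (ZMod p)) 0 0 := by
      rw [h1]; rfl
    simp [M] at h2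
    exact ZMod.neg_one_ne_one h2
  · apply Subtype.ext
    apply Subtype.ext
    show (!![-1, 0, 0; 0, -1, 0; 0, 0, 1] : Matrix (Fin 3) (Fin 3) (ZMod p)) *
      !![-1, 0, 0; 0, -1, 0; 0, 0, 1] = 1
    ext i j
    fin_cases i <;> fin_cases j <;> simp [Matrix.mul_apply, Fin.sum_univ_three]

theorem not_involves_qd_of_odd {G : Type u} [Group G] [Finite G] (hodd : Odd (Nat.card G))
    (p : ℕ) [Fact p.Prime] (hp : p ≠ 2) : ¬ Involves ↥(qd p) G := by
  rintro ⟨K, R, hR, ⟨e⟩⟩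
  obtain ⟨t, ht1, ht2⟩ := exists_involution_qd p hp
  have h1 : e.symm t ≠ 1 := fun h0 => ht1 (by simpa using h0)
  have h2 : (e.symm t) ^ 2 = 1 := by rw [pow_two, ← map_mul, ht2, map_one]
  have h3 : orderOf (e.symm t) = 2 := orderOf_eq_prime h2 h1
  have h4 : 2 ∣ Nat.card (K ⧸ R.subgroupOf K) := h3 ▸ orderOf_dvd_natCard _
  have h5 : 2 ∣ Nat.card G :=
    (h4.trans (Subgroup.card_quotient_dvd_card _)).trans (Subgroup.card_subgroup_dvd_card K)
  exact (Nat.not_even_iff_odd.2 hodd) (even_iff_two_dvd.2 h5)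

end Cfsg.Agent.Lib.Helper10
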