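import Mathlib
import Cfsg.Prelude.Def_Characters
import Cfsg.Agent.S0174
import Cfsg.Agent.H6.CliffCorr
import Cfsg.Agent.Lib.Helper10.CliffAb
import Cfsg.Agent.Lib.Helper10.CliffCorr

/-! Relative Clifford theory (`H ≤ T ≤ G`, `H` normal in `G`) and norms of restrictions to a normal
subgroup with abelian quotient. -/

set_option autoImplicit false

namespace Cfsg.Agent.Lib.Helper10

open Cfsg Cfsg.Agent.CharLib Cfsg.Agent.CharLib.H2 Cfsg.Agent.CharLib.L
open scoped ComplexConjugate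

section rel

variable {G : Type*} [Group G] [Fintype G]

/-- two irreducible constituents of the restriction of an irreducible character of `T` to `H` are
`T`-conjugate -/
theorem rel_clifford_conj (H T : Subgroup G) (hN : H.Normal) (hHT : H ≤ T)
    [Fintype H] [Fintype T] {ψ : T → ℂ} (hψ : IsIrrCharacter T ψ) {ϑ ϑ₂ : H → ℂ}
    (hϑ : IsIrrCharacter H ϑ) (hϑ₂ : IsIrrCharacter H ϑ₂)
    (hcon : classInner (fun n : H => ψ ⟨(n : G), hHT n.2⟩) ϑ ≠ 0)
    (hcon₂ : classInner (fun n : H => ψ ⟨(n : G), hHT n.2⟩) ϑ₂ ≠ 0) :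
    ∃ t ∈ T, ϑ₂ = conjFun hN ϑ t := by
  classical
  let H' : Subgroup T := H.subgroupOf T
  have hN' : H'.Normal := hN.subgroupOf T
  letI : Fintype H' := Fintype.ofFinite _
  let e : H' ≃* H := Subgroup.subgroupOfEquivOfLe hHT
  let ϑ' : H' → ℂ := fun a => ϑ (e a)
  let ϑ₂' : H' → ℂ := fun a => ϑ₂ (e a)
  have hϑ' : IsIrrCharacter H' ϑ' := isIrrCharacter_comp_of_surjective hϑ e.toMonoidHom e.surjective
  have hϑ₂' : IsIrrCharacter H' ϑ₂' :=
    isIrrCharacter_comp_of_surjective hϑ₂ e.toMonoidHom e.surjective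
  have hres : (fun n : H' => ψ n) = fun a => (fun n : H => ψ ⟨(n : G), hHT n.2⟩) (e a) := by
    funext a
    rfl
  have hci : classInner (fun n : H' => ψ n) ϑ' = classInner (fun n : H => ψ ⟨(n : G), hHT n.2⟩) ϑ := by
    rw [hres]
    exact H6.classInner_comp_mulEquiv e (fun n : H => ψ ⟨(n : G), hHT n.2⟩) ϑ
  have hci₂ : classInner (fun n : H' => ψ n) ϑ₂' =
      classInner (fun n : H => ψ ⟨(n : G), hHT n.2⟩) ϑ₂ := by
    rw [hres]
    exact H6.classInner_comp_mulEquiv e (fun n : H => ψ ⟨(n : G), hHT n.2⟩) ϑ₂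
  have key := Cfsg.Agent.S0174.result H' hN' ψ hψ ϑ' hϑ' (by rw [hci]; exact hcon)
  by_contra hne
  push Not at hne
  apply hcon₂
  rw [← hci₂, key, classInner_smul_left]
  have hfin : Set.Finite {ψ : H' → ℂ | ∃ g : T, ψ = fun n : H' =>
      ϑ' ⟨g * n * g⁻¹, hN'.conj_mem n n.2 g⟩} := by
    refine (Set.finite_range (fun g : T => fun n : H' =>
      ϑ' ⟨g * n * g⁻¹, hN'.conj_mem n n.2 g⟩)).subset ?_
    rintro _ ⟨g, rfl⟩
    exact ⟨g, rfl⟩
  rw [finsum_mem_eq_finite_toFinset_sum _ hfin, classInner_sum_left]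
  apply mul_eq_zero_of_right
  apply Finset.sum_eq_zero
  intro η hη
  rw [Set.Finite.mem_toFinset] at hη
  obtain ⟨g, rfl⟩ := hη
  apply classInner_irr_ne (isIrrCharacter_conjFun hN' hϑ' g) hϑ₂'
  intro h
  apply hne g g.2
  funext n
  have := congrFun h (e.symm n)
  simp only [ϑ₂', MulEquiv.apply_symm_apply] at this
  rw [← this]
  rfl

end rel

section norm

variable {T : Type*} [Group T] [Fintype T] (N : Subgroup T) [hN : N.Normal] [Fintype N]

open Classical in
/-- `[ϑ_N, ϑ_N]` is the number of linear characters of the abelian group `T/N` fixing `ϑ`. -/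
theorem norm_restrict_eq_card_stab (hQ : ∀ a b : T ⧸ N, a * b = b * a) {ϑ : T → ℂ}
    (hϑ : IsIrrCharacter T ϑ) :
    classInner (fun n : N => ϑ n) (fun n : N => ϑ n) =
      ((Finset.univ.filter (fun μ : IrrCharacter (T ⧸ N) => twist N μ ϑ = ϑ)).card : ℂ) := by
  have h1 : ∀ μ : IrrCharacter (T ⧸ N), classInner (twist N μ ϑ) ϑ =
      if twist N μ ϑ = ϑ then 1 else 0 := fun μ =>
    classInner_irr (isIrrCharacter_twist N hQ μ hϑ) hϑ
  have h2 : ((Finset.univ.filter (fun μ : IrrCharacter (T ⧸ N) => twist N μ ϑ = ϑ)).card : ℂ) =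
      ∑ μ : IrrCharacter (T ⧸ N), classInner (twist N μ ϑ) ϑ := by
    simp only [h1]
    rw [Finset.sum_ite, Finset.sum_const_zero, add_zero, Finset.sum_const, nsmul_eq_mul, mul_one]
  rw [h2]
  simp only [classInner, twist]
  rw [← Finset.mul_sum, Finset.sum_comm]
  have h3 : ∀ t : T, ∑ μ : IrrCharacter (T ⧸ N), (μ : T ⧸ N → ℂ) (t : T ⧸ N) * ϑ t * conj (ϑ t) =
      if t ∈ N then (Nat.card (T ⧸ N) : ℂ) * (ϑ t * conj (ϑ t)) else 0 := by
    intro t
    have := sum_lin hQ (t : T ⧸ N)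
    simp only [mul_assoc]
    rw [← Finset.sum_mul, this]
    by_cases ht : t ∈ N
    · rw [if_pos ((QuotientGroup.eq_one_iff t).2 ht), if_pos ht]
    · rw [if_neg (fun h => ht ((QuotientGroup.eq_one_iff t).1 h)), if_neg ht, zero_mul]
  simp only [h3]
  rw [← Finset.sum_filter, ← Finset.mul_sum]
  have h4 : ∑ t ∈ Finset.univ.filter (fun t : T => t ∈ N), ϑ t * conj (ϑ t) =
      ∑ n : N, ϑ n * conj (ϑ n) := by
    rw [← Finset.sum_subtype (p := fun t : T => t ∈ N) (f := fun t => ϑ t * conj (ϑ t))]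
    intro x
    simp
  rw [h4, ← mul_assoc]
  congr 1
  have h5 : (Nat.card T : ℂ) = (Nat.card (T ⧸ N) : ℂ) * (Nat.card N : ℂ) := by
    rw [Subgroup.card_eq_card_quotient_mul_card_subgroup N]
    push_cast
    rfl
  have h6 : (Nat.card (T ⧸ N) : ℂ) ≠ 0 := by
    exact_mod_cast Nat.card_pos.ne'
  have h7 : (Nat.card N : ℂ) ≠ 0 := by
    exact_mod_cast Nat.card_pos.ne'
  rw [h5]
  field_simp

/-- `ϑ_N` has norm one if no nontrivial linear character of `T/N` fixes `ϑ` -/
theorem norm_restrict_eq_one (hQ : ∀ a b : T ⧸ N, a * b = b * a) {ϑ : T → ℂ}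
    (hϑ : IsIrrCharacter T ϑ)
    (h : ∀ μ : IrrCharacter (T ⧸ N), twist N μ ϑ = ϑ → ∀ q, (μ : T ⧸ N → ℂ) q = 1) :
    classInner (fun n : N => ϑ n) (fun n : N => ϑ n) = 1 := by
  classical
  rw [norm_restrict_eq_card_stab N hQ hϑ]
  have : (Finset.univ.filter (fun μ : IrrCharacter (T ⧸ N) => twist N μ ϑ = ϑ)) =
      {⟨fun _ => 1, isIrrCharacter_one⟩} := by
    ext μ
    simp only [Finset.mem_filter, Finset.mem_univ, true_and, Finset.mem_singleton]
    constructor
    · intro h'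
      apply Subtype.ext
      funext q
      exact h μ h' q
    · rintro rfl
      funext t
      simp [twist]
  rw [this]
  simp

omit hN in
/-- `[ϑ_N, ϑ_N] = |T : N|` if the irreducible character `ϑ` vanishes off `N` -/
theorem norm_restrict_of_vanish {ϑ : T → ℂ} (hϑ : IsIrrCharacter T ϑ)
    (hv : ∀ t : T, t ∉ N → ϑ t = 0) :
    classInner (fun n : N => ϑ n) (fun n : N => ϑ n) = (N.index : ℂ) := by
  classical
  have h1 := classInner_irr_self hϑ
  simp only [classInner] at h1 ⊢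
  have h4 : ∑ t : T, ϑ t * conj (ϑ t) = ∑ n : N, ϑ n * conj (ϑ n) := by
    rw [← Finset.sum_subtype (s := Finset.univ.filter (fun t : T => t ∈ N))
      (p := fun t : T => t ∈ N) (f := fun t => ϑ t * conj (ϑ t)) (by intro x; simp)]
    symm
    apply Finset.sum_subset (Finset.filter_subset _ _)
    intro x _ hx
    rw [hv x (by simpa using hx), zero_mul]
  rw [← h4]
  have h5 : (Nat.card T : ℂ) = (N.index : ℂ) * (Nat.card N : ℂ) := by
    rw [← Subgroup.index_mul_card N]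
    push_cast
    rfl
  have h7 : (Nat.card N : ℂ) ≠ 0 := by
    exact_mod_cast Nat.card_pos.ne'
  have h8 : (Nat.card T : ℂ) ≠ 0 := by
    exact_mod_cast Nat.card_pos.ne'
  have h9 : ∑ t : T, ϑ t * conj (ϑ t) = (Nat.card T : ℂ) := by
    field_simp at h1
    exact h1
  rw [h9, h5]
  field_simp

end norm

end Cfsg.Agent.Lib.Helper10
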