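import Mathlib
import Cfsg.Agent.Lib.Helper10.CyclicTI
import Cfsg.Agent.Lib.Helper10.Star
import Cfsg.Agent.Lib.Helper10.Virtual
import Cfsg.Agent.CharLib.Clifford
import Cfsg.Agent.S1528

/-!
A T.I. subgroup `K` of `G` whose normaliser `N` is a Frobenius group with kernel `K`.
-/

set_option autoImplicit false

universe u

namespace Cfsg.Agent.Lib.Helper10

open Cfsg Cfsg.Agent.CharLib Cfsg.Agent.CharLib.H2
open scoped ComplexConjugate

section

variable {G : Type u} [Group G] [Fintype G] (K : Subgroup G)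

variable [Fintype ↥(Subgroup.normalizer (K : Set G))]

/-- a relevant character of the normaliser is induced from the kernel -/
theorem tif_induced (hC : ∀ k ∈ K, k ≠ 1 → Subgroup.centralizer ({k} : Set G) ≤ K)
    {χ : ↥(Subgroup.normalizer (K : Set G)) → ℂ} (hχ : IsIrrCharacter ↥(Subgroup.normalizer (K : Set G)) χ) (hrel : ∃ k : ↥(Subgroup.normalizer (K : Set G)), (k : G) ∈ K ∧ χ k ≠ χ 1) :
    ∃ φ : ↥(K.subgroupOf (Subgroup.normalizer (K : Set G))) → ℂ, IsIrrCharacter ↥(K.subgroupOf (Subgroup.normalizer (K : Set G))) φ ∧ χ = indFun (K.subgroupOf (Subgroup.normalizer (K : Set G))) φ := by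
  classical
  apply Cfsg.Agent.S1528.result (K.subgroupOf (Subgroup.normalizer (K : Set G))) _ χ hχ
  · obtain ⟨k, hk, hne⟩ := hrel
    exact ⟨k, Subgroup.mem_subgroupOf.2 hk, hne⟩
  · intro n hn hn1 y hy
    rw [Subgroup.mem_subgroupOf] at hn ⊢
    apply hC (n : G) hn (fun h => hn1 (Subtype.ext h))
    rw [Subgroup.mem_centralizer_singleton_iff] at hy ⊢
    exact congrArg Subtype.val hy

theorem tif_vanish (hC : ∀ k ∈ K, k ≠ 1 → Subgroup.centralizer ({k} : Set G) ≤ K)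
    {χ : ↥(Subgroup.normalizer (K : Set G)) → ℂ} (hχ : IsIrrCharacter ↥(Subgroup.normalizer (K : Set G)) χ) (hrel : ∃ k : ↥(Subgroup.normalizer (K : Set G)), (k : G) ∈ K ∧ χ k ≠ χ 1)
    (x : ↥(Subgroup.normalizer (K : Set G))) (hx : (x : G) ∉ K) : χ x = 0 := by
  obtain ⟨φ, -, rfl⟩ := tif_induced K hC hχ hrel
  exact indFun_of_not_mem inferInstance φ (fun h => hx (Subgroup.mem_subgroupOf.1 h))

omit [Fintype G] [Fintype ↥(Subgroup.normalizer (K : Set G))] in
theorem tif_TI (hTI : ∀ g : G, g ∉ (Subgroup.normalizer (K : Set G)) → ∀ k ∈ K, g * k * g⁻¹ ∈ K → k = 1) :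
    ∀ g : G, g ∉ (Subgroup.normalizer (K : Set G)) → ∀ t ∈ ((K : Set G) \ {1}), g * t * g⁻¹ ∉ ((K : Set G) \ {1}) := by
  intro g hg t ht h
  exact ht.2 (hTI g hg t ht.1 h.1)

end

end Cfsg.Agent.Lib.Helper10
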