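import Mathlib
import Cfsg.Agent.Lib.Helper10.TIFrob
import Cfsg.Agent.Lib.Helper10.RelChar
import Cfsg.Agent.Lib.Helper10.Coh

/-!
Coherence consequences for a T.I. subgroup with Frobenius normaliser.
-/

set_option autoImplicit false

universe u

namespace Cfsg.Agent.Lib.Helper10

open Cfsg Cfsg.Agent.CharLib Cfsg.Agent.CharLib.H2
open scoped ComplexConjugate

section

variable {G : Type u} [Group G] [Fintype G] (K : Subgroup G)
variable [Fintype ↥(Subgroup.normalizer (K : Set G))]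

/-- the relevant irreducible characters of the normaliser -/
def relSet : Set (↥(Subgroup.normalizer (K : Set G)) → ℂ) :=
  {χ | IsIrrCharacter ↥(Subgroup.normalizer (K : Set G)) χ ∧
    ∃ k : ↥(Subgroup.normalizer (K : Set G)), (k : G) ∈ K ∧ χ k ≠ χ 1}

omit [Fintype G] [Fintype ↥(Subgroup.normalizer (K : Set G))] in
theorem rel_iff (χ : ↥(Subgroup.normalizer (K : Set G)) → ℂ) :
    Rel (K.subgroupOf (Subgroup.normalizer (K : Set G))) χ ↔
      ∃ k : ↥(Subgroup.normalizer (K : Set G)), (k : G) ∈ K ∧ χ k ≠ χ 1 := by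
  constructor
  · rintro ⟨x, hx, h⟩
    exact ⟨x, Subgroup.mem_subgroupOf.1 hx, h⟩
  · rintro ⟨x, hx, h⟩
    exact ⟨x, Subgroup.mem_subgroupOf.2 hx, h⟩

variable {K}

/-- the basic elements `χ(1) ξ - ξ(1) χ` -/
theorem tif_alpha (hC : ∀ k ∈ K, k ≠ 1 → Subgroup.centralizer ({k} : Set G) ≤ K)
    {star : (↥(Subgroup.normalizer (K : Set G)) → ℂ) → (G → ℂ)}
    (hstar : IsLinearIsometryOn (zspan (relSet K)) star)
    {χ ξ : ↥(Subgroup.normalizer (K : Set G)) → ℂ} (hχ : χ ∈ relSet K) (hξ : ξ ∈ relSet K) {n n' : ℕ}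
    (hn : χ 1 = n) (hn' : ξ 1 = n') :
    ((n : ℤ) • ξ + (-(n' : ℤ)) • χ) ∈ zspanOn (relSet K) ({1}ᶜ : Set ↥(Subgroup.normalizer (K : Set G))) ∧
    star ((n : ℤ) • ξ + (-(n' : ℤ)) • χ) = (n : ℤ) • star ξ + (-(n' : ℤ)) • star χ ∧
    (∀ x : ↥(Subgroup.normalizer (K : Set G)), (x : G) ∉ ((K : Set G) \ {1}) →
      ((n : ℤ) • ξ + (-(n' : ℤ)) • χ) x = 0) ∧
    IsClassFunction _ ((n : ℤ) • ξ + (-(n' : ℤ)) • χ) := by
  have h1 : ((n : ℤ) • ξ + (-(n' : ℤ)) • χ) 1 = 0 := by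
    simp only [Pi.add_apply, Pi.smul_apply, hn, hn']
    simp only [zsmul_eq_mul]
    push_cast; ring
  refine ⟨?_, ?_, ?_, ?_⟩
  · rw [mem_zspanOn_one_iff]
    exact ⟨zspan_add (zspan_zsmul (mem_zspan_of_mem hξ) _) (zspan_zsmul (mem_zspan_of_mem hχ) _), h1⟩
  · exact lio_comb hstar (fun α ha m => zspan_zsmul ha m) (mem_zspan_of_mem hξ) (mem_zspan_of_mem hχ) _ _
  · intro x hx
    by_cases hxK : (x : G) ∈ K
    · have hx1 : x = 1 := by
        by_contra h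
        exact hx ⟨hxK, fun h' => h (Subtype.ext h')⟩
      rw [hx1, h1]
    · simp only [Pi.add_apply, Pi.smul_apply]
      rw [tif_vanish K hC hχ.1 hχ.2 x hxK, tif_vanish K hC hξ.1 hξ.2 x hxK]
      simp
  · intro g h
    simp only [Pi.add_apply, Pi.smul_apply]
    rw [isClassFunction_of_irr hχ.1 g h, isClassFunction_of_irr hξ.1 g h]

open Classical in
/-- the sum of `χ(1) ξ - ξ(1) χ` over the group vanishes -/
theorem tif_alpha_sum (hC : ∀ k ∈ K, k ≠ 1 → Subgroup.centralizer ({k} : Set G) ≤ K)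
    {χ ξ : ↥(Subgroup.normalizer (K : Set G)) → ℂ} (hχ : χ ∈ relSet K) (hξ : ξ ∈ relSet K) (a b : ℤ) :
    ∑ x : ↥(Subgroup.normalizer (K : Set G)), (a • ξ + b • χ) x = 0 := by
  have h : ∀ {ζ : ↥(Subgroup.normalizer (K : Set G)) → ℂ}, ζ ∈ relSet K →
      ∑ x : ↥(Subgroup.normalizer (K : Set G)), ζ x = 0 := by
    intro ζ hζ
    rw [← sum_rel_eq_zero (K.subgroupOf (Subgroup.normalizer (K : Set G))) hζ.1 ((rel_iff K ζ).2 hζ.2)]
    refine Finset.sum_congr rfl fun x _ => ?_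
    by_cases hx : x ∈ K.subgroupOf (Subgroup.normalizer (K : Set G))
    · rw [if_pos hx]
    · rw [if_neg hx]
      exact tif_vanish K hC hζ.1 hζ.2 x (fun h' => hx (Subgroup.mem_subgroupOf.2 h'))
  simp only [Pi.add_apply, Pi.smul_apply, Finset.sum_add_distrib, ← Finset.smul_sum, h hχ, h hξ]
  simp

/-- a class function of the normaliser orthogonal to all `χ(1) ξ - ξ(1) χ` is constant on `K \ {1}` -/
theorem tif_const {φ : ↥(Subgroup.normalizer (K : Set G)) → ℂ} (hφ : IsClassFunction _ φ)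
    (horth : ∀ χ ∈ relSet K, ∀ ξ ∈ relSet K, classInner φ ξ * χ 1 = classInner φ χ * ξ 1)
    {χ₀ : ↥(Subgroup.normalizer (K : Set G)) → ℂ} (hχ₀ : χ₀ ∈ relSet K) :
    ∃ t : ℂ, (∀ ξ ∈ relSet K, classInner φ ξ = t * ξ 1) ∧
      ∀ k : ↥(Subgroup.normalizer (K : Set G)), (k : G) ∈ K → k ≠ 1 →
      φ k = (open Classical in ∑ μ : IrrCharacter ↥(Subgroup.normalizer (K : Set G)),
        (if Rel (K.subgroupOf (Subgroup.normalizer (K : Set G))) μ then 0 else classInner φ μ *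
          (μ : ↥(Subgroup.normalizer (K : Set G)) → ℂ) 1)) -
        t * ((K.subgroupOf (Subgroup.normalizer (K : Set G))).index : ℂ) := by
  have h0 : χ₀ 1 ≠ 0 := irr_apply_one_ne_zero ⟨χ₀, hχ₀.1⟩
  have ht : ∀ ξ ∈ relSet K, classInner φ ξ = classInner φ χ₀ / χ₀ 1 * ξ 1 := by
    intro ξ hξ
    have := horth χ₀ hχ₀ ξ hξ
    field_simp
    exact this
  refine ⟨classInner φ χ₀ / χ₀ 1, ht, ?_⟩
  intro k hk hk1
  exact value_of_prop (K.subgroupOf (Subgroup.normalizer (K : Set G))) hφ _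
    (fun ξ hξ => ht ξ ⟨ξ.2, (rel_iff K ξ).1 hξ⟩) (Subgroup.mem_subgroupOf.2 hk) hk1

end

end Cfsg.Agent.Lib.Helper10
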